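import Mathlib
import Cfsg.Prelude.Def_Classical
import Cfsg.Agent.Lib.Helper95.JAsm

set_option autoImplicit false

namespace Cfsg.Agent.Lib.Helper95.JQuad

open Module Matrix Cfsg.Agent.Lib.Helper95.NilJordan Cfsg.Agent.Lib.Helper95.JType
  Cfsg.Agent.Lib.Helper95.JAsm

universe u

variable {F : Type u} [Field F]

/-- realisable rank sequences of unipotent isometries of quadratic forms with nondegenerate
polar form -/
def GoodQ (F : Type u) [Field F] (ρ : ℕ → ℕ) : Prop :=
  ∃ (V : Type u) (_ : AddCommGroup V) (_ : Module F V) (_ : FiniteDimensional F V)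
    (Q : QuadraticForm F V) (g : Module.End F V),
    (∀ x, (∀ y, QuadraticMap.polar Q x y = 0) → x = 0) ∧ (∀ x, Q (g x) = Q x) ∧
    IsNilpotent (g - 1) ∧ ∀ i, rk (g - 1) i = ρ i

theorem goodQ_zero : GoodQ F (fun _ => 0) := by
  refine ⟨PUnit, inferInstance, inferInstance, inferInstance, 0, 1, ?_, ?_, ?_, ?_⟩
  · intro x _
    exact Subsingleton.elim _ _
  · intro x
    simp
  · exact ⟨1, by simp⟩
  · intro i
    rw [rk]
    exact Module.finrank_zero_of_subsingleton

theorem goodQ_add (ρ ρ' : ℕ → ℕ) (h : GoodQ F ρ) (h' : GoodQ F ρ') :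
    GoodQ F (fun i => ρ i + ρ' i) := by
  obtain ⟨V, _, _, _, Q, g, hf2, hf3, hf4, hf5⟩ := h
  obtain ⟨V', _, _, _, Q', g', hf2', hf3', hf4', hf5'⟩ := h'
  refine ⟨V × V', inferInstance, inferInstance, inferInstance,
    QuadraticMap.prod Q Q', g.prodMap g', ?_, ?_, ?_, ?_⟩
  · rintro ⟨x, x'⟩ hx
    have h1 : x = 0 := by
      apply hf2
      intro y
      have := hx (y, 0)
      simpa [QuadraticMap.polar_prod] using this
    have h2 : x' = 0 := by
      apply hf2'
      intro y
      have := hx (0, y)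
      simpa [QuadraticMap.polar_prod] using this
    rw [h1, h2]
    rfl
  · rintro ⟨x, x'⟩
    simp only [QuadraticMap.prod_apply, LinearMap.prodMap_apply]
    rw [hf3, hf3']
  · rw [prodMap_sub_one]
    exact isNilpotent_prodMap _ _ hf4 hf4'
  · intro i
    rw [prodMap_sub_one, rk_prodMap, hf5, hf5']

/-! ### the hyperbolic pair piece -/

section pair

/-- the bilinear form `((x, y), (x', y')) ↦ x ⬝ y'` -/
noncomputable def hypB (F : Type u) [Field F] (j : ℕ) :
    LinearMap.BilinForm F ((Fin j → F) × (Fin j → F)) :=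
  LinearMap.mk₂ F (fun p q => p.1 ⬝ᵥ q.2)
    (by
      intro p p' q
      simp only [Prod.fst_add, add_dotProduct])
    (by
      intro c p q
      simp only [Prod.smul_fst, smul_dotProduct])
    (by
      intro p q q'
      simp only [Prod.snd_add, dotProduct_add])
    (by
      intro c p q
      simp only [Prod.smul_snd, dotProduct_smul])

/-- the hyperbolic quadratic form `(x, y) ↦ x ⬝ y` -/
noncomputable def hypQ (F : Type u) [Field F] (j : ℕ) :
    QuadraticForm F ((Fin j → F) × (Fin j → F)) :=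
  LinearMap.BilinMap.toQuadraticMap (hypB F j)

variable (j : ℕ)

theorem hypQ_apply (p : (Fin j → F) × (Fin j → F)) : hypQ F j p = p.1 ⬝ᵥ p.2 := rfl

theorem polar_hypQ (p q : (Fin j → F) × (Fin j → F)) :
    QuadraticMap.polar (hypQ F j) p q = p.1 ⬝ᵥ q.2 + q.1 ⬝ᵥ p.2 := by
  rw [hypQ, LinearMap.BilinMap.polar_toQuadraticMap]
  rfl

theorem hypQ_sep (p : (Fin j → F) × (Fin j → F))
    (h : ∀ q, QuadraticMap.polar (hypQ F j) p q = 0) : p = 0 := by
  obtain ⟨x, y⟩ := p
  have hx : x = 0 := by
    funext i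
    have := h (0, Pi.single i 1)
    rw [polar_hypQ] at this
    simpa using this
  have hy : y = 0 := by
    funext i
    have := h (Pi.single i 1, 0)
    rw [polar_hypQ] at this
    simpa using this
  rw [hx, hy]
  rfl

theorem gpair_isomQ (p : (Fin j → F) × (Fin j → F)) :
    hypQ F j (gpair F j p) = hypQ F j p := by
  rw [hypQ_apply, hypQ_apply]
  simp only [gpair, LinearMap.prodMap_apply]
  rw [wv_dot]

theorem goodQ_pair : GoodQ F (fun i => 2 * (j - i)) :=
  ⟨_, inferInstance, inferInstance, inferInstance, hypQ F j, gpair F j, hypQ_sep j,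
    gpair_isomQ j, isNilpotent_gpair j, rk_gpair j⟩

end pair

section transport

theorem isNilpotent_of_isConj {α β : Type} [Fintype α] [DecidableEq α] [Fintype β]
    [DecidableEq β] (X : Matrix α α F) (Y : Matrix β β F) (e : α ≃ β)
    (h : IsConj (Matrix.reindex e e X) Y) (hX : IsNilpotent (X - 1)) : IsNilpotent (Y - 1) := by
  obtain ⟨k, hk⟩ := hX
  obtain ⟨c, hc⟩ := h
  have h1 : (c : Matrix β β F) * (Matrix.reindex e e X - 1) ^ k = (Y - 1) ^ k * c := by
    have hs : SemiconjBy (c : Matrix β β F) (Matrix.reindex e e X - 1) (Y - 1) :=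
      hc.sub_right (SemiconjBy.one_right _)
    exact (hs.pow_right k).eq
  have h3 : (Matrix.reindex e e X - 1) ^ k = Matrix.reindex e e ((X - 1) ^ k) := by
    have := map_pow (Matrix.reindexAlgEquiv F F e) (X - 1) k
    rw [map_sub, map_one] at this
    simp only [Matrix.coe_reindexAlgEquiv] at this
    exact this.symm
  rw [h3, hk] at h1
  refine ⟨k, ?_⟩
  have h4 : (Y - 1) ^ k * (c : Matrix β β F) * ((c⁻¹ : (Matrix β β F)ˣ) : Matrix β β F) = 0 := by
    rw [← h1]
    simp
  rwa [mul_assoc, Units.mul_inv, mul_one] at h4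

theorem polar_nondeg_of_sep {V : Type*} [AddCommGroup V] [Module F V] (Q : QuadraticForm F V)
    (h : ∀ x, (∀ y, QuadraticMap.polar Q x y = 0) → x = 0) :
    (QuadraticMap.polarBilin Q).Nondegenerate := by
  refine ⟨fun x hx => h x hx, fun y hy => h y (fun x => ?_)⟩
  have := hy x
  rw [QuadraticMap.polarBilin_apply_apply] at this
  rw [QuadraticMap.polar_comm]
  exact this

theorem exists_isom_of_goodQ (n : ℕ) (ρ : ℕ → ℕ) (h : GoodQ F ρ) (h0 : ρ 0 = n) :
    ∃ Q : QuadraticForm F (Fin n → F), (QuadraticMap.polarBilin Q).Nondegenerate ∧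
      ∃ A : ↥(Cfsg.isometryGroup F ⇑Q),
        IsNilpotent (((A : Matrix.GeneralLinearGroup (Fin n) F) : Matrix (Fin n) (Fin n) F) - 1) ∧
        ∀ i, ((((A : Matrix.GeneralLinearGroup (Fin n) F) : Matrix (Fin n) (Fin n) F) - 1) ^ i).rank
          = ρ i := by
  classical
  obtain ⟨V, _, _, _, Q, g, hf2, hf3, hf4, hf5⟩ := h
  have hdim : finrank F V = n := by
    rw [← h0, ← hf5 0, rk, pow_zero]
    have : LinearMap.range (1 : Module.End F V) = ⊤ := LinearMap.range_id
    rw [this, finrank_top]
  let b : Basis (Fin n) F V := Module.finBasisOfFinrankEq F V hdim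
  let φ : (Fin n → F) →ₗ[F] V := (b.equivFun.symm : (Fin n → F) →ₗ[F] V)
  have hφ : ∀ (u : Fin n → F), φ (LinearMap.toMatrix b b g *ᵥ u) = g (φ u) := by
    intro u
    apply b.repr.injective
    apply Finsupp.ext
    intro i
    have h1 := LinearMap.toMatrix_mulVec_repr b b g (φ u)
    have h2 : (b.repr (φ u) : Fin n → F) = u := by
      funext k
      show b.equivFun (b.equivFun.symm u) k = u k
      rw [LinearEquiv.apply_symm_apply]
    rw [h2] at h1
    have h3 : b.repr (φ (LinearMap.toMatrix b b g *ᵥ u)) i = (LinearMap.toMatrix b b g *ᵥ u) i := by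
      show b.equivFun (b.equivFun.symm _) i = _
      rw [LinearEquiv.apply_symm_apply]
    rw [h3, h1]
  have hunit : IsUnit (LinearMap.toMatrix b b g) := by
    have h1 : IsUnit (LinearMap.toMatrix b b g - 1 + 1) :=
      (isNilpotent_toMatrix b g hf4).isUnit_add_one
    rwa [sub_add_cancel] at h1
  obtain ⟨A, hA⟩ := hunit
  have hmem : A ∈ Cfsg.isometryGroup F ⇑(Q.comp φ) := by
    intro u v
    show (Q.comp φ) ((A : Matrix (Fin n) (Fin n) F) *ᵥ u) = (Q.comp φ) u
    rw [hA, QuadraticMap.comp_apply, QuadraticMap.comp_apply, hφ, hf3]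
  refine ⟨Q.comp φ, ?_, ⟨A, hmem⟩, ?_, ?_⟩
  · apply polar_nondeg_of_sep
    intro x hx
    have h1 : φ x = 0 := by
      apply hf2
      intro y
      have h2 := hx (b.equivFun y)
      have h3 : φ (b.equivFun y) = y := b.equivFun.symm_apply_apply y
      unfold QuadraticMap.polar at h2 ⊢
      simp only [QuadraticMap.comp_apply, map_add, h3] at h2
      exact h2
    have h4 : Function.Injective φ := b.equivFun.symm.injective
    exact h4 (by rw [h1, map_zero])
  · show IsNilpotent ((A : Matrix (Fin n) (Fin n) F) - 1)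
    rw [hA]
    exact isNilpotent_toMatrix b g hf4
  · intro i
    show (((A : Matrix (Fin n) (Fin n) F) - 1) ^ i).rank = ρ i
    rw [hA, rank_toMatrix_pow, hf5]

/-- Gram matrix facts for an isometry of a quadratic form on `F^n` -/
theorem gram_facts {n : ℕ} (Q : QuadraticForm F (Fin n → F))
    (hQ : (QuadraticMap.polarBilin Q).Nondegenerate)
    (A : Matrix.GeneralLinearGroup (Fin n) F) (hA : A ∈ Cfsg.isometryGroup F ⇑Q) :
    ∃ G : Matrix (Fin n) (Fin n) F, IsUnit G.det ∧
      (A : Matrix (Fin n) (Fin n) F)ᵀ * G * (A : Matrix (Fin n) (Fin n) F) = G ∧ Gᵀ = G ∧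
      ∀ v : Fin n → F, v ⬝ᵥ (G *ᵥ v) = 2 • Q v := by
  classical
  have hiso : ∀ u : Fin n → F, Q ((A : Matrix (Fin n) (Fin n) F) *ᵥ u) = Q u := fun u => hA u u
  refine ⟨LinearMap.BilinForm.toMatrix' (QuadraticMap.polarBilin Q), ?_, ?_, ?_, ?_⟩
  · rw [isUnit_iff_ne_zero, ← Matrix.nondegenerate_iff_det_ne_zero]
    exact LinearMap.BilinForm.nondegenerate_toMatrix'_iff.mpr hQ
  · have hcomp : LinearMap.BilinForm.comp (QuadraticMap.polarBilin Q)
        (Matrix.toLin' (A : Matrix (Fin n) (Fin n) F))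
        (Matrix.toLin' (A : Matrix (Fin n) (Fin n) F)) = QuadraticMap.polarBilin Q := by
      apply LinearMap.ext
      intro x
      apply LinearMap.ext
      intro y
      simp only [LinearMap.BilinForm.comp_apply, QuadraticMap.polarBilin_apply_apply,
        Matrix.toLin'_apply]
      unfold QuadraticMap.polar
      rw [← Matrix.mulVec_add, hiso, hiso, hiso]
    have h1 := LinearMap.BilinForm.toMatrix'_comp (QuadraticMap.polarBilin Q)
      (Matrix.toLin' (A : Matrix (Fin n) (Fin n) F)) (Matrix.toLin' (A : Matrix (Fin n) (Fin n) F))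
    rw [hcomp, LinearMap.toMatrix'_toLin'] at h1
    exact h1.symm
  · ext a c
    rw [Matrix.transpose_apply, LinearMap.BilinForm.toMatrix'_apply,
      LinearMap.BilinForm.toMatrix'_apply, QuadraticMap.polarBilin_apply_apply,
      QuadraticMap.polarBilin_apply_apply, QuadraticMap.polar_comm]
  · intro v
    have h1 : v ⬝ᵥ (LinearMap.BilinForm.toMatrix' (QuadraticMap.polarBilin Q) *ᵥ v) =
        QuadraticMap.polarBilin Q v v := by
      have := Matrix.toBilin'_apply' (LinearMap.BilinForm.toMatrix' (QuadraticMap.polarBilin Q)) v v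
      rw [Matrix.toBilin'_toMatrix'] at this
      exact this.symm
    rw [h1, QuadraticMap.polarBilin_apply_apply, QuadraticMap.polar_self]

theorem even_rank_orth_odd {n : ℕ} (Q : QuadraticForm F (Fin n → F))
    (hQ : (QuadraticMap.polarBilin Q).Nondegenerate)
    (A : Matrix.GeneralLinearGroup (Fin n) F) (hA : A ∈ Cfsg.isometryGroup F ⇑Q)
    (h2 : (2 : F) ≠ 0) (hnil : IsNilpotent ((A : Matrix (Fin n) (Fin n) F) - 1)) (s : ℕ) :
    Even ((((A : Matrix (Fin n) (Fin n) F) - 1) ^ (2 * s + 1)).rank) := by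
  obtain ⟨G, hG, hiso, hsymm, -⟩ := gram_facts Q hQ A hA
  exact even_rank_odd_pow G _ hG hiso hsymm h2 hnil s

theorem even_rank_orth_char2 [CharP F 2] {n : ℕ} (Q : QuadraticForm F (Fin n → F))
    (hQ : (QuadraticMap.polarBilin Q).Nondegenerate)
    (A : Matrix.GeneralLinearGroup (Fin n) F) (hA : A ∈ Cfsg.isometryGroup F ⇑Q) (s : ℕ) :
    Even ((((A : Matrix (Fin n) (Fin n) F) - 1) ^ (2 * s)).rank) := by
  obtain ⟨G, hG, hiso, -, halt⟩ := gram_facts Q hQ A hA
  refine even_rank_even_pow G _ hG hiso (fun v => ?_) s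
  rw [halt, two_smul]
  exact CharTwo.add_self_eq_zero _

end transport


/-! ### the Cayley transform piece (odd size, characteristic not 2) -/

section cayley

/-- the inverse of `1 - sh` -/
noncomputable def cinv (F : Type u) [Field F] (n : ℕ) : Module.End F (Fin n → F) :=
  ∑ k ∈ Finset.range n, (sh F n) ^ k

/-- the Cayley transform `(1 + sh) (1 - sh)⁻¹` -/
noncomputable def cay (F : Type u) [Field F] (n : ℕ) : Module.End F (Fin n → F) :=
  (1 + sh F n) * cinv F n

/-- signed reversal -/
noncomputable def srev (F : Type u) [Field F] (n : ℕ) : Module.End F (Fin n → F) where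
  toFun y := fun i => (-1 : F) ^ (i : ℕ) * y (Fin.rev i)
  map_add' x y := by
    funext i
    simp only [Pi.add_apply]
    ring
  map_smul' c x := by
    funext i
    simp only [Pi.smul_apply, smul_eq_mul, RingHom.id_apply]
    ring

variable (n : ℕ)

theorem one_sub_sh_mul_cinv : (1 - sh F n) * cinv F n = 1 := by
  rw [cinv, mul_neg_geom_sum, sh_pow_self, sub_zero]

theorem cinv_mul_one_sub_sh : cinv F n * (1 - sh F n) = 1 := by
  rw [cinv, geom_sum_mul_neg, sh_pow_self, sub_zero]

theorem cinv_comm : Commute (sh F n) (cinv F n) := by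
  unfold cinv
  apply Commute.sum_right
  intro k _
  exact (Commute.refl (sh F n)).pow_right k

theorem cay_sub_one : cay F n - 1 = (2 : F) • (sh F n * cinv F n) := by
  have h := one_sub_sh_mul_cinv (F := F) n
  have e : cay F n - 1 = (1 + sh F n) * cinv F n - (1 - sh F n) * cinv F n := by rw [h, cay]
  rw [e, ← sub_mul, ← smul_mul_assoc, two_smul]
  congr 1
  abel

theorem cay_sub_one_pow (i : ℕ) :
    (cay F n - 1) ^ i = ((2 : F) ^ i) • ((sh F n) ^ i * (cinv F n) ^ i) := by
  rw [cay_sub_one, smul_pow, (cinv_comm (F := F) n).mul_pow]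

theorem isNilpotent_cay : IsNilpotent (cay F n - 1) :=
  ⟨n, by rw [cay_sub_one_pow, sh_pow_self, zero_mul, smul_zero]⟩

theorem cinv_pow_surjective (i : ℕ) : Function.Surjective ((cinv F n) ^ i) := by
  have hc : Commute (cinv F n) (1 - sh F n) :=
    ((Commute.one_right (cinv F n)).sub_right (cinv_comm (F := F) n).symm)
  have h : (cinv F n) ^ i * (1 - sh F n) ^ i = 1 := by
    rw [← hc.mul_pow, cinv_mul_one_sub_sh, one_pow]
  intro y
  refine ⟨((1 - sh F n) ^ i) y, ?_⟩
  have h1 := congrArg (fun φ : Module.End F (Fin n → F) => φ y) h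
  simpa [Module.End.mul_apply] using h1

theorem rk_cay (h2 : (2 : F) ≠ 0) (i : ℕ) : rk (cay F n - 1) i = n - i := by
  rw [rk, cay_sub_one_pow, ← rk_sh (F := F) n i, rk]
  have h1 : LinearMap.range ((sh F n) ^ i * (cinv F n) ^ i) = LinearMap.range ((sh F n) ^ i) := by
    rw [Module.End.mul_eq_comp, LinearMap.range_comp,
      LinearMap.range_eq_top.mpr (cinv_pow_surjective (F := F) n i), Submodule.map_top]
  rw [LinearMap.range_smul _ _ (pow_ne_zero _ h2), h1]

theorem srev_apply (y : Fin n → F) (i : Fin n) :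
    srev F n y i = (-1 : F) ^ (i : ℕ) * y (Fin.rev i) := rfl

theorem sht_srev (y : Fin n → F) : sht F n (srev F n y) = - srev F n (sh F n y) := by
  funext i
  rw [sht_apply, Pi.neg_apply, srev_apply, sh_apply]
  by_cases h : (i : ℕ) + 1 < n
  · have h' : 0 < ((Fin.rev i : Fin n) : ℕ) := by
      rw [Fin.val_rev]
      omega
    rw [dif_pos h, dif_pos h', srev_apply]
    have e : Fin.rev (⟨(i : ℕ) + 1, h⟩ : Fin n) = ⟨((Fin.rev i : Fin n) : ℕ) - 1, by omega⟩ := by
      apply Fin.ext
      simp only [Fin.val_rev]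
      omega
    rw [e]
    simp only [pow_succ]
    ring
  · have h' : ¬ 0 < ((Fin.rev i : Fin n) : ℕ) := by
      rw [Fin.val_rev]
      omega
    rw [dif_neg h, dif_neg h']
    simp

/-- the bilinear form `(x, y) ↦ Σ (-1)^i x_i y_{n-1-i}` -/
noncomputable def revB (F : Type u) [Field F] (n : ℕ) : LinearMap.BilinForm F (Fin n → F) :=
  LinearMap.mk₂ F (fun x y => x ⬝ᵥ srev F n y)
    (by
      intro p p' q
      simp only [add_dotProduct])
    (by
      intro c p q
      simp only [smul_dotProduct])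
    (by
      intro p q q'
      simp only [map_add, dotProduct_add])
    (by
      intro c p q
      simp only [map_smul, dotProduct_smul])

/-- the quadratic form `x ↦ Σ (-1)^i x_i x_{n-1-i}` -/
noncomputable def revQ (F : Type u) [Field F] (n : ℕ) : QuadraticForm F (Fin n → F) :=
  LinearMap.BilinMap.toQuadraticMap (revB F n)

theorem revQ_apply (x : Fin n → F) : revQ F n x = x ⬝ᵥ srev F n x := rfl

theorem polar_revQ (x y : Fin n → F) :
    QuadraticMap.polar (revQ F n) x y = x ⬝ᵥ srev F n y + y ⬝ᵥ srev F n x := by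
  rw [revQ, LinearMap.BilinMap.polar_toQuadraticMap]
  rfl

theorem srev_symm (hn : Odd n) (x y : Fin n → F) : x ⬝ᵥ srev F n y = y ⬝ᵥ srev F n x := by
  simp only [dotProduct, srev_apply]
  rw [← Equiv.sum_comp Fin.revPerm]
  apply Finset.sum_congr rfl
  intro i _
  simp only [Fin.revPerm_apply, Fin.rev_rev]
  have e : (-1 : F) ^ ((Fin.rev i : Fin n) : ℕ) = (-1 : F) ^ (i : ℕ) := by
    rw [neg_one_pow_eq_pow_mod_two, neg_one_pow_eq_pow_mod_two (n := (i : ℕ))]
    congr 1
    rw [Fin.val_rev]
    obtain ⟨c, hc⟩ := hn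
    have := i.2
    omega
  rw [e]
  ring

theorem revQ_sep (hn : Odd n) (h2 : (2 : F) ≠ 0) (x : Fin n → F)
    (h : ∀ y, QuadraticMap.polar (revQ F n) x y = 0) : x = 0 := by
  funext i
  have h1 := h (Pi.single (Fin.rev i) 1)
  rw [polar_revQ, srev_symm n hn (Pi.single (Fin.rev i) 1) x, ← two_mul] at h1
  have h3 : x ⬝ᵥ srev F n (Pi.single (Fin.rev i) 1) = 0 := by
    rcases mul_eq_zero.mp h1 with h | h
    · exact absurd h h2
    · exact h
  simp only [dotProduct, srev_apply] at h3
  rw [Finset.sum_eq_single i] at h3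
  · rw [Pi.single_eq_same, mul_one] at h3
    rcases mul_eq_zero.mp h3 with h | h
    · exact h
    · exact absurd h (pow_ne_zero _ (neg_ne_zero.mpr one_ne_zero))
  · intro k _ hk
    rw [Pi.single_eq_of_ne, mul_zero, mul_zero]
    intro hh
    exact hk (Fin.rev_injective hh)
  · intro hh
    exact absurd (Finset.mem_univ i) hh

theorem revQ_add_sub (z : Fin n → F) :
    revQ F n (z + sh F n z) = revQ F n (z - sh F n z) := by
  have key : sh F n z ⬝ᵥ srev F n z = -(z ⬝ᵥ srev F n (sh F n z)) := by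
    rw [sh_dot, sht_srev, dotProduct_neg]
  rw [revQ_apply, revQ_apply]
  simp only [map_add, map_sub, add_dotProduct, dotProduct_add, sub_dotProduct, dotProduct_sub]
  rw [key]
  ring

theorem cay_isomQ (x : Fin n → F) : revQ F n (cay F n x) = revQ F n x := by
  have hx : x = cinv F n x - sh F n (cinv F n x) := by
    have h := congrArg (fun φ : Module.End F (Fin n → F) => φ x) (one_sub_sh_mul_cinv (F := F) n)
    simp only [Module.End.mul_apply, LinearMap.sub_apply, Module.End.one_apply] at h
    exact h.symm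
  have hc : cay F n x = cinv F n x + sh F n (cinv F n x) := by
    rw [cay, Module.End.mul_apply, LinearMap.add_apply, Module.End.one_apply]
  rw [hc, revQ_add_sub, ← hx]

theorem goodQ_single_odd (hn : Odd n) (h2 : (2 : F) ≠ 0) : GoodQ F (fun i => n - i) :=
  ⟨_, inferInstance, inferInstance, inferInstance, revQ F n, cay F n, revQ_sep n hn h2,
    cay_isomQ n, isNilpotent_cay n, rk_cay n h2⟩

end cayley

/-- every Jordan type whose even parts have even multiplicity is realised by a unipotent isometry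
of a quadratic form with nondegenerate polar form, in characteristic not 2 -/
theorem goodQ_of_parity_odd (h2 : (2 : F) ≠ 0) {κ : Type*} [Fintype κ] [DecidableEq κ]
    (d : κ → ℕ) (hd : ∀ k, 0 < d k)
    (hpar : ∀ j : ℕ, Even j → 0 < j → Even (Finset.univ.filter (fun k => d k = j)).card) :
    GoodQ F (fun i => ∑ k, (d k - i)) := by
  refine assemble (GoodQ F) Odd goodQ_zero goodQ_add (fun j _ => goodQ_pair j)
    (fun j _ hj => goodQ_single_odd j hj h2) d Finset.univ (fun k _ => hd k) (fun j hj => ?_)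
  rcases Nat.eq_zero_or_pos j with rfl | hj0
  · have : Finset.univ.filter (fun k => d k = 0) = ∅ := by
      apply Finset.filter_eq_empty_iff.mpr
      intro k _ hk
      have := hd k
      omega
    rw [this]
    simp
  · exact hpar j (Nat.not_odd_iff_even.mp hj) hj0

end Cfsg.Agent.Lib.Helper95.JQuad
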