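import Mathlib
import Cfsg.Prelude.Def_Classical
import Cfsg.Prelude.Def_ClassicalGeometry
import Cfsg.Agent.Lib.Helper95.JQuad
import Cfsg.Agent.Lib.Helper14.OrthIndex
import Cfsg.Agent.Lib.Helper44.OSum
import Cfsg.Agent.S2623

set_option autoImplicit false

namespace Cfsg.Agent.Lib.Helper95.JOrth

open Module Matrix QuadraticMap Cfsg.Agent.Lib.Helper95.NilJordan Cfsg.Agent.Lib.Helper95.JType
  Cfsg.Agent.Lib.Helper95.JAsm Cfsg.Agent.Lib.Helper95.JQuad
  Cfsg.Agent.Lib.Helper44.QSpace Cfsg.Agent.Lib.Helper44.OSum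

universe u

variable {F : Type u} [Field F]

/-! ### conjugation invariance of rank profiles -/

theorem conj_sub_one_pow {V V' : Type*} [AddCommGroup V] [Module F V] [AddCommGroup V']
    [Module F V'] (Φ : V ≃ₗ[F] V') (g : Module.End F V) (g' : Module.End F V')
    (h : ∀ v, g' (Φ v) = Φ (g v)) (i : ℕ) (v : V) :
    ((g' - 1) ^ i) (Φ v) = Φ (((g - 1) ^ i) v) := by
  induction i generalizing v with
  | zero => simp
  | succ i ih =>
    rw [pow_succ, Module.End.mul_apply, pow_succ, Module.End.mul_apply, LinearMap.sub_apply,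
      Module.End.one_apply, LinearMap.sub_apply, Module.End.one_apply, h, ← map_sub, ih]

theorem rk_conj {V V' : Type*} [AddCommGroup V] [Module F V] [AddCommGroup V']
    [Module F V'] (Φ : V ≃ₗ[F] V') (g : Module.End F V) (g' : Module.End F V')
    (h : ∀ v, g' (Φ v) = Φ (g v)) (i : ℕ) : rk (g' - 1) i = rk (g - 1) i := by
  have hr : LinearMap.range ((g' - 1) ^ i) =
      (LinearMap.range ((g - 1) ^ i)).map (Φ : V →ₗ[F] V') := by
    ext y
    constructor
    · rintro ⟨w, rfl⟩
      obtain ⟨v, rfl⟩ := Φ.surjective w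
      exact ⟨((g - 1) ^ i) v, ⟨v, rfl⟩, (conj_sub_one_pow Φ g g' h i v).symm⟩
    · rintro ⟨_, ⟨v, rfl⟩, rfl⟩
      exact ⟨Φ v, conj_sub_one_pow Φ g g' h i v⟩
  rw [rk, rk, hr]
  exact LinearEquiv.finrank_map_eq Φ _

theorem isNilpotent_conj {V V' : Type*} [AddCommGroup V] [Module F V] [AddCommGroup V']
    [Module F V'] (Φ : V ≃ₗ[F] V') (g : Module.End F V) (g' : Module.End F V')
    (h : ∀ v, g' (Φ v) = Φ (g v)) (hn : IsNilpotent (g - 1)) : IsNilpotent (g' - 1) := by
  obtain ⟨c, hc⟩ := hn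
  refine ⟨c, ?_⟩
  apply LinearMap.ext
  intro w
  obtain ⟨v, rfl⟩ := Φ.surjective w
  rw [conj_sub_one_pow Φ g g' h c v, hc]
  simp

/-! ### Gram matrices and the discriminant criterion on general index types -/

/-- the Gram matrix of the polar form in the standard basis -/
noncomputable def gram {ι : Type} [Fintype ι] [DecidableEq ι] (Q : QuadraticForm F (ι → F)) :
    Matrix ι ι F :=
  Matrix.of (fun i j => polar ⇑Q (Pi.single i 1) (Pi.single j 1))

theorem gram_eq_toMatrix' {ι : Type} [Fintype ι] [DecidableEq ι] (Q : QuadraticForm F (ι → F)) :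
    gram Q = LinearMap.BilinForm.toMatrix' (polarBilin Q) := by
  ext i j
  rw [LinearMap.BilinForm.toMatrix'_apply]
  rfl

theorem gram_det_ne_zero {ι : Type} [Fintype ι] [DecidableEq ι] (Q : QuadraticForm F (ι → F))
    (hS : Sep Q) : (gram Q).det ≠ 0 := by
  rw [gram_eq_toMatrix', ← Matrix.nondegenerate_iff_det_ne_zero]
  exact LinearMap.BilinForm.nondegenerate_toMatrix'_iff.mpr (nondegenerate_of_sep hS)

/-- reindexing a quadratic form along an equivalence of index types -/
noncomputable def reQ {ι κ : Type} (e : ι ≃ κ) (Q : QuadraticForm F (ι → F)) :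
    QuadraticForm F (κ → F) :=
  Q.comp (LinearMap.funLeft F F e)

theorem reQ_apply {ι κ : Type} (e : ι ≃ κ) (Q : QuadraticForm F (ι → F)) (v : κ → F) :
    reQ e Q v = Q (v ∘ e) := rfl

theorem single_comp_equiv {ι κ : Type} [DecidableEq ι] [DecidableEq κ] (e : ι ≃ κ) (i : κ) :
    (Pi.single i (1 : F) : κ → F) ∘ e = Pi.single (e.symm i) 1 := by
  funext a
  simp only [Function.comp_apply, Pi.single_apply]
  by_cases h : e a = i
  · rw [if_pos h, if_pos (by rw [← h, Equiv.symm_apply_apply])]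
  · rw [if_neg h, if_neg (fun h' => h (by rw [h', Equiv.apply_symm_apply]))]

theorem polar_reQ {ι κ : Type} (e : ι ≃ κ) (Q : QuadraticForm F (ι → F)) (x y : κ → F) :
    polar (reQ e Q) x y = polar Q (x ∘ e) (y ∘ e) := rfl

theorem gram_reQ {ι κ : Type} [Fintype ι] [DecidableEq ι] [Fintype κ] [DecidableEq κ]
    (e : ι ≃ κ) (Q : QuadraticForm F (ι → F)) :
    gram (reQ e Q) = (gram Q).submatrix e.symm e.symm := by
  ext i j
  show polar (reQ e Q) (Pi.single i 1) (Pi.single j 1) = _
  rw [polar_reQ, single_comp_equiv, single_comp_equiv]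
  rfl

theorem sep_reQ {ι κ : Type} (e : ι ≃ κ) (Q : QuadraticForm F (ι → F)) (hS : Sep Q) :
    Sep (reQ e Q) := by
  intro x hx
  have h1 : x ∘ e = 0 := by
    apply hS
    intro y
    have h2 := hx (y ∘ e.symm)
    rw [polar_reQ] at h2
    have e3 : (y ∘ e.symm) ∘ e = y := by
      funext a
      simp
    rw [e3] at h2
    exact h2
  funext k
  have := congrFun h1 (e.symm k)
  simpa using this

theorem exists_iso_of_disc [Fintype F] (h2 : (2 : F) ≠ 0) {ι ι' : Type} [Fintype ι]
    [DecidableEq ι] [Fintype ι'] [DecidableEq ι'] (hc : Fintype.card ι = Fintype.card ι')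
    (Q : QuadraticForm F (ι → F)) (Q' : QuadraticForm F (ι' → F)) (hS : Sep Q) (hS' : Sep Q')
    (hsq : IsSquare ((gram Q).det * (gram Q').det)) :
    ∃ Φ : (ι → F) ≃ₗ[F] (ι' → F), ∀ v, Q' (Φ v) = Q v := by
  let e : ι ≃ Fin (Fintype.card ι) := Fintype.equivFin ι
  let e' : ι' ≃ Fin (Fintype.card ι) := (Fintype.equivFin ι').trans (finCongr hc.symm)
  have hd : (gram (reQ e Q)).det = (gram Q).det := by
    rw [gram_reQ, Matrix.det_submatrix_equiv_self]
  have hd' : (gram (reQ e' Q')).det = (gram Q').det := by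
    rw [gram_reQ, Matrix.det_submatrix_equiv_self]
  have hsq' : IsSquare ((gram (reQ e Q)).det * (gram (reQ e' Q')).det) := by
    rw [hd, hd']
    exact hsq
  obtain ⟨g, hg⟩ := (Cfsg.Agent.S2623.result h2 (reQ e Q) (reQ e' Q')
    (nondegenerate_of_sep (sep_reQ e Q hS)) (nondegenerate_of_sep (sep_reQ e' Q' hS'))).mpr hsq'
  refine ⟨((LinearEquiv.funCongrLeft F F e).symm.trans g).trans (LinearEquiv.funCongrLeft F F e'),
    fun v => ?_⟩
  have h1 : Q' ((((LinearEquiv.funCongrLeft F F e).symm.trans g).trans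
      (LinearEquiv.funCongrLeft F F e')) v) =
      reQ e' Q' (g ((LinearEquiv.funCongrLeft F F e).symm v)) := rfl
  rw [h1, hg, reQ_apply]
  congr 1
  funext a
  show ((LinearEquiv.funCongrLeft F F e).symm v) (e a) = v a
  have h3 := (LinearEquiv.funCongrLeft F F e).apply_symm_apply v
  exact congrFun h3 a

end Cfsg.Agent.Lib.Helper95.JOrth
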