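import Mathlib
import Cfsg.Prelude.Def_Classical
import Cfsg.Prelude.Def_ClassicalGeometry
import Cfsg.Agent.Lib.Helper95.JQuad
import Cfsg.Agent.Lib.Helper14.OrthIndex
import Cfsg.Agent.Lib.Helper44.OSum
import Cfsg.Agent.S2623
import Cfsg.Agent.Lib.Helper95.JOrthA

set_option autoImplicit false

namespace Cfsg.Agent.Lib.Helper95.JOrth

open Module Matrix QuadraticMap Cfsg.Agent.Lib.Helper95.NilJordan Cfsg.Agent.Lib.Helper95.JType
  Cfsg.Agent.Lib.Helper95.JAsm Cfsg.Agent.Lib.Helper95.JQuad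
  Cfsg.Agent.Lib.Helper44.QSpace Cfsg.Agent.Lib.Helper44.OSum

universe u

variable {F : Type u} [Field F]

/-! ### Gram matrix of an orthogonal sum -/

theorem single_inl_comp_inl {ι₁ ι₂ : Type} [DecidableEq ι₁] [DecidableEq ι₂] (i : ι₁) :
    (Pi.single (Sum.inl i : ι₁ ⊕ ι₂) (1 : F) : ι₁ ⊕ ι₂ → F) ∘ Sum.inl = Pi.single i 1 := by
  funext a
  simp [Pi.single_apply]

theorem single_inl_comp_inr {ι₁ ι₂ : Type} [DecidableEq ι₁] [DecidableEq ι₂] (i : ι₁) :
    (Pi.single (Sum.inl i : ι₁ ⊕ ι₂) (1 : F) : ι₁ ⊕ ι₂ → F) ∘ Sum.inr = 0 := by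
  funext a
  simp [Pi.single_apply]

theorem single_inr_comp_inl {ι₁ ι₂ : Type} [DecidableEq ι₁] [DecidableEq ι₂] (i : ι₂) :
    (Pi.single (Sum.inr i : ι₁ ⊕ ι₂) (1 : F) : ι₁ ⊕ ι₂ → F) ∘ Sum.inl = 0 := by
  funext a
  simp [Pi.single_apply]

theorem single_inr_comp_inr {ι₁ ι₂ : Type} [DecidableEq ι₁] [DecidableEq ι₂] (i : ι₂) :
    (Pi.single (Sum.inr i : ι₁ ⊕ ι₂) (1 : F) : ι₁ ⊕ ι₂ → F) ∘ Sum.inr = Pi.single i 1 := by
  funext a
  simp [Pi.single_apply]

theorem gram_sumQ {ι₁ ι₂ : Type} [Fintype ι₁] [DecidableEq ι₁] [Fintype ι₂] [DecidableEq ι₂]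
    (Q₁ : QuadraticForm F (ι₁ → F)) (Q₂ : QuadraticForm F (ι₂ → F)) :
    gram (sumQ Q₁ Q₂) = Matrix.fromBlocks (gram Q₁) 0 0 (gram Q₂) := by
  ext i j
  show polar (sumQ Q₁ Q₂) (Pi.single i 1) (Pi.single j 1) = _
  rw [polar_sumQ]
  rcases i with i | i <;> rcases j with j | j
  · rw [single_inl_comp_inl, single_inl_comp_inl, single_inl_comp_inr, polar_zero_left, add_zero]
    rfl
  · rw [single_inl_comp_inl, single_inr_comp_inl, single_inl_comp_inr, polar_zero_right,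
      polar_zero_left, add_zero]
    rfl
  · rw [single_inr_comp_inl, single_inl_comp_inr, polar_zero_left, polar_zero_right, add_zero]
    rfl
  · rw [single_inr_comp_inl, single_inr_comp_inr, single_inr_comp_inr, polar_zero_left, zero_add]
    rfl

theorem polar_smulQ {V : Type*} [AddCommGroup V] [Module F V] (c : F) (Q : QuadraticForm F V)
    (x y : V) : polar (c • Q) x y = c * polar Q x y := by
  unfold polar
  simp only [QuadraticMap.smul_apply, smul_eq_mul]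
  ring

theorem gram_smul {ι : Type} [Fintype ι] [DecidableEq ι] (c : F) (Q : QuadraticForm F (ι → F)) :
    gram (c • Q) = c • gram Q := by
  ext i j
  show polar (c • Q) (Pi.single i 1) (Pi.single j 1) = _
  rw [polar_smulQ]
  rfl

theorem sep_smul {V : Type*} [AddCommGroup V] [Module F V] (c : F) (hc : c ≠ 0)
    (Q : QuadraticForm F V) (hS : Sep Q) : Sep (c • Q) := by
  intro x hx
  apply hS
  intro y
  have := hx y
  rw [polar_smulQ] at this
  rcases mul_eq_zero.mp this with h | h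
  · exact absurd h hc
  · exact h

theorem det_gram_sum {ι₁ ι₂ : Type} [Fintype ι₁] [DecidableEq ι₁] [Fintype ι₂] [DecidableEq ι₂]
    (c : F) (Q₁ : QuadraticForm F (ι₁ → F)) (Q₂ : QuadraticForm F (ι₂ → F)) :
    (gram (sumQ (c • Q₁) Q₂)).det = c ^ Fintype.card ι₁ * (gram Q₁).det * (gram Q₂).det := by
  rw [gram_sumQ, Matrix.det_fromBlocks_zero₁₂, gram_smul, Matrix.det_smul]

end Cfsg.Agent.Lib.Helper95.JOrth
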