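import Mathlib
import Cfsg.Prelude.Def_Classical
import Cfsg.Prelude.Def_ClassicalGeometry
import Cfsg.Agent.Lib.Helper95.JQuad
import Cfsg.Agent.Lib.Helper14.OrthIndex
import Cfsg.Agent.Lib.Helper44.OSum
import Cfsg.Agent.S2623
import Cfsg.Agent.Lib.Helper95.JOrthA
import Cfsg.Agent.Lib.Helper95.JOrthB

set_option autoImplicit false

namespace Cfsg.Agent.Lib.Helper95.JOrth

open Module Matrix QuadraticMap Cfsg.Agent.Lib.Helper95.NilJordan Cfsg.Agent.Lib.Helper95.JType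
  Cfsg.Agent.Lib.Helper95.JAsm Cfsg.Agent.Lib.Helper95.JQuad
  Cfsg.Agent.Lib.Helper44.QSpace Cfsg.Agent.Lib.Helper44.OSum

universe u

variable {F : Type u} [Field F]

theorem exists_index (μ : Multiset ℕ) :
    ∃ (t : ℕ) (d : Fin t → ℕ), Multiset.map d Finset.univ.val = μ := by
  refine ⟨μ.toList.length, fun i => μ.toList.get i, ?_⟩
  rw [Fin.univ_val_map, List.ofFn_get, Multiset.coe_toList]

theorem toLin'_sub_one {ι : Type} [Fintype ι] [DecidableEq ι] (M : Matrix ι ι F) :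
    Matrix.toLin' M - 1 = Matrix.toLin' (M - 1) := by
  rw [map_sub, Matrix.toLin'_one]
  rfl

/-- a unipotent isometry of prescribed Jordan type in any nondegenerate quadratic space of odd
characteristic, provided the type has an odd part -/
theorem exists_unip [Fintype F] (h2 : (2 : F) ≠ 0) {ι : Type} [Fintype ι] [DecidableEq ι]
    (Q₀ : QuadraticForm F (ι → F)) (hS : Sep Q₀) (μ : Multiset ℕ) (hpos : ∀ b ∈ μ, 0 < b)
    (hev : ∀ e, Even e → Even (μ.count e)) (hsum : μ.sum = Fintype.card ι)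
    (hodd : ∃ s ∈ μ, Odd s) :
    ∃ x : GL ι F, x ∈ Cfsg.isometryGroup F ⇑Q₀ ∧ IsNilpotent ((x : Matrix ι ι F) - 1) ∧
      ∀ i, (((x : Matrix ι ι F) - 1) ^ i).rank = (μ.map (fun b => b - i)).sum := by
  classical
  obtain ⟨s, hsμ, hs⟩ := hodd
  obtain ⟨t, d, hd⟩ := exists_index (μ.erase s)
  have hμ : μ = s ::ₘ Multiset.map d Finset.univ.val := by rw [hd, Multiset.cons_erase hsμ]
  have hdpos : ∀ k, 0 < d k := fun k => hpos _ (by
    rw [hμ]
    exact Multiset.mem_cons_of_mem (Multiset.mem_map_of_mem d (Finset.mem_univ_val k)))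
  have hpar : ∀ j, Even j → 0 < j → Even (Finset.univ.filter (fun k => d k = j)).card := by
    intro j hj _
    rw [← count_map_univ d j, hd, Multiset.count_erase_of_ne]
    · exact hev j hj
    · rintro rfl
      exact (Nat.not_even_iff_odd.mpr hs) hj
  have hG2 := goodQ_of_parity_odd (F := F) h2 d hdpos hpar
  have hG1 := goodQ_single_odd (F := F) s hs h2
  obtain ⟨Q₂, hQ₂, A₂, hnil₂, hrank₂⟩ := exists_isom_of_goodQ (∑ k, d k) _ hG2 (by simp)
  obtain ⟨Q₁, hQ₁, A₁, hnil₁, hrank₁⟩ := exists_isom_of_goodQ s _ hG1 (by simp)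
  have hS₁ : Sep Q₁ := sep_of_nondegenerate hQ₁
  have hS₂ : Sep Q₂ := sep_of_nondegenerate hQ₂
  set M₁ : Matrix (Fin s) (Fin s) F := ((A₁ : Matrix.GeneralLinearGroup (Fin s) F) :
    Matrix (Fin s) (Fin s) F) with hM₁
  set M₂ : Matrix (Fin (∑ k, d k)) (Fin (∑ k, d k)) F :=
    ((A₂ : Matrix.GeneralLinearGroup (Fin (∑ k, d k)) F) :
      Matrix (Fin (∑ k, d k)) (Fin (∑ k, d k)) F) with hM₂
  have hiso₁ : ∀ u, Q₁ (M₁ *ᵥ u) = Q₁ u := fun u => A₁.2 u u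
  have hiso₂ : ∀ u, Q₂ (M₂ *ᵥ u) = Q₂ u := fun u => A₂.2 u u
  set c : F := (gram Q₁).det * (gram Q₂).det * (gram Q₀).det with hc
  have hc0 : c ≠ 0 := mul_ne_zero (mul_ne_zero (gram_det_ne_zero Q₁ hS₁)
    (gram_det_ne_zero Q₂ hS₂)) (gram_det_ne_zero Q₀ hS)
  have hcard : Fintype.card (Fin s ⊕ Fin (∑ k, d k)) = Fintype.card ι := by
    rw [Fintype.card_sum, Fintype.card_fin, Fintype.card_fin, ← hsum, hμ, Multiset.sum_cons]
    rfl
  have hsq : IsSquare ((gram (sumQ (c • Q₁) Q₂)).det * (gram Q₀).det) := by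
    rw [det_gram_sum, Fintype.card_fin]
    obtain ⟨r, hr⟩ := hs
    refine ⟨c ^ (r + 1), ?_⟩
    have e1 : c ^ s * (gram Q₁).det * (gram Q₂).det * (gram Q₀).det = c ^ s * c := by
      rw [hc]
      ring
    rw [e1, hr]
    ring
  obtain ⟨Φ, hΦ⟩ := exists_iso_of_disc h2 hcard (sumQ (c • Q₁) Q₂) Q₀
    (sep_sumQ (sep_smul c hc0 Q₁ hS₁) hS₂) hS hsq
  let Ψ := LinearEquiv.sumArrowLequivProdArrow (Fin s) (Fin (∑ k, d k)) F F
  let Θ : ((Fin s → F) × (Fin (∑ k, d k) → F)) ≃ₗ[F] (ι → F) := Ψ.symm.trans Φ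
  have hΘ : ∀ u w, Q₀ (Θ (u, w)) = c * Q₁ u + Q₂ w := by
    intro u w
    show Q₀ (Φ (Ψ.symm (u, w))) = _
    rw [hΦ, sumQ_apply]
    have e1 : (Ψ.symm (u, w)) ∘ Sum.inl = u := by
      funext a
      rfl
    have e2 : (Ψ.symm (u, w)) ∘ Sum.inr = w := by
      funext a
      rfl
    rw [e1, e2]
    rfl
  let gP : Module.End F ((Fin s → F) × (Fin (∑ k, d k) → F)) :=
    (Matrix.toLin' M₁).prodMap (Matrix.toLin' M₂)
  let X : Module.End F (ι → F) :=
    (Θ : ((Fin s → F) × (Fin (∑ k, d k) → F)) →ₗ[F] (ι → F)) ∘ₗ gP ∘ₗ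
      (Θ.symm : (ι → F) →ₗ[F] ((Fin s → F) × (Fin (∑ k, d k) → F)))
  have hX : ∀ v, X (Θ v) = Θ (gP v) := by
    intro v
    show Θ (gP (Θ.symm (Θ v))) = Θ (gP v)
    rw [LinearEquiv.symm_apply_apply]
  have hrk : ∀ i, rk (X - 1) i = (μ.map (fun b => b - i)).sum := by
    intro i
    rw [rk_conj Θ gP X hX, prodMap_sub_one, rk_prodMap, toLin'_sub_one, toLin'_sub_one,
      rk_toLin', rk_toLin', hrank₁, hrank₂, hμ, Multiset.map_cons, Multiset.sum_cons,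
      Multiset.map_map]
    rfl
  have hnilX : IsNilpotent (X - 1) := by
    apply isNilpotent_conj Θ gP X hX
    rw [prodMap_sub_one, toLin'_sub_one, toLin'_sub_one]
    exact isNilpotent_prodMap _ _ (isNilpotent_toLin' _ hnil₁) (isNilpotent_toLin' _ hnil₂)
  have hisoX : ∀ v, Q₀ (X v) = Q₀ v := by
    intro v
    obtain ⟨⟨u, w⟩, rfl⟩ := Θ.surjective v
    rw [hX, hΘ]
    show c * Q₁ (M₁ *ᵥ u) + Q₂ (M₂ *ᵥ w) = _
    rw [hiso₁, hiso₂, hΘ]
  have hXm : LinearMap.toMatrix' X - 1 = LinearMap.toMatrix' (X - 1) := by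
    rw [map_sub, LinearMap.toMatrix'_one]
  have hnilM : IsNilpotent (LinearMap.toMatrix' X - 1) := by
    obtain ⟨k, hk⟩ := hnilX
    refine ⟨k, ?_⟩
    have h := map_pow (LinearMap.toMatrixAlgEquiv' (R := F) (n := ι)) (X - 1) k
    rw [hk, map_zero, map_sub, map_one] at h
    exact h.symm
  have hunit : IsUnit (LinearMap.toMatrix' X) := by
    have h1 : IsUnit (LinearMap.toMatrix' X - 1 + 1) := hnilM.isUnit_add_one
    rwa [sub_add_cancel] at h1
  obtain ⟨x, hx⟩ := hunit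
  refine ⟨x, ?_, ?_, ?_⟩
  · intro u v
    show Q₀ ((x : Matrix ι ι F) *ᵥ u) = Q₀ u
    rw [hx, ← Matrix.toLin'_apply, Matrix.toLin'_toMatrix', hisoX]
  · show IsNilpotent ((x : Matrix ι ι F) - 1)
    rw [hx]
    exact hnilM
  · intro i
    show (((x : Matrix ι ι F) - 1) ^ i).rank = _
    rw [hx, ← rk_toLin', ← toLin'_sub_one, Matrix.toLin'_toMatrix', hrk]

end Cfsg.Agent.Lib.Helper95.JOrth
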