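import Mathlib
import Cfsg.Prelude.Def_Classical
import Cfsg.Prelude.Def_GeometricClasses
import Cfsg.Agent.Lib.Helper95.JOrthC
import Cfsg.Agent.S5959

set_option autoImplicit false

namespace Cfsg.Agent.Lib.Helper95.JOrth

open Module Matrix QuadraticMap Cfsg.Agent.Lib.Helper95.NilJordan Cfsg.Agent.Lib.Helper95.JType
  Cfsg.Agent.Lib.Helper95.JAsm Cfsg.Agent.Lib.Helper95.JQuad
  Cfsg.Agent.Lib.Helper44.QSpace Cfsg.Agent.Lib.Helper44.OSum

universe u

variable {F : Type u} [Field F]

/-- a unipotent isometry of exponent `p` lies in `Ω` and has `x ^ p = 1` -/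
theorem unip_props [Fintype F] {p : ℕ} [Fact p.Prime] [CharP F p] (h2 : (2 : F) ≠ 0)
    {ι : Type} [Fintype ι] [DecidableEq ι] (Q₀ : QuadraticForm F (ι → F)) (hS : Sep Q₀)
    (hn : 2 ≤ Fintype.card ι) (x : GL ι F) (hx : x ∈ Cfsg.isometryGroup F ⇑Q₀)
    (hN : ((x : Matrix ι ι F) - 1) ^ p = 0) :
    x ∈ Cfsg.Geo.omegaGL ⇑Q₀ ∧ x ^ p = 1 := by
  have hp : p.Prime := Fact.out
  haveI : Nonempty ι := Fintype.card_pos_iff.mp (by omega)
  haveI : CharP (Matrix ι ι F) p := inferInstance
  have hxp : (x : Matrix ι ι F) ^ p = 1 := by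
    have e : (x : Matrix ι ι F) = ((x : Matrix ι ι F) - 1) + 1 := (sub_add_cancel _ _).symm
    rw [e, add_pow_char_of_commute _ (Commute.one_right _), hN, one_pow, zero_add]
  have hxp' : x ^ p = 1 := Units.ext (by rw [Units.val_pow_eq_pow_val]; exact hxp)
  have hp2 : p ≠ 2 := by
    rintro rfl
    apply h2
    have := CharP.cast_eq_zero F 2
    exact_mod_cast this
  obtain ⟨r, hr⟩ := hp.odd_of_ne_two hp2
  set g : ↥(Cfsg.isometryGroup F ⇑Q₀) := ⟨x, hx⟩ with hg
  have hgp : g ^ p = 1 := Subtype.ext (by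
    rw [Subgroup.coe_pow]
    exact hxp')
  have hsq : g ^ (r + 1) * g ^ (r + 1) = g := by
    rw [← pow_add]
    have e : r + 1 + (r + 1) = p + 1 := by omega
    rw [e, pow_succ, hgp, one_mul]
  refine ⟨⟨g, ?_, rfl⟩, hxp'⟩
  rw [SetLike.mem_coe, ← hsq]
  exact Cfsg.Agent.Lib.Helper14.OrthIndex.sq_mem_omega h2 Q₀ hS hn _

theorem finrank_map_restrict {V : Type*} [AddCommGroup V] [Module F V]
    (N : Module.End F V) (U : Submodule F V) (hU : ∀ x ∈ U, N x ∈ U) (m : ℕ) :
    finrank F (LinearMap.range ((N.restrict hU : Module.End F U) ^ m)) =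
      finrank F (U.map (N ^ m)) := by
  have : (LinearMap.range ((N.restrict hU : Module.End F U) ^ m)).map U.subtype =
      U.map (N ^ m) := by
    ext y
    constructor
    · rintro ⟨z, ⟨w, rfl⟩, rfl⟩
      exact ⟨w, w.2, (restrict_pow_apply N U hU m w).symm⟩
    · rintro ⟨w, hw, rfl⟩
      exact ⟨((N.restrict hU : Module.End F U) ^ m) ⟨w, hw⟩, ⟨⟨w, hw⟩, rfl⟩,
        restrict_pow_apply N U hU m ⟨w, hw⟩⟩
  rw [← this]
  exact (LinearEquiv.finrank_eq (Submodule.equivMapOfInjective U.subtype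
    U.injective_subtype _))

/-- the Jordan type of a unipotent isometry on an invariant nondegenerate subspace -/
theorem restrict_type (h2 : (2 : F) ≠ 0) {ι : Type} [Fintype ι] [DecidableEq ι]
    (Q₀ : QuadraticForm F (ι → F)) (x : GL ι F) (hx : x ∈ Cfsg.isometryGroup F ⇑Q₀)
    (hnil : IsNilpotent ((x : Matrix ι ι F) - 1)) (μ : Multiset ℕ) (hpos : ∀ b ∈ μ, 0 < b)
    (hrank : ∀ i, (((x : Matrix ι ι F) - 1) ^ i).rank = (μ.map (fun b => b - i)).sum)
    (W : Submodule F (ι → F))
    (hW : Cfsg.Geo.IsNondegenerateOn (QuadraticMap.polar ⇑Q₀) W)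
    (hWx : W.map (Matrix.toLin' (x : Matrix ι ι F)) ≤ W) :
    ∃ ν : Multiset ℕ, ν ≤ μ ∧ ν.sum = finrank F W ∧ (∀ e, Even e → Even (ν.count e)) ∧
      ((∀ b ∈ ν, b = 2) → Cfsg.Geo.IsPlusTypeOn ⇑Q₀ W) := by
  classical
  set X : Module.End F (ι → F) := Matrix.toLin' (x : Matrix ι ι F) with hX
  set N : Module.End F (ι → F) := X - 1 with hN
  have hNmat : N = Matrix.toLin' ((x : Matrix ι ι F) - 1) := toLin'_sub_one _
  have hNnil : IsNilpotent N := by
    obtain ⟨c, hc⟩ := hnil
    exact ⟨c, by rw [hNmat, ← Matrix.toLin'_pow, hc, map_zero]⟩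
  have hiso : ∀ u, Q₀ (X u) = Q₀ u := fun u => hx u u
  have hpol : ∀ u v, QuadraticMap.polar Q₀ (X u) (X v) = QuadraticMap.polar Q₀ u v := by
    intro u v
    simp only [QuadraticMap.polar, ← map_add, hiso]
  have hXinj : Function.Injective X := by
    have hu : IsUnit (x : Matrix ι ι F) := x.isUnit
    exact Matrix.mulVec_injective_iff_isUnit.mpr hu
  have hXW : ∀ w ∈ W, X w ∈ W := fun w hw => hWx (Submodule.mem_map_of_mem hw)
  have hmapeq : W.map X = W := by
    apply Submodule.eq_of_le_of_finrank_eq hWx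
    exact (LinearEquiv.finrank_eq (Submodule.equivMapOfInjective X hXinj W)).symm
  have hNapp : ∀ w, N w = X w - w := fun w => rfl
  have hNW : ∀ w ∈ W, N w ∈ W := fun w hw => by
    rw [hNapp]; exact W.sub_mem (hXW w hw) hw
  set B : LinearMap.BilinForm F (ι → F) := QuadraticMap.polarBilin Q₀ with hB
  have hBapp : ∀ u v, B u v = QuadraticMap.polar Q₀ u v := fun u v => rfl
  have hsymm : ∀ u v, B u v = B v u := fun u v => by
    rw [hBapp, hBapp, QuadraticMap.polar_comm]
  have hrefl : B.IsRefl := fun u v h => by rw [hsymm]; exact h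
  set Wp : Submodule F (ι → F) := B.orthogonal W with hWp
  have hBres : (B.restrict W).Nondegenerate := by
    constructor
    · intro w hw
      by_contra hne
      have hne' : (w : ι → F) ≠ 0 := fun h => hne (Subtype.ext h)
      obtain ⟨-, y, hy, hy'⟩ := hW w w.2 hne'
      exact hy' (hw ⟨y, hy⟩)
    · intro w hw
      by_contra hne
      have hne' : (w : ι → F) ≠ 0 := fun h => hne (Subtype.ext h)
      obtain ⟨⟨y, hy, hy'⟩, -⟩ := hW w w.2 hne'
      exact hy' (hw ⟨y, hy⟩)
  have hcompl : IsCompl W Wp :=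
    LinearMap.BilinForm.isCompl_orthogonal_of_restrict_nondegenerate hrefl hBres
  have hXWp : ∀ v ∈ Wp, X v ∈ Wp := by
    intro v hv
    rw [hWp, LinearMap.BilinForm.mem_orthogonal_iff] at hv ⊢
    intro w hw
    rw [← hmapeq] at hw
    obtain ⟨w', hw', rfl⟩ := hw
    rw [hBapp, hpol]
    exact hv w' hw'
  have hNWp : ∀ v ∈ Wp, N v ∈ Wp := fun w hw => by
    rw [hNapp]; exact Wp.sub_mem (hXWp w hw) hw
  obtain ⟨c, hc⟩ := hNnil
  have hnilW : IsNilpotent (N.restrict hNW : Module.End F W) := by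
    refine ⟨c, ?_⟩
    ext1 y
    apply Subtype.ext
    rw [restrict_pow_apply, hc]; rfl
  have hnilWp : IsNilpotent (N.restrict hNWp : Module.End F Wp) := by
    refine ⟨c, ?_⟩
    ext1 y
    apply Subtype.ext
    rw [restrict_pow_apply, hc]; rfl
  obtain ⟨κ, _, k, v, hkpos, hJ⟩ := exists_jordan _ W (N.restrict hNW) hnilW rfl
  obtain ⟨κ', _, k', v', hkpos', hJ'⟩ := exists_jordan _ Wp (N.restrict hNWp) hnilWp rfl
  obtain ⟨t, d, hd⟩ := exists_index μ
  have hdpos : ∀ j, 0 < d j := fun j => hpos _ (by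
    rw [← hd]; exact Multiset.mem_map_of_mem d (Finset.mem_univ_val j))
  have hsums : ∀ m, ∑ i, (d i - m) = ∑ s : κ ⊕ κ', (Sum.elim k k' s - m) := by
    intro m
    have h1 : ∑ i, (d i - m) = (μ.map (fun b => b - m)).sum := by
      rw [← hd, Multiset.map_map]; rfl
    rw [h1, ← hrank m, ← rk_toLin', ← hNmat]
    show finrank F (LinearMap.range (N ^ m)) = _
    rw [Cfsg.Agent.S5959.finrank_range_pow_add N W Wp hNW hNWp hcompl.inf_eq_bot
      hcompl.sup_eq_top m, hJ.finrank_range_pow m, hJ'.finrank_range_pow m,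
      Fintype.sum_sum_type]
    simp
  have heq := multiset_eq_of_sums d (Sum.elim k k') hdpos
    (by rintro (i | i); exacts [hkpos i, hkpos' i]) hsums
  have hsplit : Multiset.map (Sum.elim k k') (Finset.univ : Finset (κ ⊕ κ')).val =
      Multiset.map k Finset.univ.val + Multiset.map k' Finset.univ.val := by
    rw [← Finset.univ_disjSum_univ]
    simp [Finset.disjSum, Multiset.disjSum, Multiset.map_map]
  have hfW : finrank F W = ∑ i, k i := by
    have h0 := hJ.finrank_range_pow 0
    rw [pow_zero] at h0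
    have h1 : LinearMap.range (1 : Module.End F W) = ⊤ := LinearMap.range_id
    rw [h1, finrank_top] at h0
    rw [h0]
    simp
  refine ⟨Multiset.map k Finset.univ.val, ?_, ?_, ?_, ?_⟩
  · rw [← hd, heq, hsplit]
    exact Multiset.le_add_right _ _
  · rw [hfW]; rfl
  · -- parity
    intro e he
    rcases Nat.eq_zero_or_pos e with rfl | hepos
    · rw [Multiset.count_eq_zero_of_notMem]
      · exact Even.zero
      · intro h0
        obtain ⟨i, _, hi⟩ := Multiset.mem_map.mp h0
        have := hkpos i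
        omega
    obtain ⟨s, hs⟩ : ∃ s, e = 2 * s + 1 + 1 := by
      obtain ⟨r, hr⟩ := he
      exact ⟨r - 1, by omega⟩
    rw [count_map_univ]
    -- matrices on W
    set b := Module.finBasis F W with hb
    set XW : Module.End F W := X.restrict hXW with hXWdef
    set BW : LinearMap.BilinForm F W := B.restrict W with hBW
    set A := LinearMap.toMatrix b b XW with hA
    set G := LinearMap.BilinForm.toMatrix b BW with hG
    have hXN : XW - 1 = N.restrict hNW := by
      ext1 y
      apply Subtype.ext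
      rfl
    have hGdet : IsUnit G.det := by
      rw [isUnit_iff_ne_zero]
      exact (LinearMap.BilinForm.nondegenerate_iff_det_ne_zero b).mp hBres
    have hcomp : BW.comp XW XW = BW := by
      ext y z
      show B (X y) (X z) = B y z
      rw [hBapp, hpol]; rfl
    have hAG : Aᵀ * G * A = G := by
      rw [hA, hG, ← LinearMap.BilinForm.toMatrix_comp b b, hcomp]
    have hGsymm : Gᵀ = G := by
      ext i j
      rw [Matrix.transpose_apply, hG, LinearMap.BilinForm.toMatrix_apply,
        LinearMap.BilinForm.toMatrix_apply]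
      exact hsymm _ _
    have hnilA : IsNilpotent (A - 1) := isNilpotent_toMatrix b XW (by rw [hXN]; exact hnilW)
    have hrk : ∀ i, ((A - 1) ^ i).rank = ∑ j, (k j - i) := by
      intro i
      rw [hA, rank_toMatrix_pow b XW i, hXN]
      exact hJ.finrank_range_pow i
    have h0 := even_rank_odd_pow G A hGdet hAG hGsymm h2 hnilA s
    have h2' := even_rank_odd_pow G A hGdet hAG hGsymm h2 hnilA (s + 1)
    rw [hrk] at h0 h2'
    have hc' := sum_key k (2 * s + 1)
    have e2 : 2 * (s + 1) + 1 = 2 * s + 1 + 2 := by ring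
    rw [e2] at h2'
    have h3 : Even (2 * ∑ j, (k j - (2 * s + 1 + 1)) +
        (Finset.univ.filter (fun j => k j = 2 * s + 1 + 1)).card) := by
      rw [← hc']
      exact h0.add h2'
    rw [hs]
    exact (Nat.even_add.mp h3).mp (even_two_mul _)
  · -- plus type
    intro hall
    have hk2 : ∀ i, k i = 2 := fun i =>
      hall _ (Multiset.mem_map_of_mem k (Finset.mem_univ_val i))
    have hsq : (N.restrict hNW : Module.End F W) ^ 2 = 0 :=
      (hJ.pow_eq_zero_iff 2).mpr (fun i => (hk2 i).le)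
    have hNN : ∀ w ∈ W, N (N w) = 0 := by
      intro w hw
      have h1 := restrict_pow_apply N W hNW 2 ⟨w, hw⟩
      rw [hsq] at h1
      have h3 : (N ^ 2) w = N (N w) := by rw [pow_two]; rfl
      rw [← h3]
      exact h1.symm
    refine ⟨W.map N, ?_, ?_, ?_⟩
    · rintro _ ⟨w, hw, rfl⟩
      exact hNW w hw
    · rintro _ ⟨w, hw, rfl⟩
      have hw' : (w : ι → F) ∈ W := hw
      have hXapp : ∀ u, X u = u + N u := fun u => by
        have := hNapp u
        rw [this]; abel
      have e1 : X w = w + N w := hXapp w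
      have e2 : X (w - N w) = w := by
        have h5 : N (w - N w) = N w := by rw [map_sub, hNN w hw', sub_zero]
        rw [hXapp (w - N w), h5]; abel
      have q1 : Q₀ w = Q₀ w + Q₀ (N w) + QuadraticMap.polar Q₀ w (N w) := by
        have := hiso w
        rw [e1, QuadraticMap.map_add Q₀ w (N w)] at this
        exact this.symm
      have q2 : Q₀ w = Q₀ w + Q₀ (N w) - QuadraticMap.polar Q₀ w (N w) := by
        have := hiso (w - N w)
        rw [e2, sub_eq_add_neg, QuadraticMap.map_add Q₀ w (-(N w)), QuadraticMap.map_neg,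
          QuadraticMap.polar_neg_right] at this
        linear_combination this
      have q3 : 2 * Q₀ (N w) = 0 := by linear_combination -q1 - q2
      exact (mul_eq_zero.mp q3).resolve_left h2
    · have h1 := finrank_map_restrict N W hNW 1
      rw [pow_one, pow_one] at h1
      have h2 := hJ.finrank_range_pow 1
      rw [pow_one] at h2
      rw [← h1, h2, hfW]
      rw [Finset.mul_sum]
      apply Finset.sum_congr rfl
      intro i _
      rw [hk2 i]
      norm_num

end Cfsg.Agent.Lib.Helper95.JOrth
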