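import Mathlib
import Cfsg.Prelude.Def_Classical
import Cfsg.Prelude.Def_GeometricClasses
import Cfsg.Agent.Lib.Helper95.JOrthD

set_option autoImplicit false

namespace Cfsg.Agent.Lib.Helper95.JOrth

open Module Matrix QuadraticMap Cfsg.Agent.Lib.Helper95.NilJordan Cfsg.Agent.Lib.Helper95.JType
  Cfsg.Agent.Lib.Helper95.JAsm Cfsg.Agent.Lib.Helper95.JQuad
  Cfsg.Agent.Lib.Helper44.QSpace Cfsg.Agent.Lib.Helper44.OSum

universe u

variable {F : Type u} [Field F]

theorem eq_zero_of_rank_eq_zero {ι : Type} [Fintype ι] [DecidableEq ι] (M : Matrix ι ι F)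
    (h : M.rank = 0) : M = 0 := by
  rw [Matrix.rank] at h
  have h1 : LinearMap.range M.mulVecLin = ⊥ := Submodule.finrank_eq_zero.mp h
  have h2 : M.mulVecLin = 0 := LinearMap.range_eq_bot.mp h1
  ext i j
  have := congrArg (fun f => f (Pi.single j 1) i) h2
  simpa using this

theorem two_ne_zero_of_odd_card [Fintype F] (h : Odd (Fintype.card F)) : (2 : F) ≠ 0 := by
  intro h0
  have h1 : ringChar F = 2 := CharP.ringChar_of_prime_eq_zero Nat.prime_two h0
  have h2 := FiniteField.even_card_of_char_two h1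
  obtain ⟨r, hr⟩ := h
  omega

theorem odd_char_of_two_ne_zero {p : ℕ} [Fact p.Prime] [CharP F p] (h2 : (2 : F) ≠ 0) :
    Odd p := by
  have hp : p.Prime := Fact.out
  apply hp.odd_of_ne_two
  rintro rfl
  apply h2
  have := CharP.cast_eq_zero F 2
  exact_mod_cast this

theorem nonscalar_of_ne_one {p : ℕ} [Fact p.Prime] [CharP F p] {ι : Type} [Fintype ι]
    [DecidableEq ι] [Nonempty ι] (x : GL ι F) (hxp : x ^ p = 1) (hx1 : x ≠ 1) (z : F) :
    (x : Matrix ι ι F) ≠ z • (1 : Matrix ι ι F) := by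
  have hp : p.Prime := Fact.out
  intro hz
  have h1 : ((x ^ p : GL ι F) : Matrix ι ι F) = 1 := by rw [hxp]; rfl
  rw [Units.val_pow_eq_pow_val, hz, smul_pow, one_pow] at h1
  obtain ⟨i⟩ := ‹Nonempty ι›
  have h2 := congrFun (congrFun h1 i) i
  rw [Matrix.smul_apply, Matrix.one_apply_eq, smul_eq_mul, mul_one] at h2
  have h3 : (z - 1) ^ p = 0 := by rw [sub_pow_char, h2, one_pow, sub_self]
  have h4 : z = 1 := sub_eq_zero.mp ((pow_eq_zero_iff hp.ne_zero).mp h3)
  apply hx1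
  apply Units.ext
  rw [hz, h4, one_smul]
  rfl

theorem pow_scalar_of_pow_eq_one {p : ℕ} {ι : Type} [Fintype ι]
    [DecidableEq ι] (x : GL ι F) (hxp : x ^ p = 1) :
    ∃ z : F, ((x ^ p : GL ι F) : Matrix ι ι F) = z • (1 : Matrix ι ι F) :=
  ⟨1, by rw [hxp, one_smul]; rfl⟩

/-- the main step: a partition with an odd part is realised by a unipotent element of `Ω`,
whose fixed nondegenerate subspace yields a sub-partition -/
theorem core [Fintype F] {p : ℕ} [Fact p.Prime] [CharP F p] (h2 : (2 : F) ≠ 0)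
    {ι : Type} [Fintype ι] [DecidableEq ι] (Q₀ : QuadraticForm F (ι → F)) (hS : Sep Q₀)
    (hn : 2 ≤ Fintype.card ι) (m : ℕ) (hm : m ≤ Fintype.card ι)
    (PW : Submodule F (ι → F) → Prop)
    (H : ∀ x : GL ι F, x ∈ Cfsg.Geo.omegaGL ⇑Q₀ → x ^ p = 1 → x ≠ 1 →
      ∃ W : Submodule F (ι → F), (finrank F W = m ∧
        Cfsg.Geo.IsNondegenerateOn (QuadraticMap.polar ⇑Q₀) W ∧ PW W) ∧
        W.map (Matrix.toLin' (x : Matrix ι ι F)) ≤ W)
    (μ : Multiset ℕ) (hμ : ∀ e ∈ μ, 0 < e ∧ e ≤ p) (hev : ∀ e, Even e → Even (μ.count e))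
    (hsum : μ.sum = Fintype.card ι) (hodd : ∃ s ∈ μ, Odd s) :
    ∃ ν : Multiset ℕ, ν ≤ μ ∧ ν.sum = m ∧ (∀ e, Even e → Even (ν.count e)) ∧
      ((∀ b ∈ ν, b = 2) → (∃ b ∈ μ, b ≠ 1) →
        ∃ W : Submodule F (ι → F), PW W ∧ Cfsg.Geo.IsPlusTypeOn ⇑Q₀ W) := by
  classical
  obtain ⟨x, hx, hnil, hrank⟩ :=
    exists_unip h2 Q₀ hS μ (fun b hb => (hμ b hb).1) hev hsum hodd
  have hNp : ((x : Matrix ι ι F) - 1) ^ p = 0 := by
    apply eq_zero_of_rank_eq_zero
    rw [hrank]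
    apply Multiset.sum_eq_zero
    intro y hy
    obtain ⟨b, hb, rfl⟩ := Multiset.mem_map.mp hy
    have := (hμ b hb).2
    omega
  obtain ⟨hΩ, hxp⟩ := unip_props h2 Q₀ hS hn x hx hNp
  by_cases hx1 : x = 1
  · have h1 := hrank 1
    rw [hx1, pow_one] at h1
    have h0 : ((1 : GL ι F) : Matrix ι ι F) - 1 = 0 := by simp
    rw [h0, Matrix.rank_zero] at h1
    have hall : ∀ b ∈ μ, b = 1 := by
      intro b hb
      have h3 := (Multiset.sum_eq_zero_iff.mp h1.symm) (b - 1)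
        (Multiset.mem_map_of_mem _ hb)
      have := (hμ b hb).1
      omega
    have hμ1 : μ = Multiset.replicate (Multiset.card μ) 1 :=
      Multiset.eq_replicate_card.mpr hall
    have hcard : Multiset.card μ = Fintype.card ι := by
      have := hsum
      rw [hμ1] at this
      simpa using this
    rw [hcard] at hμ1
    refine ⟨Multiset.replicate m 1, ?_, by simp, ?_, ?_⟩
    · rw [hμ1]; exact (Multiset.replicate_le_replicate 1).mpr hm
    · intro e he
      rw [Multiset.count_replicate]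
      split_ifs with h
      · rw [← h] at he
        exact absurd he (by decide)
      · exact Even.zero
    · rintro - ⟨b, hb, hb1⟩
      exact absurd (hall b hb) hb1
  · obtain ⟨W, ⟨hWm, hWnd, hPW⟩, hWx⟩ := H x hΩ hxp hx1
    obtain ⟨ν, hle, hs, hpar, hplus⟩ := restrict_type h2 Q₀ x hx hnil μ
      (fun b hb => (hμ b hb).1) hrank W hWnd hWx
    exact ⟨ν, hle, by rw [hs, hWm], hpar, fun h _ => ⟨W, hPW, hplus h⟩⟩

/-- passing from partitions with an odd part to partitions with all parts even -/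
theorem replace_even (p m : ℕ) (hp : Odd p) (hme : Even m) (μ : Multiset ℕ)
    (hμ : ∀ e ∈ μ, 0 < e ∧ e ≤ p) (hev : ∀ e, Even e → Even (μ.count e)) (hne : μ ≠ 0)
    (hall : ∀ s ∈ μ, Even s)
    (hA : ∀ μ' : Multiset ℕ, (∀ e ∈ μ', 0 < e ∧ e ≤ p) →
      (∀ e, Even e → Even (μ'.count e)) → μ'.sum = μ.sum → (∃ s ∈ μ', Odd s) →
      ∃ ν : Multiset ℕ, ν ≤ μ' ∧ ν.sum = m ∧ ∀ e, Even e → Even (ν.count e)) :
    ∃ ν : Multiset ℕ, ν ≤ μ ∧ ν.sum = m ∧ ∀ e, Even e → Even (ν.count e) := by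
  obtain ⟨a, ha⟩ := Multiset.exists_mem_of_ne_zero hne
  have hae := hall a ha
  have hcnt := hev a hae
  have hc1 : 1 ≤ μ.count a := Multiset.one_le_count_iff_mem.mpr ha
  have hc2 : 2 ≤ μ.count a := by obtain ⟨r, hr⟩ := hcnt; omega
  set μ₁ := μ.erase a with hμ₁
  have ha1 : a ∈ μ₁ := by
    rw [← Multiset.count_pos, hμ₁, Multiset.count_erase_self]; omega
  set μ₀ := μ₁.erase a with hμ₀
  have e1 : μ = a ::ₘ a ::ₘ μ₀ := by
    rw [hμ₀, Multiset.cons_erase ha1, hμ₁, Multiset.cons_erase ha]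
  have hapos := (hμ a ha).1
  have hap := (hμ a ha).2
  have hap' : a + 1 ≤ p := by
    obtain ⟨r, hr⟩ := hp; obtain ⟨s, hs⟩ := hae; omega
  have ha2 : 2 ≤ a := by obtain ⟨s, hs⟩ := hae; omega
  have hmemμ : ∀ s ∈ μ₀, s ∈ μ := fun s hs => by
    rw [e1]; exact Multiset.mem_cons_of_mem (Multiset.mem_cons_of_mem hs)
  have hμ₀even : ∀ s ∈ μ₀, Even s := fun s hs => hall s (hmemμ s hs)
  have hodd1 : Odd (a + 1) := hae.add_one
  have hodd2 : Odd (a - 1) := by obtain ⟨s, hs⟩ := hae; exact ⟨s - 1, by omega⟩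
  have hnoteven : ∀ e, Even e → e ≠ a + 1 ∧ e ≠ a - 1 := by
    intro e he
    constructor
    · rintro rfl; exact (Nat.not_even_iff_odd.mpr hodd1) he
    · rintro rfl; exact (Nat.not_even_iff_odd.mpr hodd2) he
  obtain ⟨ν', hle, hsum', hpar'⟩ := hA ((a + 1) ::ₘ (a - 1) ::ₘ μ₀) (by
      intro e he
      rw [Multiset.mem_cons, Multiset.mem_cons] at he
      rcases he with rfl | rfl | he
      · omega
      · omega
      · exact hμ e (hmemμ e he)) (by
      intro e he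
      obtain ⟨hne1, hne2⟩ := hnoteven e he
      rw [Multiset.count_cons_of_ne hne1, Multiset.count_cons_of_ne hne2]
      have := hev e he
      rw [e1] at this
      by_cases hea : e = a
      · subst hea
        rw [Multiset.count_cons_self, Multiset.count_cons_self] at this
        obtain ⟨r, hr⟩ := this
        exact ⟨r - 1, by omega⟩
      · rwa [Multiset.count_cons_of_ne hea, Multiset.count_cons_of_ne hea] at this) (by
      rw [e1]
      simp only [Multiset.sum_cons]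
      omega) ⟨a + 1, Multiset.mem_cons_self _ _, hodd1⟩
  have hn1 : (a + 1) ∉ μ₀ := fun h => (Nat.not_even_iff_odd.mpr hodd1) (hμ₀even _ h)
  have hn2 : (a - 1) ∉ μ₀ := fun h => (Nat.not_even_iff_odd.mpr hodd2) (hμ₀even _ h)
  have hsumeven : ∀ τ : Multiset ℕ, τ ≤ μ₀ → Even τ.sum := fun τ hτ =>
    even_iff_two_dvd.mpr (Multiset.dvd_sum (fun s hs =>
      even_iff_two_dvd.mp (hμ₀even s (Multiset.mem_of_le hτ hs))))
  by_cases h1 : (a + 1) ∈ ν'
  · have hν₁le : ν'.erase (a + 1) ≤ (a - 1) ::ₘ μ₀ := by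
      have := Multiset.erase_le_erase (a + 1) hle
      rwa [Multiset.erase_cons_head] at this
    have e2 : ν' = (a + 1) ::ₘ ν'.erase (a + 1) := (Multiset.cons_erase h1).symm
    by_cases h2 : (a - 1) ∈ ν'.erase (a + 1)
    · have hν₂le : (ν'.erase (a + 1)).erase (a - 1) ≤ μ₀ := by
        have := Multiset.erase_le_erase (a - 1) hν₁le
        rwa [Multiset.erase_cons_head] at this
      have e3 : ν'.erase (a + 1) = (a - 1) ::ₘ (ν'.erase (a + 1)).erase (a - 1) :=
        (Multiset.cons_erase h2).symm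
      refine ⟨a ::ₘ a ::ₘ (ν'.erase (a + 1)).erase (a - 1), ?_, ?_, ?_⟩
      · rw [e1]
        exact (Multiset.cons_le_cons_iff _).mpr ((Multiset.cons_le_cons_iff _).mpr hν₂le)
      · rw [← hsum']
        conv_rhs => rw [e2, e3]
        simp only [Multiset.sum_cons]
        omega
      · intro e he
        obtain ⟨hne1, hne2⟩ := hnoteven e he
        have := hpar' e he
        rw [e2, e3, Multiset.count_cons_of_ne hne1, Multiset.count_cons_of_ne hne2] at this
        by_cases hea : e = a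
        · subst hea
          rw [Multiset.count_cons_self, Multiset.count_cons_self]
          exact this.add_one.add_one
        · rwa [Multiset.count_cons_of_ne hea, Multiset.count_cons_of_ne hea]
    · exfalso
      have hν₁le' : ν'.erase (a + 1) ≤ μ₀ := (Multiset.le_cons_of_notMem h2).mp hν₁le
      have hev1 := hsumeven _ hν₁le'
      rw [← hsum', e2, Multiset.sum_cons] at hme
      obtain ⟨r, hr⟩ := hme
      obtain ⟨s, hs⟩ := hev1
      obtain ⟨t, ht⟩ := hae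
      omega
  · have hle1 : ν' ≤ (a - 1) ::ₘ μ₀ := (Multiset.le_cons_of_notMem h1).mp hle
    by_cases h2 : (a - 1) ∈ ν'
    · exfalso
      have hν₁le : ν'.erase (a - 1) ≤ μ₀ := by
        have := Multiset.erase_le_erase (a - 1) hle1
        rwa [Multiset.erase_cons_head] at this
      have e2 : ν' = (a - 1) ::ₘ ν'.erase (a - 1) := (Multiset.cons_erase h2).symm
      have hev1 := hsumeven _ hν₁le
      rw [← hsum', e2, Multiset.sum_cons] at hme
      obtain ⟨r, hr⟩ := hme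
      obtain ⟨s, hs⟩ := hev1
      obtain ⟨t, ht⟩ := hae
      omega
    · have hle2 : ν' ≤ μ₀ := (Multiset.le_cons_of_notMem h2).mp hle1
      refine ⟨ν', ?_, hsum', hpar'⟩
      rw [e1]
      exact hle2.trans ((Multiset.le_cons_self _ _).trans (Multiset.le_cons_self _ _))

theorem le_cons_cases (ν τ : Multiset ℕ) (c : ℕ) (h : ν ≤ c ::ₘ τ) :
    ∃ (b : ℕ) (ν₁ : Multiset ℕ), b ≤ 1 ∧ ν₁ ≤ τ ∧ ν = Multiset.replicate b c + ν₁ := by
  by_cases hc : c ∈ ν
  · refine ⟨1, ν.erase c, le_refl _, ?_, ?_⟩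
    · have := Multiset.erase_le_erase c h
      rwa [Multiset.erase_cons_head] at this
    · rw [Multiset.replicate_one, Multiset.singleton_add, Multiset.cons_erase hc]
  · exact ⟨0, ν, by omega, (Multiset.le_cons_of_notMem hc).mp h, by simp⟩

/-- sub-multisets of `{c₁, c₂, 2, …, 2}` -/
theorem sub_two_odd (ν : Multiset ℕ) (c₁ c₂ t : ℕ) (h1 : c₁ ≠ 2) (h2 : c₂ ≠ 2)
    (h : ν ≤ c₁ ::ₘ c₂ ::ₘ Multiset.replicate t 2) :
    ∃ b₁ b₂ k : ℕ, b₁ ≤ 1 ∧ b₂ ≤ 1 ∧ ν.sum = b₁ * c₁ + b₂ * c₂ + 2 * k ∧ ν.count 2 = k ∧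
      (b₁ = 0 → b₂ = 0 → ∀ x ∈ ν, x = 2) := by
  obtain ⟨b₁, ν₁, hb₁, hν₁, rfl⟩ := le_cons_cases ν _ c₁ h
  obtain ⟨b₂, ν₂, hb₂, hν₂, rfl⟩ := le_cons_cases ν₁ _ c₂ hν₁
  obtain ⟨k, hk, rfl⟩ := Multiset.le_replicate_iff.mp hν₂
  refine ⟨b₁, b₂, k, hb₁, hb₂, ?_, ?_, ?_⟩
  · simp only [Multiset.sum_add, Multiset.sum_replicate, smul_eq_mul]
    ring
  · simp only [Multiset.count_add, Multiset.count_replicate, if_neg h1, if_neg h2, if_true,
      zero_add]
  · rintro rfl rfl x hx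
    simp only [Multiset.replicate_zero, zero_add] at hx
    exact Multiset.eq_of_mem_replicate hx

/-- sub-multisets of `{c, 2, …, 2}` -/
theorem sub_one_odd (ν : Multiset ℕ) (c t : ℕ) (h1 : c ≠ 2)
    (h : ν ≤ c ::ₘ Multiset.replicate t 2) :
    ∃ b k : ℕ, b ≤ 1 ∧ ν.sum = b * c + 2 * k ∧ ν.count 2 = k := by
  obtain ⟨b₁, ν₁, hb₁, hν₁, rfl⟩ := le_cons_cases ν _ c h
  obtain ⟨k, hk, rfl⟩ := Multiset.le_replicate_iff.mp hν₁
  refine ⟨b₁, k, hb₁, ?_, ?_⟩
  · simp only [Multiset.sum_add, Multiset.sum_replicate, smul_eq_mul]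
    ring
  · simp only [Multiset.count_add, Multiset.count_replicate, if_neg h1, if_true,
      zero_add]

end Cfsg.Agent.Lib.Helper95.JOrth
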