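import Mathlib
import Cfsg.Agent.Lib.Helper37.SpTStmt

set_option autoImplicit false

namespace Cfsg.Agent.Lib.Helper95.SpTGRAMND

open scoped Matrix

universe u

theorem main : Cfsg.Agent.Lib.Helper37.SpTStmt.GramND.{u} := by
  intro F _ n f hf hnd hdet
  obtain ⟨v, hv, hGv⟩ := Matrix.exists_mulVec_eq_zero_iff.mpr hdet
  have hsingle : ∀ i : Fin n, (fun j : Fin n => if i = j then (1 : F) else 0) = Pi.single i 1 := by
    intro i
    funext j
    rw [Pi.single_apply]
    by_cases h : i = j
    · simp [h]
    · have h' : ¬ j = i := fun h'' => h h''.symm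
      simp [h, h']
  -- right expansion
  have hright : ∀ a : Fin n, f (Pi.single a 1) v = 0 := by
    intro a
    obtain ⟨L, hL⟩ : ∃ L : (Fin n → F) →ₗ[F] F, ∀ y, L y = f (Pi.single a 1) y :=
      ⟨{ toFun := fun y => f (Pi.single a 1) y
         map_add' := fun x y => hf.add_right _ x y
         map_smul' := fun c x => by
           simp only [RingHom.id_apply, smul_eq_mul]
           exact hf.smul_right c _ x }, fun y => rfl⟩
    have h1 := LinearMap.pi_apply_eq_sum_univ L v
    rw [hL] at h1
    rw [h1]
    have h2 : (Cfsg.Geo.gramMatrix f *ᵥ v) a = 0 := by rw [hGv]; rfl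
    rw [Matrix.mulVec, dotProduct] at h2
    have h3 : ∑ i, v i • L (fun j => if i = j then (1 : F) else 0)
        = ∑ i, Cfsg.Geo.gramMatrix f a i * v i := by
      apply Finset.sum_congr rfl
      intro b _
      rw [hsingle b, hL, smul_eq_mul, mul_comm]
      rfl
    rw [h3, h2]
  have hzero : ∀ x : Fin n → F, f x v = 0 := by
    intro x
    obtain ⟨L, hL⟩ : ∃ L : (Fin n → F) →ₗ[F] F, ∀ y, L y = f y v :=
      ⟨{ toFun := fun y => f y v
         map_add' := fun x y => hf.add_left x y _
         map_smul' := fun c x => by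
           simp only [RingHom.id_apply, smul_eq_mul]
           exact hf.smul_left c x _ }, fun y => rfl⟩
    have h1 := LinearMap.pi_apply_eq_sum_univ L x
    rw [hL] at h1
    rw [h1]
    apply Finset.sum_eq_zero
    intro a _
    rw [hsingle a, hL, hright a, smul_zero]
  obtain ⟨x, hx⟩ := (hnd v hv).1
  exact hx (hzero x)

end Cfsg.Agent.Lib.Helper95.SpTGRAMND

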