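import Mathlib
import Cfsg.Agent.Lib.Helper24.ExStmt

/-! Piece CLAIMC of S5877: for `g` of odd prime order `r` normalising `RZ` and not in `RZ`, one of
four configurations occurs. -/

set_option autoImplicit false

namespace Cfsg.Agent.Lib.Helper95.ExCLAIMC

open Cfsg Cfsg.Agent.Lib.Helper24.ExStmt

universe u

section abstract

variable {G : Type u} [Group G]

/-- the commutator `a b a⁻¹ b⁻¹` -/
def cc (a b : G) : G := a * b * a⁻¹ * b⁻¹

theorem cc_mul_left (a b w : G) (h : ∀ t : G, cc b w * t = t * cc b w) :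
    cc (a * b) w = cc a w * cc b w := by
  calc cc (a * b) w = a * cc b w * (w * a⁻¹ * w⁻¹) := by unfold cc; group
    _ = cc b w * a * (w * a⁻¹ * w⁻¹) := by rw [h a]
    _ = cc b w * cc a w := by unfold cc; group
    _ = cc a w * cc b w := h _

theorem cc_mul_right (w a b : G) (h : ∀ t : G, cc w b * t = t * cc w b) :
    cc w (a * b) = cc w a * cc w b := by
  calc cc w (a * b) = cc w a * (a * cc w b * a⁻¹) := by unfold cc; group
    _ = cc w a * (cc w b * a * a⁻¹) := by rw [h a]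
    _ = cc w a * cc w b := by group

theorem abs_main (R Z : Subgroup G) (g : G) (r : ℕ) [Finite R]
    (hr : r.Prime) (hRp : IsPGroup r R)
    (hZc : ∀ z ∈ Z, ∀ x : G, z * x = x * z)
    (hA1 : ∀ a : G, (∀ y ∈ R, a * y = y * a) → a ∈ Z)
    (hA2 : ∀ a ∈ R, ∀ b ∈ R, a * b * a⁻¹ * b⁻¹ ∈ Z)
    (hgR : ∀ x ∈ R, g * x * g⁻¹ ∈ R) (hgR' : ∀ x ∈ R, g⁻¹ * x * g ∈ R)
    (hodd : Odd r) (hgr : g ^ r = 1)
    (hInn : ∀ h : G, (∀ y ∈ R, cm y h ∈ Z) → h ∈ R ⊔ Z)
    (hg : g ∉ R ⊔ Z) :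
    (∃ y ∈ R, ∃ i : ℕ,
      cm y g * (g ^ i * cm y g * (g ^ i)⁻¹) ≠ (g ^ i * cm y g * (g ^ i)⁻¹) * cm y g) ∨
    (∃ b ∈ R, ∃ z ∈ Z, z ≠ 1 ∧ g * b * g⁻¹ = z * b) ∨
    (∃ a' ∈ R, ∃ a'' ∈ R, a' ∉ Z ∧ a' * a'' = a'' * a' ∧ g * a' = a' * g ∧
      g * a'' * g⁻¹ = a' * a'') ∨
    (∃ y ∈ R, g * cm y g = cm y g * g ∧ cm y g * y ≠ y * cm y g) := by
  classical
  have : Fact r.Prime := ⟨hr⟩
  -- Step 1: some `cm y g` does not commute with `y`
  obtain ⟨y, hy, hya⟩ : ∃ y ∈ R, cm y g * y ≠ y * cm y g := by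
    by_contra hall
    push Not at hall
    have h0 : ∀ y ∈ R, cc y (g * y * g⁻¹) = 1 := by
      intro y hy
      have h1 : g * y⁻¹ * g⁻¹ * y = y * (g * y⁻¹ * g⁻¹) := by
        have h := hall y hy
        have h' : y * (g * y⁻¹ * g⁻¹ * y) = y * (y * (g * y⁻¹ * g⁻¹)) := by
          calc y * (g * y⁻¹ * g⁻¹ * y) = cm y g * y := by
                show _ = y * g * y⁻¹ * g⁻¹ * y
                group
            _ = y * cm y g := h
            _ = y * (y * (g * y⁻¹ * g⁻¹)) := by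
                show y * (y * g * y⁻¹ * g⁻¹) = _
                group
        exact mul_left_cancel h'
      have hc : Commute (g * y⁻¹ * g⁻¹) y := h1
      have e : g * y * g⁻¹ = (g * y⁻¹ * g⁻¹)⁻¹ := by group
      have hc' : Commute y (g * y * g⁻¹) := by rw [e]; exact hc.inv_left.symm
      unfold cc
      rw [hc'.eq]
      group
    have hcen : ∀ a ∈ R, ∀ b ∈ R, ∀ t : G, cc a b * t = t * cc a b :=
      fun a ha b hb t => hZc _ (hA2 a ha b hb) t
    have hpol : ∀ x ∈ R, ∀ y ∈ R, cc x (g * y * g⁻¹) * cc y (g * x * g⁻¹) = 1 := by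
      intro x hx y hy
      have hαx := hgR x hx
      have hαy := hgR y hy
      have e1 : g * (x * y) * g⁻¹ = (g * x * g⁻¹) * (g * y * g⁻¹) := by group
      have h := h0 (x * y) (R.mul_mem hx hy)
      rw [e1, cc_mul_left x y _ (hcen y hy _ (R.mul_mem hαx hαy)),
        cc_mul_right x _ _ (hcen x hx _ hαy), cc_mul_right y _ _ (hcen y hy _ hαy),
        h0 x hx, h0 y hy, one_mul, mul_one] at h
      exact h
    have hsw : ∀ x ∈ R, ∀ y ∈ R, cc x (g * y * g⁻¹) = cc (g * x * g⁻¹) y := by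
      intro x hx y hy
      have h := hpol x hx y hy
      have e : cc (g * x * g⁻¹) y = (cc y (g * x * g⁻¹))⁻¹ := by unfold cc; group
      rw [e]
      exact eq_inv_of_mul_eq_one_left h
    have hsw2 : ∀ x ∈ R, ∀ y ∈ R,
        cc x (g * y * g⁻¹) = cc (g * (g * x * g⁻¹) * g⁻¹) (g * y * g⁻¹) := by
      intro x hx y hy
      rw [hsw x hx y hy]
      have e : cc (g * (g * x * g⁻¹) * g⁻¹) (g * y * g⁻¹) = g * cc (g * x * g⁻¹) y * g⁻¹ := by
        unfold cc; group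
      rw [e, ← hcen _ (hgR x hx) y hy g, mul_inv_cancel_right]
    have hz : ∀ x ∈ R, (g * (g * x * g⁻¹) * g⁻¹)⁻¹ * x ∈ Z := by
      intro x hx
      apply hA1
      intro w hw
      have hy := hgR' w hw
      have hwy : g * (g⁻¹ * w * g) * g⁻¹ = w := by group
      have h := hsw2 x hx _ hy
      rw [hwy] at h
      unfold cc at h
      have h2 : x * w * x⁻¹ = (g * (g * x * g⁻¹) * g⁻¹) * w * (g * (g * x * g⁻¹) * g⁻¹)⁻¹ :=
        mul_right_cancel h
      generalize (g * (g * x * g⁻¹) * g⁻¹) = x' at h2 ⊢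
      calc x'⁻¹ * x * w = x'⁻¹ * (x * w * x⁻¹) * x := by group
        _ = x'⁻¹ * (x' * w * x'⁻¹) * x := by rw [h2]
        _ = w * (x'⁻¹ * x) := by group
    have hcm2 : ∀ x ∈ R, cm x (g ^ 2) ∈ Z := by
      intro x hx
      have h := hz x hx
      have e : cm x (g ^ 2) = x * ((g * (g * x * g⁻¹) * g⁻¹)⁻¹ * x) * x⁻¹ := by
        show x * g ^ 2 * x⁻¹ * (g ^ 2)⁻¹ = _
        group
      rw [e, ← hZc _ h x, mul_inv_cancel_right]
      exact h
    have hg2 : g ^ 2 ∈ R ⊔ Z := hInn _ hcm2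
    obtain ⟨k, hk⟩ := hodd
    have e : g = (g ^ 2) ^ (k + 1) := by
      rw [← pow_mul, show 2 * (k + 1) = r + 1 by omega, pow_succ, hgr, one_mul]
    apply hg
    rw [e]
    exact Subgroup.pow_mem _ hg2 _
  have ha : cm y g ∈ R := by
    have e : cm y g = y * (g * y⁻¹ * g⁻¹) := by
      show y * g * y⁻¹ * g⁻¹ = _
      group
    rw [e]
    exact R.mul_mem hy (hgR _ (R.inv_mem hy))
  by_cases hga : g * cm y g = cm y g * g
  · right; right; right
    exact ⟨y, hy, hga, hya⟩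
  by_cases h1 : ∃ y ∈ R, ∃ i : ℕ,
      cm y g * (g ^ i * cm y g * (g ^ i)⁻¹) ≠ (g ^ i * cm y g * (g ^ i)⁻¹) * cm y g
  · left; exact h1
  push Not at h1
  right
  have h1' := h1 y hy
  generalize cm y g = a at ha hga h1' hya
  have hcomm0 : ∀ i : ℕ, Commute a (g ^ i * a * (g ^ i)⁻¹) := fun i => h1' i
  have hcomm : ∀ i j : ℕ, Commute (g ^ i * a * (g ^ i)⁻¹) (g ^ j * a * (g ^ j)⁻¹) := by
    have key : ∀ i d : ℕ,
        Commute (g ^ i * a * (g ^ i)⁻¹) (g ^ (i + d) * a * (g ^ (i + d))⁻¹) := by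
      intro i d
      have e : g ^ (i + d) * a * (g ^ (i + d))⁻¹ = g ^ i * (g ^ d * a * (g ^ d)⁻¹) * (g ^ i)⁻¹ := by
        rw [pow_add]; group
      rw [e]
      exact (Commute.conj_iff (g ^ i)).mpr (hcomm0 d)
    intro i j
    rcases le_total i j with h | h
    · obtain ⟨d, rfl⟩ := Nat.exists_eq_add_of_le h
      exact key i d
    · obtain ⟨d, rfl⟩ := Nat.exists_eq_add_of_le h
      exact (key j d).symm
  obtain ⟨T, hT⟩ : ∃ T : Set G, T = Set.range (fun i : ℕ => g ^ i * a * (g ^ i)⁻¹) := ⟨_, rfl⟩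
  obtain ⟨A, hAdef⟩ : ∃ A : Subgroup G, A = Subgroup.closure T := ⟨_, rfl⟩
  have hTR : ∀ i : ℕ, g ^ i * a * (g ^ i)⁻¹ ∈ R := by
    intro i
    induction i with
    | zero => simpa using ha
    | succ i ih =>
      have e : g ^ (i + 1) * a * (g ^ (i + 1))⁻¹ = g * (g ^ i * a * (g ^ i)⁻¹) * g⁻¹ := by
        rw [pow_succ']; group
      rw [e]
      exact hgR _ ih
  have hAR : A ≤ R := by
    rw [hAdef, Subgroup.closure_le, hT]
    rintro _ ⟨i, rfl⟩
    exact hTR i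
  have hAc1 : ∀ t ∈ T, ∀ x ∈ A, t * x = x * t := by
    intro t ht x hx
    have : A ≤ Subgroup.centralizer {t} := by
      rw [hAdef, Subgroup.closure_le]
      intro s hs
      rw [hT] at hs ht
      obtain ⟨i, rfl⟩ := hs
      obtain ⟨j, rfl⟩ := ht
      rw [SetLike.mem_coe, Subgroup.mem_centralizer_iff]
      rintro _ rfl
      exact (hcomm j i).eq
    have h := this hx
    rw [Subgroup.mem_centralizer_iff] at h
    exact h t rfl
  have hAc : ∀ x ∈ A, ∀ y ∈ A, x * y = y * x := by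
    intro x hx y hy
    have : A ≤ Subgroup.centralizer {x} := by
      rw [hAdef, Subgroup.closure_le]
      intro t ht
      rw [SetLike.mem_coe, Subgroup.mem_centralizer_iff]
      intro z hz
      rw [Set.mem_singleton_iff] at hz
      rw [hz]
      exact (hAc1 t ht x hx).symm
    have h := this hy
    rw [Subgroup.mem_centralizer_iff] at h
    exact h x rfl
  have hAg : ∀ x ∈ A, g * x * g⁻¹ ∈ A := by
    have : A ≤ A.comap (MulAut.conj g).toMonoidHom := by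
      conv_lhs => rw [hAdef]
      rw [Subgroup.closure_le]
      intro t ht
      rw [hT] at ht
      obtain ⟨i, rfl⟩ := ht
      rw [SetLike.mem_coe, Subgroup.mem_comap]
      show g * (g ^ i * a * (g ^ i)⁻¹) * g⁻¹ ∈ A
      have e : g * (g ^ i * a * (g ^ i)⁻¹) * g⁻¹ = g ^ (i + 1) * a * (g ^ (i + 1))⁻¹ := by
        rw [pow_succ']; group
      rw [e, hAdef]
      exact Subgroup.subset_closure (by rw [hT]; exact ⟨i + 1, rfl⟩)
    intro x hx
    exact this hx
  have haA : a ∈ A := by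
    rw [hAdef]
    exact Subgroup.subset_closure (by rw [hT]; exact ⟨0, by simp⟩)
  -- the map `x ↦ g x g⁻¹ x⁻¹` on `A`
  let D' : A →* G :=
    { toFun := fun x => g * x * g⁻¹ * (x : G)⁻¹
      map_one' := by simp
      map_mul' := fun x y => by
        have h1 : (g * y * g⁻¹ * (y : G)⁻¹) ∈ A := A.mul_mem (hAg y y.2) (A.inv_mem y.2)
        have h2 := hAc _ h1 _ (A.inv_mem x.2)
        show g * ((x : G) * y) * g⁻¹ * ((x : G) * y)⁻¹ =
          g * x * g⁻¹ * (x : G)⁻¹ * (g * y * g⁻¹ * (y : G)⁻¹)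
        calc g * ((x : G) * y) * g⁻¹ * ((x : G) * y)⁻¹
            = g * x * g⁻¹ * ((g * y * g⁻¹ * (y : G)⁻¹) * (x : G)⁻¹) := by group
          _ = g * x * g⁻¹ * ((x : G)⁻¹ * (g * y * g⁻¹ * (y : G)⁻¹)) := by rw [h2]
          _ = _ := by group }
  have hD' : ∀ x : A, D' x = g * x * g⁻¹ * (x : G)⁻¹ := fun x => rfl
  obtain ⟨I, hIdef⟩ : ∃ I : Subgroup G, I = D'.range := ⟨_, rfl⟩
  have hIA : I ≤ A := by
    rw [hIdef]
    rintro _ ⟨x, rfl⟩
    exact A.mul_mem (hAg x x.2) (A.inv_mem x.2)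
  have hIg : ∀ t ∈ I, g * t * g⁻¹ ∈ I := by
    intro t ht
    rw [hIdef] at ht ⊢
    obtain ⟨x, rfl⟩ := ht
    refine ⟨⟨g * x * g⁻¹, hAg x x.2⟩, ?_⟩
    rw [hD', hD']
    show g * (g * x * g⁻¹) * g⁻¹ * (g * x * g⁻¹)⁻¹ = g * (g * x * g⁻¹ * (x : G)⁻¹) * g⁻¹
    group
  have hIne : ∃ t ∈ I, t ≠ 1 := by
    refine ⟨D' ⟨a, haA⟩, by rw [hIdef]; exact ⟨_, rfl⟩, fun h => hga ?_⟩
    rw [hD'] at h
    have h2 : g * a * g⁻¹ = a := mul_inv_eq_one.mp h
    exact mul_inv_eq_iff_eq_mul.mp h2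
  have : Finite I := Finite.of_injective (fun t : I => (⟨t.1, hAR (hIA t.2)⟩ : R))
    (fun s t h => Subtype.ext (congrArg (fun z : R => (z : G)) h))
  haveI : Fintype I := Fintype.ofFinite I
  -- conjugation by `g` on `I`
  obtain ⟨f, hf⟩ : ∃ f : Function.End I, ∀ t : I, ((f t : I) : G) = g * t * g⁻¹ :=
    ⟨fun t => ⟨g * t * g⁻¹, hIg t t.2⟩, fun t => rfl⟩
  have hfk : ∀ (k : ℕ) (t : I), (((f ^ k) t : I) : G) = g ^ k * t * (g ^ k)⁻¹ := by
    intro k
    induction k with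
    | zero =>
      intro t
      show (t : G) = g ^ 0 * t * (g ^ 0)⁻¹
      simp
    | succ k ih =>
      intro t
      rw [pow_succ']
      show ((f ((f ^ k) t) : I) : G) = _
      rw [hf, ih, pow_succ']
      group
  have hfr : f ^ r ^ 1 = 1 := by
    funext t
    apply Subtype.ext
    rw [pow_one, hfk, hgr]
    show (1 : G) * t * (1 : G)⁻¹ = t
    simp
  have hmod := Equiv.Perm.card_fixedPoints_modEq (p := r) (n := 1) hfr
  have hIp : IsPGroup r I := by
    intro t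
    obtain ⟨k, hk⟩ := hRp ⟨t.1, hAR (hIA t.2)⟩
    refine ⟨k, Subtype.ext ?_⟩
    have := congrArg (fun z : R => (z : G)) hk
    simpa using this
  have hrI : r ∣ Fintype.card I := by
    obtain ⟨t, ht, ht1⟩ := hIne
    haveI : Nontrivial I := ⟨⟨⟨t, ht⟩, 1, fun h => ht1 (congrArg (fun z : I => (z : G)) h)⟩⟩
    obtain ⟨m, hm⟩ := IsPGroup.iff_card.mp hIp
    rw [Nat.card_eq_fintype_card] at hm
    rw [hm]
    have hm0 : m ≠ 0 := by
      rintro rfl
      rw [pow_zero] at hm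
      have := Fintype.one_lt_card (α := I)
      omega
    exact dvd_pow_self r hm0
  have hrfix := Nat.modEq_zero_iff_dvd.mp (hmod.symm.trans (Nat.modEq_zero_iff_dvd.mpr hrI))
  rw [Fintype.card_eq_nat_card] at hrfix
  obtain ⟨a', ha'fix, ha'1⟩ : ∃ a' : I, f a' = a' ∧ a' ≠ 1 := by
    by_contra hno
    push Not at hno
    have hsub : Subsingleton (Function.fixedPoints f) :=
      ⟨fun s t => Subtype.ext ((hno s.1 s.2).trans (hno t.1 t.2).symm)⟩
    have h1' : Nat.card (Function.fixedPoints f) ≤ 1 := Finite.card_le_one_iff_subsingleton.mpr hsub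
    have h1fix : (1 : I) ∈ Function.fixedPoints f := by
      show f 1 = 1
      apply Subtype.ext
      rw [hf]
      simp
    haveI : Nonempty (Function.fixedPoints f) := ⟨⟨1, h1fix⟩⟩
    have hpos : 0 < Nat.card (Function.fixedPoints f) := Nat.card_pos
    have h2 := Nat.le_of_dvd hpos hrfix
    have := hr.two_le
    omega
  have hga' : g * (a' : G) * g⁻¹ = a' := by
    have := hf a'
    rw [ha'fix] at this
    exact this.symm
  have ha'1' : (a' : G) ≠ 1 := fun h => ha'1 (Subtype.ext h)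
  have ha'I : (a' : G) ∈ D'.range := by rw [← hIdef]; exact a'.2
  obtain ⟨x, hx⟩ := ha'I
  rw [hD'] at hx
  have hx' : g * x * g⁻¹ = a' * x := mul_inv_eq_iff_eq_mul.mp hx
  by_cases hs : (a' : G) ∈ Z
  · left
    exact ⟨x, hAR x.2, a', hs, ha'1', hx'⟩
  · right; left
    exact ⟨a', hAR (hIA a'.2), x, hAR x.2, hs, hAc _ (hIA a'.2) _ x.2,
      mul_inv_eq_iff_eq_mul.mp hga', hx'⟩

end abstract

theorem main (hBA : BasA.{u}) (hBB : BasB.{u}) (hInn : Inner.{u}) : ClaimC.{u} := by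
  intro F _ _ n r R S hodd g hg hord hgRZ
  obtain ⟨hA1, hA2, -⟩ := hBA F n r R S
  obtain ⟨-, -, -, hB4⟩ := hBB F n r R S
  have hInn' := hInn F n r R S
  have hZc : ∀ z ∈ Sc n F, ∀ x : GLn n F, z * x = x * z := by
    intro z hz x
    rw [Cfsg.Geo.mem_scalars_iff] at hz
    obtain ⟨c, hc⟩ := hz
    apply Units.ext
    rw [Units.val_mul, Units.val_mul, hc]
    simp
  have hginv : g⁻¹ ∈ Cfsg.Geo.subgroupNormalizer (R ⊔ Sc n F) := Subgroup.inv_mem _ hg
  have hgR' : ∀ x ∈ R, g⁻¹ * x * g ∈ R := by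
    intro x hx
    have h := hB4 hodd g⁻¹ hginv x hx
    rwa [inv_inv] at h
  have hgr : g ^ r = 1 := by rw [← hord]; exact pow_orderOf_eq_one g
  have h := abs_main R (Sc n F) g r S.hr S.hR hZc hA1
    (fun a ha b hb => (hA2 a (Subgroup.mem_sup_left ha) b (Subgroup.mem_sup_left hb)).1)
    (hB4 hodd g hg) hgR' hodd hgr hInn' hgRZ
  rcases h with h | ⟨b, hb, z, hz, hz1, hbz⟩ | h | h
  · left; exact h
  · right; left
    obtain ⟨s, rfl⟩ := hz
    refine ⟨b, hb, s, ?_, hbz⟩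
    rintro rfl
    exact hz1 (map_one _)
  · right; right; left; exact h
  · right; right; right; exact h

end Cfsg.Agent.Lib.Helper95.ExCLAIMC
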