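import Mathlib
import Cfsg.Prelude.Def_ParabolicCharacters

set_option autoImplicit false

namespace Cfsg.Agent.Lib.Helper95.FlagA

open MulAction

variable {G : Type*} [Group G]

/-- The double coset relation `y ∈ H x K`. -/
def dcSetoid (H K : Subgroup G) : Setoid G where
  r x y := ∃ a ∈ H, ∃ b ∈ K, y = a * x * b
  iseqv := ⟨fun x => ⟨1, H.one_mem, 1, K.one_mem, by simp⟩,
    fun {x y} ⟨a, ha, b, hb, h⟩ => ⟨a⁻¹, H.inv_mem ha, b⁻¹, K.inv_mem hb, by rw [h]; group⟩,
    fun {x y z} ⟨a, ha, b, hb, h⟩ ⟨a', ha', b', hb', h'⟩ =>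
      ⟨a' * a, H.mul_mem ha' ha, b * b', K.mul_mem hb hb', by rw [h', h]; group⟩⟩

theorem dcSetoid_iff (H K : Subgroup G) (x y : G) :
    (dcSetoid H K).r x y ↔ ∃ a ∈ H, ∃ b ∈ K, y = a * x * b := Iff.rfl

/-- The map from double cosets to orbits on pairs of cosets. -/
def toOrbit (H K : Subgroup G) :
    Quotient (dcSetoid H K) → Quotient (orbitRel G ((G ⧸ H) × (G ⧸ K))) :=
  Quotient.lift (fun x : G => (Quotient.mk (orbitRel G ((G ⧸ H) × (G ⧸ K)))
      (((1 : G) : G ⧸ H), (x : G ⧸ K))))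
    (by
      rintro x y ⟨a, ha, b, hb, rfl⟩
      apply Quotient.sound
      change _ ∈ orbit G _
      refine ⟨a⁻¹, ?_⟩
      change (a⁻¹ • ((1 : G) : G ⧸ H), a⁻¹ • ((a * x * b : G) : G ⧸ K)) = _
      rw [MulAction.Quotient.smul_mk, MulAction.Quotient.smul_mk]
      refine Prod.ext ?_ ?_
      · change ((a⁻¹ • (1 : G) : G) : G ⧸ H) = ((1 : G) : G ⧸ H)
        rw [QuotientGroup.eq]
        simpa using ha
      · change ((a⁻¹ • (a * x * b) : G) : G ⧸ K) = (x : G ⧸ K)
        rw [QuotientGroup.eq]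
        simp only [smul_eq_mul]
        have : (a⁻¹ * (a * x * b))⁻¹ * x = b⁻¹ := by group
        rw [this]
        exact K.inv_mem hb)

theorem toOrbit_bijective (H K : Subgroup G) : Function.Bijective (toOrbit H K) := by
  constructor
  · intro q q'
    induction q using Quotient.inductionOn with | _ x => ?_
    induction q' using Quotient.inductionOn with | _ y => ?_
    intro h
    have h' := Quotient.exact h
    change _ ∈ orbit G _ at h'
    obtain ⟨g, hg⟩ := h'
    change (g • ((1 : G) : G ⧸ H), g • ((y : G) : G ⧸ K)) = _ at hg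
    rw [MulAction.Quotient.smul_mk, MulAction.Quotient.smul_mk] at hg
    have h1 := congrArg Prod.fst hg
    have h2 := congrArg Prod.snd hg
    change ((g • (1 : G) : G) : G ⧸ H) = ((1 : G) : G ⧸ H) at h1
    change ((g • y : G) : G ⧸ K) = (x : G ⧸ K) at h2
    rw [QuotientGroup.eq] at h1 h2
    simp only [smul_eq_mul, mul_one] at h1 h2
    apply Quotient.sound
    refine ⟨g⁻¹, ?_, ((g * y)⁻¹ * x)⁻¹, K.inv_mem h2, ?_⟩
    · simpa using h1
    · group
  · intro q
    induction q using Quotient.inductionOn with | _ p => ?_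
    obtain ⟨u, v⟩ := p
    induction u using QuotientGroup.induction_on with | _ a => ?_
    induction v using QuotientGroup.induction_on with | _ b => ?_
    refine ⟨Quotient.mk _ (a⁻¹ * b), ?_⟩
    apply Quotient.sound
    change _ ∈ orbit G _
    refine ⟨a⁻¹, ?_⟩
    change (a⁻¹ • ((a : G) : G ⧸ H), a⁻¹ • ((b : G) : G ⧸ K)) = _
    rw [MulAction.Quotient.smul_mk, MulAction.Quotient.smul_mk]
    simp

theorem card_orbits_pairs (H K : Subgroup G) :
    Nat.card (Quotient (orbitRel G ((G ⧸ H) × (G ⧸ K)))) = Nat.card (Quotient (dcSetoid H K)) :=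
  (Nat.card_congr (Equiv.ofBijective _ (toOrbit_bijective H K))).symm

theorem card_fixedBy_prod {X Y : Type*} [MulAction G X] [MulAction G Y] (g : G) :
    Nat.card (fixedBy (X × Y) g) = Nat.card (fixedBy X g) * Nat.card (fixedBy Y g) := by
  rw [← Nat.card_prod]
  refine Nat.card_congr ⟨fun p => (⟨p.1.1, congrArg Prod.fst p.2⟩, ⟨p.1.2, congrArg Prod.snd p.2⟩),
    fun p => ⟨(p.1.1, p.2.1), Prod.ext p.1.2 p.2.2⟩, fun p => rfl, fun p => rfl⟩

/-- Inner product of two permutation characters = number of double cosets. -/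
theorem inner_fixedPointCharacter [Fintype G] (H K : Subgroup G) :
    (Nat.card G : ℂ)⁻¹ * ∑ g : G, Cfsg.fixedPointCharacter H g * Cfsg.fixedPointCharacter K g =
      (Nat.card (Quotient (dcSetoid H K)) : ℂ) := by
  classical
  have hB := MulAction.sum_card_fixedBy_eq_card_orbits_mul_card_group G ((G ⧸ H) × (G ⧸ K))
  have h1 : ∑ g : G, Cfsg.fixedPointCharacter H g * Cfsg.fixedPointCharacter K g =
      ((∑ g : G, Fintype.card (fixedBy ((G ⧸ H) × (G ⧸ K)) g) : ℕ) : ℂ) := by
    push_cast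
    refine Finset.sum_congr rfl fun g _ => ?_
    unfold Cfsg.fixedPointCharacter
    rw [← Nat.card_eq_fintype_card, card_fixedBy_prod]
    push_cast
    rfl
  rw [h1, hB, ← card_orbits_pairs, Nat.card_eq_fintype_card, Nat.card_eq_fintype_card]
  have hG : (Fintype.card G : ℂ) ≠ 0 := by
    exact_mod_cast Fintype.card_ne_zero
  push_cast
  field_simp

end Cfsg.Agent.Lib.Helper95.FlagA
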