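import Mathlib
import Cfsg.Prelude.Def_ParabolicCharacters

set_option autoImplicit false

namespace Cfsg.Agent.Lib.Helper95.FlagB

open scoped MatrixGroups
open Matrix

/-- Permutation matrices as a monoid hom into matrices: `e_j ↦ e_{w j}`. -/
def pmMat (F : Type*) [Field F] (n : ℕ) : Equiv.Perm (Fin n) →* Matrix (Fin n) (Fin n) F where
  toFun w := Matrix.of fun i j => if i = w j then (1 : F) else 0
  map_one' := by
    ext i j
    simp only [Matrix.of_apply, Equiv.Perm.coe_one, id_eq, Matrix.one_apply]
    congr
  map_mul' w w' := by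
    ext i j
    simp only [Matrix.of_apply, Matrix.mul_apply, Equiv.Perm.coe_mul, Function.comp_apply]
    rw [Finset.sum_eq_single (w' j)]
    · simp only [if_true, mul_one]
      congr
    · intro k _ hk
      simp [hk]
    · simp

/-- Permutation matrices in `GL`. -/
def pm (F : Type*) [Field F] (n : ℕ) : Equiv.Perm (Fin n) →* GL (Fin n) F :=
  (pmMat F n).toHomUnits

variable {F : Type*} [Field F] {n : ℕ}

theorem pm_apply (w : Equiv.Perm (Fin n)) (i j : Fin n) :
    (pm F n w : Matrix (Fin n) (Fin n) F) i j = if i = w j then 1 else 0 := rfl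

theorem pm_mul_apply (w : Equiv.Perm (Fin n)) (M : Matrix (Fin n) (Fin n) F) (i j : Fin n) :
    ((pm F n w : Matrix (Fin n) (Fin n) F) * M) i j = M (w⁻¹ i) j := by
  rw [Matrix.mul_apply, Finset.sum_eq_single (w⁻¹ i)]
  · simp [pm_apply]
  · intro k _ hk
    have : i ≠ w k := by
      rintro rfl
      simp at hk
    simp [pm_apply, this]
  · simp

theorem pm_mulVec (w : Equiv.Perm (Fin n)) (v : Fin n → F) (i : Fin n) :
    ((pm F n w : Matrix (Fin n) (Fin n) F) *ᵥ v) i = v (w⁻¹ i) := by
  rw [Matrix.mulVec, dotProduct, Finset.sum_eq_single (w⁻¹ i)]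
  · simp [pm_apply]
  · intro k _ hk
    have : i ≠ w k := by
      rintro rfl
      simp at hk
    simp [pm_apply, this]
  · simp

open Classical in
/-- Number of leading zeros of row `i`. -/
noncomputable def lead (M : Matrix (Fin n) (Fin n) F) (i : Fin n) : ℕ :=
  (Finset.univ.filter (fun c : Fin n => ∀ c' : Fin n, c' ≤ c → M i c' = 0)).card

theorem card_filter_val_lt (k : ℕ) (hk : k ≤ n) :
    (Finset.univ.filter (fun c : Fin n => c.val < k)).card = k := by
  rcases Nat.lt_or_ge k n with h | h
  · have : (Finset.univ.filter (fun c : Fin n => c.val < k)) = Finset.Iio (⟨k, h⟩ : Fin n) := by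
      ext c
      simp [Fin.lt_def]
    rw [this, Fin.card_Iio]
  · have hkn : k = n := le_antisymm hk h
    have : (Finset.univ.filter (fun c : Fin n => c.val < k)) = Finset.univ := by
      ext c
      simp only [Finset.mem_filter, Finset.mem_univ, true_and, iff_true]
      have := c.isLt
      omega
    rw [this, Finset.card_univ, Fintype.card_fin, hkn]

theorem lead_ge (M : Matrix (Fin n) (Fin n) F) (i : Fin n) (k : ℕ) (hk : k ≤ n)
    (h : ∀ c : Fin n, c.val < k → M i c = 0) : k ≤ lead M i := by
  classical
  unfold lead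
  rw [← card_filter_val_lt k hk]
  apply Finset.card_le_card
  intro c hc
  simp only [Finset.mem_filter, Finset.mem_univ, true_and] at hc ⊢
  intro c' hc'
  exact h c' (lt_of_le_of_lt hc' hc)

theorem lead_le (M : Matrix (Fin n) (Fin n) F) (i c : Fin n) (h : M i c ≠ 0) :
    lead M i ≤ c.val := by
  classical
  unfold lead
  rw [← card_filter_val_lt c.val c.isLt.le]
  apply Finset.card_le_card
  intro c' hc'
  simp only [Finset.mem_filter, Finset.mem_univ, true_and] at hc' ⊢
  by_contra hlt
  exact h (hc' c (not_lt.mp hlt))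

theorem lead_zero (M : Matrix (Fin n) (Fin n) F) (i c : Fin n) (h : c.val < lead M i) :
    M i c = 0 := by
  by_contra hne
  have := lead_le M i c hne
  omega

theorem lead_ne (M : Matrix (Fin n) (Fin n) F) (i : Fin n) (h : lead M i < n) :
    M i ⟨lead M i, h⟩ ≠ 0 := by
  intro h0
  have := lead_ge M i (lead M i + 1) h (fun c hc => by
    rcases Nat.lt_succ_iff_lt_or_eq.mp hc with h1 | h1
    · exact lead_zero M i c h1
    · have : c = ⟨lead M i, h⟩ := Fin.ext h1
      rw [this]
      exact h0)
  omega

theorem lead_congr (M M' : Matrix (Fin n) (Fin n) F) (i : Fin n) (h : ∀ j, M i j = M' i j) :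
    lead M i = lead M' i := by
  classical
  unfold lead
  congr 1
  apply Finset.filter_congr
  intro c _
  constructor
  · intro hc c' hc'
    rw [← h]
    exact hc c' hc'
  · intro hc c' hc'
    rw [h]
    exact hc c' hc'

theorem lead_lt (g : GL (Fin n) F) (i : Fin n) : lead (g : Matrix (Fin n) (Fin n) F) i < n := by
  by_contra hge
  have h0 : ∀ j, (g : Matrix (Fin n) (Fin n) F) i j = 0 := fun j =>
    lead_zero _ i j (lt_of_lt_of_le j.isLt (not_lt.mp hge))
  have hdet : (g : Matrix (Fin n) (Fin n) F).det = 0 := Matrix.det_eq_zero_of_row_eq_zero i h0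
  have hu : IsUnit (g : Matrix (Fin n) (Fin n) F).det := Matrix.isUnits_det_units g
  rw [hdet] at hu
  exact not_isUnit_zero hu

/-- The transvection as an element of the upper triangular group. -/
def tv (i i' : Fin n) (hii : i < i') (t : F) : GL (Fin n) F :=
  ⟨Matrix.transvection i i' t, Matrix.transvection i i' (-t),
    by rw [Matrix.transvection_mul_transvection_same _ _ (ne_of_lt hii)]; simp,
    by rw [Matrix.transvection_mul_transvection_same _ _ (ne_of_lt hii)]; simp⟩

theorem tv_mem (i i' : Fin n) (hii : i < i') (t : F) :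
    tv i i' hii t ∈ Cfsg.upperTriangularGL n F := by
  change (Matrix.transvection i i' t).BlockTriangular id
  intro a b hab
  simp only [id] at hab
  simp only [Matrix.transvection, Matrix.add_apply, Matrix.one_apply, Matrix.single_apply]
  have h1 : a ≠ b := ne_of_gt hab
  have h2 : ¬ (i = a ∧ i' = b) := by
    rintro ⟨rfl, rfl⟩
    exact absurd hab (not_lt.mpr hii.le)
  simp [h1, h2]

/-- Bruhat decomposition of `GL_n(F)` over a finite field. -/
theorem bruhat [Finite F] (g : GL (Fin n) F) :
    ∃ b ∈ Cfsg.upperTriangularGL n F, ∃ w : Equiv.Perm (Fin n),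
      ∃ u ∈ Cfsg.upperTriangularGL n F, g = b * pm F n w * u := by
  classical
  have : Fintype F := Fintype.ofFinite F
  let B := Cfsg.upperTriangularGL n F
  let Φ : B → ℕ := fun b => ∑ i, lead ((b.1 * g : GL (Fin n) F) : Matrix (Fin n) (Fin n) F) i
  obtain ⟨b₀, hb₀⟩ := Finite.exists_max Φ
  set h : GL (Fin n) F := b₀.1 * g with hh
  have hinj : Function.Injective (fun i : Fin n => (⟨lead (h : Matrix (Fin n) (Fin n) F) i, lead_lt h i⟩ : Fin n)) := by
    intro i i' hii
    by_contra hne
    have hval : lead (h : Matrix (Fin n) (Fin n) F) i = lead (h : Matrix (Fin n) (Fin n) F) i' :=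
      congrArg Fin.val hii
    -- wlog i < i'
    have key : ∀ i i' : Fin n, i < i' →
        lead (h : Matrix (Fin n) (Fin n) F) i = lead (h : Matrix (Fin n) (Fin n) F) i' → False := by
      intro i i' hlt hval
      set c : Fin n := ⟨lead (h : Matrix (Fin n) (Fin n) F) i, lead_lt h i⟩ with hc
      have hc' : c = ⟨lead (h : Matrix (Fin n) (Fin n) F) i', lead_lt h i'⟩ := Fin.ext hval
      have hi'c : (h : Matrix (Fin n) (Fin n) F) i' c ≠ 0 := by
        rw [hc']
        exact lead_ne _ i' _
      set t : F := -((h : Matrix (Fin n) (Fin n) F) i c / (h : Matrix (Fin n) (Fin n) F) i' c) with ht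
      let e : GL (Fin n) F := tv i i' hlt t
      let b₁ : B := ⟨e * b₀.1, B.mul_mem (tv_mem i i' hlt t) b₀.2⟩
      have hb₁ : ((b₁.1 * g : GL (Fin n) F) : Matrix (Fin n) (Fin n) F) =
          Matrix.transvection i i' t * (h : Matrix (Fin n) (Fin n) F) := by
        change ((e * b₀.1 * g : GL (Fin n) F) : Matrix (Fin n) (Fin n) F) = _
        rw [mul_assoc, ← hh]
        rfl
      have hlt2 : Φ b₀ < Φ b₁ := by
        apply Finset.sum_lt_sum
        · intro r _
          by_cases hr : r = i
          · subst hr
            rw [hb₁]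
            apply lead_ge _ _ _ (lead_lt h r).le
            intro c₁ hc₁
            rw [Matrix.transvection_mul_apply_same]
            rw [lead_zero (h : Matrix (Fin n) (Fin n) F) r c₁ hc₁,
              lead_zero (h : Matrix (Fin n) (Fin n) F) i' c₁ (by rw [← hval]; exact hc₁)]
            simp
          · apply le_of_eq
            apply lead_congr
            intro j
            rw [hb₁, Matrix.transvection_mul_apply_of_ne _ _ _ _ hr]
        · refine ⟨i, Finset.mem_univ _, ?_⟩
          have : lead (h : Matrix (Fin n) (Fin n) F) i + 1 ≤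
              lead ((b₁.1 * g : GL (Fin n) F) : Matrix (Fin n) (Fin n) F) i := by
            rw [hb₁]
            apply lead_ge _ _ _ (lead_lt h i)
            intro c₁ hc₁
            rw [Matrix.transvection_mul_apply_same]
            rcases Nat.lt_succ_iff_lt_or_eq.mp hc₁ with h1 | h1
            · rw [lead_zero (h : Matrix (Fin n) (Fin n) F) i c₁ h1,
                lead_zero (h : Matrix (Fin n) (Fin n) F) i' c₁ (by rw [← hval]; exact h1)]
              simp
            · have hcc : c₁ = c := Fin.ext h1
              rw [hcc, ht]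
              field_simp
              ring
          exact this
      exact absurd (hb₀ b₁) (not_le.mpr hlt2)
    rcases lt_or_gt_of_ne hne with hlt | hlt
    · exact key i i' hlt hval
    · exact key i' i hlt hval.symm
  have hbij : Function.Bijective (fun i : Fin n => (⟨lead (h : Matrix (Fin n) (Fin n) F) i, lead_lt h i⟩ : Fin n)) :=
    Finite.injective_iff_bijective.mp hinj
  let π : Equiv.Perm (Fin n) := Equiv.ofBijective _ hbij
  let w : Equiv.Perm (Fin n) := π⁻¹
  have hu : (pm F n w)⁻¹ * h ∈ B := by
    change (((pm F n w)⁻¹ * h : GL (Fin n) F) : Matrix (Fin n) (Fin n) F).BlockTriangular id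
    intro k c hck
    simp only [id] at hck
    rw [← map_inv]
    change ((pm F n w⁻¹ : Matrix (Fin n) (Fin n) F) * (h : Matrix (Fin n) (Fin n) F)) k c = 0
    rw [pm_mul_apply, inv_inv]
    apply lead_zero
    have : π (w k) = k := by
      change π (π⁻¹ k) = k
      simp
    have h2 : lead (h : Matrix (Fin n) (Fin n) F) (w k) = k.val := congrArg Fin.val this
    rw [h2]
    exact hck
  refine ⟨b₀.1⁻¹, B.inv_mem b₀.2, w, (pm F n w)⁻¹ * h, hu, ?_⟩
  rw [hh]
  group

end Cfsg.Agent.Lib.Helper95.FlagB
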