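import Mathlib
import Cfsg.Prelude.Def_LinearParabolics
import Cfsg.Agent.S2420
import Cfsg.Agent.Lib.Helper95.FlagA
import Cfsg.Agent.Lib.Helper95.FlagB

set_option autoImplicit false

namespace Cfsg.Agent.Lib.Helper95.FlagC

open scoped MatrixGroups
open Matrix Cfsg.Agent.Lib.Helper95.FlagA Cfsg.Agent.Lib.Helper95.FlagB

variable {F : Type*} [Field F] {n : ℕ}

theorem upper_le_parabolic (μ : Fin n → ℕ) :
    Cfsg.upperTriangularGL n F ≤ Cfsg.parabolicGL n F μ := by
  intro g hg
  change (g : Matrix (Fin n) (Fin n) F).BlockTriangular (Cfsg.compLabel μ)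
  intro i j hij
  apply hg
  by_contra hle
  have := Cfsg.Agent.S2420.label_mono μ (not_lt.mp hle)
  simp only [id] at this
  omega

theorem pm_mem_parabolic (μ : Fin n → ℕ) (σ : Equiv.Perm (Fin n))
    (hσ : σ ∈ Cfsg.youngSubgroup μ) : pm F n σ ∈ Cfsg.parabolicGL n F μ := by
  change (pm F n σ : Matrix (Fin n) (Fin n) F).BlockTriangular (Cfsg.compLabel μ)
  intro i j hij
  rw [pm_apply, if_neg]
  rintro rfl
  have := hσ j
  omega

/-- Vectors supported on labels `≤ a`. -/
def U (F : Type*) [Field F] {n : ℕ} (l : Fin n → ℕ) (a : ℕ) : Set (Fin n → F) :=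
  {v | ∀ i, a < l i → v i = 0}

theorem mulVec_mem_U (l : Fin n → ℕ) (a : ℕ) (M : Matrix (Fin n) (Fin n) F)
    (hM : M.BlockTriangular l) (v : Fin n → F) (hv : v ∈ U F l a) : M *ᵥ v ∈ U F l a := by
  intro i hi
  rw [Matrix.mulVec, dotProduct]
  apply Finset.sum_eq_zero
  intro j _
  by_cases hji : l j < l i
  · rw [hM hji, zero_mul]
  · rw [hv j (lt_of_lt_of_le hi (not_lt.mp hji)), mul_zero]

theorem inv_mulVec (g : GL (Fin n) F) (v : Fin n → F) :
    ((g⁻¹ : GL (Fin n) F) : Matrix (Fin n) (Fin n) F) *ᵥ ((g : Matrix (Fin n) (Fin n) F) *ᵥ v) = v := by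
  rw [Matrix.mulVec_mulVec, ← Units.val_mul, inv_mul_cancel, Units.val_one, Matrix.one_mulVec]

theorem mulVec_inv (g : GL (Fin n) F) (v : Fin n → F) :
    (g : Matrix (Fin n) (Fin n) F) *ᵥ (((g⁻¹ : GL (Fin n) F) : Matrix (Fin n) (Fin n) F) *ᵥ v) = v := by
  rw [Matrix.mulVec_mulVec, ← Units.val_mul, mul_inv_cancel, Units.val_one, Matrix.one_mulVec]

theorem mem_U_iff (μ : Fin n → ℕ) (a : ℕ) (g : GL (Fin n) F) (hg : g ∈ Cfsg.parabolicGL n F μ)
    (v : Fin n → F) :
    (g : Matrix (Fin n) (Fin n) F) *ᵥ v ∈ U F (Cfsg.compLabel μ) a ↔ v ∈ U F (Cfsg.compLabel μ) a := by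
  constructor
  · intro h
    have h2 := mulVec_mem_U (Cfsg.compLabel μ) a _ ((Cfsg.parabolicGL n F μ).inv_mem hg) _ h
    rwa [inv_mulVec] at h2
  · exact mulVec_mem_U (Cfsg.compLabel μ) a _ hg v

/-- `mulVec` by an invertible matrix as an equivalence. -/
def mvEquiv (g : GL (Fin n) F) : (Fin n → F) ≃ (Fin n → F) where
  toFun v := (g : Matrix (Fin n) (Fin n) F) *ᵥ v
  invFun v := ((g⁻¹ : GL (Fin n) F) : Matrix (Fin n) (Fin n) F) *ᵥ v
  left_inv v := inv_mulVec g v
  right_inv v := mulVec_inv g v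

/-- The relative position invariant. -/
noncomputable def D (ν μ : Fin n → ℕ) (g : GL (Fin n) F) (a b : ℕ) : ℕ :=
  Nat.card {v : Fin n → F // v ∈ U F (Cfsg.compLabel μ) b ∧
    (g : Matrix (Fin n) (Fin n) F) *ᵥ v ∈ U F (Cfsg.compLabel ν) a}

theorem D_invariant (ν μ : Fin n → ℕ) (g p p' : GL (Fin n) F)
    (hp : p ∈ Cfsg.parabolicGL n F ν) (hp' : p' ∈ Cfsg.parabolicGL n F μ) (a b : ℕ) :
    D ν μ (p * g * p') a b = D ν μ g a b := by
  unfold D
  refine Nat.card_congr ((mvEquiv p').subtypeEquiv ?_)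
  intro v
  change _ ↔ (p' : Matrix (Fin n) (Fin n) F) *ᵥ v ∈ _ ∧
    (g : Matrix (Fin n) (Fin n) F) *ᵥ ((p' : Matrix (Fin n) (Fin n) F) *ᵥ v) ∈ _
  rw [mem_U_iff μ b p' hp']
  have : ((p * g * p' : GL (Fin n) F) : Matrix (Fin n) (Fin n) F) *ᵥ v =
      (p : Matrix (Fin n) (Fin n) F) *ᵥ ((g : Matrix (Fin n) (Fin n) F) *ᵥ
        ((p' : Matrix (Fin n) (Fin n) F) *ᵥ v)) := by
    rw [Matrix.mulVec_mulVec, Matrix.mulVec_mulVec]
    rfl
  rw [this, mem_U_iff ν a p hp]

theorem card_supported [Fintype F] (Z : Finset (Fin n)) :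
    Nat.card {v : Fin n → F // ∀ j, j ∉ Z → v j = 0} = Fintype.card F ^ Z.card := by
  classical
  have e : {v : Fin n → F // ∀ j, j ∉ Z → v j = 0} ≃ (Z → F) :=
    { toFun := fun v z => v.1 z.1
      invFun := fun f => ⟨fun j => if h : j ∈ Z then f ⟨j, h⟩ else 0, fun j hj => by simp [hj]⟩
      left_inv := fun v => by
        apply Subtype.ext
        funext j
        by_cases hj : j ∈ Z
        · simp [hj]
        · simp [hj, v.2 j hj]
      right_inv := fun f => by
        funext z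
        simp [z.2] }
  rw [Nat.card_congr e, Nat.card_eq_fintype_card, Fintype.card_fun, Fintype.card_coe]

theorem D_pm [Fintype F] (ν μ : Fin n → ℕ) (w : Equiv.Perm (Fin n)) (a b : ℕ) :
    D ν μ (pm F n w) a b = Fintype.card F ^
      (Finset.univ.filter (fun j : Fin n => Cfsg.compLabel μ j ≤ b ∧ Cfsg.compLabel ν (w j) ≤ a)).card := by
  rw [← card_supported]
  unfold D
  refine Nat.card_congr (Equiv.subtypeEquivRight ?_)
  intro v
  simp only [U, Set.mem_ofPred_eq, Finset.mem_filter, Finset.mem_univ, true_and, not_and, not_le]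
  constructor
  · rintro ⟨h1, h2⟩ j hj
    by_cases hb : b < Cfsg.compLabel μ j
    · exact h1 j hb
    · have := h2 (w j) (hj (not_lt.mp hb))
      rw [pm_mulVec] at this
      simpa using this
  · intro h
    refine ⟨fun j hj => h j (fun hle => absurd hj (not_lt.mpr hle)), fun i hi => ?_⟩
    rw [pm_mulVec]
    apply h
    intro _
    simpa using hi

theorem cum_eq_of_rel [Fintype F] (ν μ : Fin n → ℕ) (w w' : Equiv.Perm (Fin n))
    (h : (dcSetoid (Cfsg.parabolicGL n F ν) (Cfsg.parabolicGL n F μ)).r (pm F n w) (pm F n w'))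
    (a b : ℕ) :
    (Finset.univ.filter (fun j : Fin n => Cfsg.compLabel μ j ≤ b ∧ Cfsg.compLabel ν (w j) ≤ a)).card =
    (Finset.univ.filter (fun j : Fin n => Cfsg.compLabel μ j ≤ b ∧ Cfsg.compLabel ν (w' j) ≤ a)).card := by
  obtain ⟨p, hp, p', hp', he⟩ := h
  have h1 := D_invariant ν μ (pm F n w) p p' hp hp' a b
  rw [← he, D_pm, D_pm] at h1
  exact (Nat.pow_right_injective Fintype.one_lt_card h1).symm


section comb
variable {X : Type*} [Fintype X]

/-- From cumulative counts to exact counts. -/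
theorem cum_to_exact (P P' : X → Prop) [DecidablePred P] [DecidablePred P'] (f f' : X → ℕ)
    (h : ∀ k, (Finset.univ.filter (fun x => P x ∧ f x ≤ k)).card =
      (Finset.univ.filter (fun x => P' x ∧ f' x ≤ k)).card) (k : ℕ) :
    (Finset.univ.filter (fun x => P x ∧ f x = k)).card =
      (Finset.univ.filter (fun x => P' x ∧ f' x = k)).card := by
  classical
  have key : ∀ (Q : X → Prop) [DecidablePred Q] (g : X → ℕ) (k : ℕ),
      (Finset.univ.filter (fun x => Q x ∧ g x ≤ k + 1)).card =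
        (Finset.univ.filter (fun x => Q x ∧ g x ≤ k)).card +
        (Finset.univ.filter (fun x => Q x ∧ g x = k + 1)).card := by
    intro Q _ g k
    rw [← Finset.card_union_of_disjoint]
    · congr 1
      ext x
      simp only [Finset.mem_filter, Finset.mem_univ, true_and, Finset.mem_union]
      constructor
      · rintro ⟨hq, hle⟩
        rcases Nat.lt_or_ge (g x) (k + 1) with h1 | h1
        · exact Or.inl ⟨hq, by omega⟩
        · exact Or.inr ⟨hq, by omega⟩
      · rintro (⟨hq, hle⟩ | ⟨hq, hle⟩)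
        · exact ⟨hq, by omega⟩
        · exact ⟨hq, by omega⟩
    · rw [Finset.disjoint_left]
      intro x hx hx'
      simp only [Finset.mem_filter, Finset.mem_univ, true_and] at hx hx'
      omega
  rcases Nat.eq_zero_or_pos k with hk | hk
  · subst hk
    have := h 0
    simpa using this
  · obtain ⟨k', rfl⟩ : ∃ k', k = k' + 1 := ⟨k - 1, by omega⟩
    have h1 := key P f k'
    have h2 := key P' f' k'
    have h3 := h (k' + 1)
    have h4 := h k'
    omega

end comb

theorem exact_of_cum (ν μ : Fin n → ℕ) (w w' : Equiv.Perm (Fin n))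
    (h : ∀ a b : ℕ,
      (Finset.univ.filter (fun j : Fin n => Cfsg.compLabel μ j ≤ b ∧ Cfsg.compLabel ν (w j) ≤ a)).card =
      (Finset.univ.filter (fun j : Fin n => Cfsg.compLabel μ j ≤ b ∧ Cfsg.compLabel ν (w' j) ≤ a)).card)
    (a b : ℕ) :
    (Finset.univ.filter (fun j : Fin n => Cfsg.compLabel μ j = b ∧ Cfsg.compLabel ν (w j) = a)).card =
    (Finset.univ.filter (fun j : Fin n => Cfsg.compLabel μ j = b ∧ Cfsg.compLabel ν (w' j) = a)).card := by
  have h1 : ∀ a b : ℕ,
      (Finset.univ.filter (fun j : Fin n => Cfsg.compLabel ν (w j) ≤ a ∧ Cfsg.compLabel μ j = b)).card =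
      (Finset.univ.filter (fun j : Fin n => Cfsg.compLabel ν (w' j) ≤ a ∧ Cfsg.compLabel μ j = b)).card := by
    intro a b
    apply cum_to_exact
    intro k
    have := h a k
    simp only [and_comm] at this ⊢
    exact this
  have h2 := cum_to_exact (fun j : Fin n => Cfsg.compLabel μ j = b) (fun j : Fin n => Cfsg.compLabel μ j = b)
    (fun j => Cfsg.compLabel ν (w j)) (fun j => Cfsg.compLabel ν (w' j)) (fun k => by
      have := h1 k b
      simp only [and_comm] at this ⊢
      exact this) a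
  exact h2

/-- Gluing: equal exact counts give the double coset relation for Young subgroups. -/
theorem rel_of_exact (ν μ : Fin n → ℕ) (w w' : Equiv.Perm (Fin n))
    (h : ∀ a b : ℕ,
      (Finset.univ.filter (fun j : Fin n => Cfsg.compLabel μ j = b ∧ Cfsg.compLabel ν (w j) = a)).card =
      (Finset.univ.filter (fun j : Fin n => Cfsg.compLabel μ j = b ∧ Cfsg.compLabel ν (w' j) = a)).card) :
    (dcSetoid (Cfsg.youngSubgroup ν) (Cfsg.youngSubgroup μ)).r w w' := by
  let f : Fin n → ℕ × ℕ := fun j => (Cfsg.compLabel μ j, Cfsg.compLabel ν (w' j))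
  let g : Fin n → ℕ × ℕ := fun j => (Cfsg.compLabel μ j, Cfsg.compLabel ν (w j))
  have hcard : ∀ c : ℕ × ℕ, Fintype.card {j // f j = c} = Fintype.card {j // g j = c} := by
    rintro ⟨b, a⟩
    rw [Fintype.card_subtype, Fintype.card_subtype]
    have := h a b
    simp only [f, g, Prod.mk.injEq]
    exact this.symm
  let σ : Equiv.Perm (Fin n) := Equiv.ofFiberEquiv (fun c => Fintype.equivOfCardEq (hcard c))
  have hσ : ∀ j, g (σ j) = f j := fun j => Equiv.ofFiberEquiv_map _ j
  have hσ1 : ∀ j, Cfsg.compLabel μ (σ j) = Cfsg.compLabel μ j := fun j => congrArg Prod.fst (hσ j)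
  have hσ2 : ∀ j, Cfsg.compLabel ν (w (σ j)) = Cfsg.compLabel ν (w' j) := fun j => congrArg Prod.snd (hσ j)
  refine ⟨w' * σ⁻¹ * w⁻¹, ?_, σ, hσ1, by group⟩
  intro i
  change Cfsg.compLabel ν (w' (σ⁻¹ (w⁻¹ i))) = Cfsg.compLabel ν i
  rw [← hσ2]
  simp

/-- The map on double cosets induced by permutation matrices. -/
def dcMap (F : Type*) [Field F] {n : ℕ} (ν μ : Fin n → ℕ) :
    Quotient (dcSetoid (Cfsg.youngSubgroup ν) (Cfsg.youngSubgroup μ)) →
      Quotient (dcSetoid (Cfsg.parabolicGL n F ν) (Cfsg.parabolicGL n F μ)) :=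
  Quotient.lift (fun w => Quotient.mk (dcSetoid (Cfsg.parabolicGL n F ν) (Cfsg.parabolicGL n F μ)) (pm F n w))
    (by
      rintro w w' ⟨τ, hτ, σ, hσ, rfl⟩
      apply Quotient.sound
      exact ⟨pm F n τ, pm_mem_parabolic ν τ hτ, pm F n σ, pm_mem_parabolic μ σ hσ, by
        rw [map_mul, map_mul]⟩)

theorem dcMap_bijective [Fintype F] (ν μ : Fin n → ℕ) : Function.Bijective (dcMap F ν μ) := by
  constructor
  · intro q q'
    induction q using Quotient.inductionOn with | _ w => ?_
    induction q' using Quotient.inductionOn with | _ w' => ?_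
    intro h
    have h' := Quotient.exact h
    apply Quotient.sound
    apply rel_of_exact
    apply exact_of_cum
    intro a b
    exact cum_eq_of_rel ν μ w w' h' a b
  · intro q
    induction q using Quotient.inductionOn with | _ g => ?_
    obtain ⟨b, hb, w, u, hu, rfl⟩ := bruhat g
    refine ⟨Quotient.mk _ w, ?_⟩
    apply Quotient.sound
    exact ⟨b, upper_le_parabolic ν hb, u, upper_le_parabolic μ hu, rfl⟩

/-- Parabolic double cosets of `GL_n(q)` are counted by Young double cosets of `S_n`. -/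
theorem card_dc_parabolic [Fintype F] (ν μ : Fin n → ℕ) :
    Nat.card (Quotient (dcSetoid (Cfsg.parabolicGL n F ν) (Cfsg.parabolicGL n F μ))) =
      Nat.card (Quotient (dcSetoid (Cfsg.youngSubgroup ν) (Cfsg.youngSubgroup μ))) :=
  (Nat.card_congr (Equiv.ofBijective _ (dcMap_bijective ν μ))).symm

end Cfsg.Agent.Lib.Helper95.FlagC
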