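import Mathlib
import Cfsg.Prelude.Def_LinearParabolics
import Cfsg.Agent.S2420
import Cfsg.Agent.Lib.Helper95.FlagC

set_option autoImplicit false

namespace Cfsg.Agent.Lib.Helper95.FlagD

open Cfsg.Agent.Lib.Helper95.FlagA Cfsg.Agent.Lib.Helper95.FlagC
open Cfsg.Agent.S2420 (S Sm label_le_iff label_lt_iff S_eq S_le_total lab label_lt_n)

variable {n : ℕ}

/-- Block sizes of the labelling attached to a composition. -/
theorem card_label_eq (μ : Fin n → ℕ) (hμ : ∑ i, μ i = n) (a : Fin n) :
    (Finset.univ.filter (fun i : Fin n => Cfsg.compLabel μ i = a.val)).card = μ a := by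
  have hSn : S μ a ≤ n := le_of_le_of_eq (S_le_total μ a) hμ
  have hS : S μ a = Sm μ a + μ a := S_eq μ a
  have h1 : (Finset.univ.filter (fun i : Fin n => Cfsg.compLabel μ i ≤ a.val)).card = S μ a := by
    rw [Finset.filter_congr (fun i _ => label_le_iff μ i a)]
    exact Cfsg.Agent.S2420.card_filter_val_lt _ hSn
  have h2 : (Finset.univ.filter (fun i : Fin n => Cfsg.compLabel μ i < a.val)).card = Sm μ a := by
    rw [Finset.filter_congr (fun i _ => label_lt_iff μ i a)]
    exact Cfsg.Agent.S2420.card_filter_val_lt _ (by omega)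
  have h3 : Finset.univ.filter (fun i : Fin n => Cfsg.compLabel μ i ≤ a.val) =
      Finset.univ.filter (fun i : Fin n => Cfsg.compLabel μ i < a.val) ∪
        Finset.univ.filter (fun i : Fin n => Cfsg.compLabel μ i = a.val) := by
    ext i
    simp only [Finset.mem_filter, Finset.mem_univ, true_and, Finset.mem_union]
    omega
  have h4 : Disjoint (Finset.univ.filter (fun i : Fin n => Cfsg.compLabel μ i < a.val))
      (Finset.univ.filter (fun i : Fin n => Cfsg.compLabel μ i = a.val)) := by
    rw [Finset.disjoint_left]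
    intro i hi hi'
    simp only [Finset.mem_filter, Finset.mem_univ, true_and] at hi hi'
    omega
  rw [h3, Finset.card_union_of_disjoint h4, h2] at h1
  omega

/-- The contingency table of a permutation. -/
def tabOf (α β : Fin n → ℕ) (w : Equiv.Perm (Fin n)) (a b : Fin n) : ℕ :=
  (Finset.univ.filter (fun j : Fin n => Cfsg.compLabel β j = b.val ∧ Cfsg.compLabel α (w j) = a.val)).card

theorem tabOf_row (α β : Fin n → ℕ) (hα : ∑ i, α i = n) (hβ : ∑ i, β i = n)
    (w : Equiv.Perm (Fin n)) (a : Fin n) : ∑ b, tabOf α β w a b = α a := by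
  rw [← card_label_eq α hα a]
  have h1 : (Finset.univ.filter (fun i : Fin n => Cfsg.compLabel α i = a.val)).card =
      (Finset.univ.filter (fun j : Fin n => Cfsg.compLabel α (w j) = a.val)).card := by
    symm
    apply Finset.card_bijective w w.bijective
    intro i
    simp
  rw [h1, Finset.card_eq_sum_card_fiberwise (f := lab β hβ) (t := Finset.univ) (fun _ _ => Finset.mem_univ _)]
  refine Finset.sum_congr rfl fun b _ => ?_
  unfold tabOf
  congr 1
  ext j
  simp only [Finset.mem_filter, Finset.mem_univ, true_and, lab, Fin.ext_iff]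
  tauto

theorem tabOf_col (α β : Fin n → ℕ) (hα : ∑ i, α i = n) (hβ : ∑ i, β i = n)
    (w : Equiv.Perm (Fin n)) (b : Fin n) : ∑ a, tabOf α β w a b = β b := by
  rw [← card_label_eq β hβ b]
  rw [Finset.card_eq_sum_card_fiberwise (f := fun j => lab α hα (w j)) (t := Finset.univ)
    (fun _ _ => Finset.mem_univ _)]
  refine Finset.sum_congr rfl fun a _ => ?_
  unfold tabOf
  congr 1
  ext j
  simp only [Finset.mem_filter, Finset.mem_univ, true_and, lab, Fin.ext_iff]

theorem tabOf_rel (α β : Fin n → ℕ) (w w' : Equiv.Perm (Fin n))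
    (h : (dcSetoid (Cfsg.youngSubgroup α) (Cfsg.youngSubgroup β)).r w w') :
    tabOf α β w = tabOf α β w' := by
  obtain ⟨τ, hτ, σ, hσ, rfl⟩ := h
  funext a b
  unfold tabOf
  symm
  apply Finset.card_bijective σ σ.bijective
  intro j
  simp only [Finset.mem_filter, Finset.mem_univ, true_and]
  rw [Equiv.Perm.mul_apply, Equiv.Perm.mul_apply, hτ (w (σ j)), hσ j]

/-- The type of contingency tables. -/
abbrev Tab (α β : Fin n → ℕ) : Type :=
  {M : Fin n → Fin n → ℕ // (∀ a, ∑ b, M a b = α a) ∧ (∀ b, ∑ a, M a b = β b)}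

/-- The map from Young double cosets to tables. -/
def tabMap (α β : Fin n → ℕ) (hα : ∑ i, α i = n) (hβ : ∑ i, β i = n) :
    Quotient (dcSetoid (Cfsg.youngSubgroup α) (Cfsg.youngSubgroup β)) → Tab α β :=
  Quotient.lift (fun w => (⟨tabOf α β w, tabOf_row α β hα hβ w, tabOf_col α β hα hβ w⟩ : Tab α β))
    (fun w w' h => Subtype.ext (tabOf_rel α β w w' h))

theorem tabMap_injective (α β : Fin n → ℕ) (hα : ∑ i, α i = n) (hβ : ∑ i, β i = n) :
    Function.Injective (tabMap α β hα hβ) := by
  intro q q'
  induction q using Quotient.inductionOn with | _ w => ?_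
  induction q' using Quotient.inductionOn with | _ w' => ?_
  intro h
  have h' : tabOf α β w = tabOf α β w' := congrArg Subtype.val h
  apply Quotient.sound
  apply rel_of_exact
  intro a b
  by_cases ha : a < n
  · by_cases hb : b < n
    · exact congrFun (congrFun h' ⟨a, ha⟩) ⟨b, hb⟩
    · rw [Finset.filter_false_of_mem, Finset.filter_false_of_mem]
      · intro j _ hj
        have := label_lt_n β hβ j
        omega
      · intro j _ hj
        have := label_lt_n β hβ j
        omega
  · rw [Finset.filter_false_of_mem, Finset.filter_false_of_mem]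
    · intro j _ hj
      have := label_lt_n α hα (w' j)
      omega
    · intro j _ hj
      have := label_lt_n α hα (w j)
      omega

theorem card_sigma_fiber (M : Fin n → Fin n → ℕ) (P : Fin n × Fin n → Prop) [DecidablePred P] :
    Fintype.card {x : (Σ p : Fin n × Fin n, Fin (M p.1 p.2)) // P x.1} =
      ∑ p : Fin n × Fin n, if P p then M p.1 p.2 else 0 := by
  rw [Fintype.card_subtype, Finset.card_filter, Fintype.sum_sigma]
  refine Finset.sum_congr rfl fun p _ => ?_
  by_cases hp : P p
  · simp [hp]
  · simp [hp]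

theorem tabMap_surjective (α β : Fin n → ℕ) (hα : ∑ i, α i = n) (hβ : ∑ i, β i = n) :
    Function.Surjective (tabMap α β hα hβ) := by
  rintro ⟨M, hrow, hcol⟩
  let X := Σ p : Fin n × Fin n, Fin (M p.1 p.2)
  have h1 : ∀ b : Fin n, Fintype.card {j : Fin n // lab β hβ j = b} =
      Fintype.card {x : X // x.1.2 = b} := by
    intro b
    rw [card_sigma_fiber M (fun p => p.2 = b), Fintype.card_subtype, Fintype.sum_prod_type]
    dsimp only
    simp only [Finset.sum_ite_eq', Finset.mem_univ, if_true]
    rw [hcol b, ← card_label_eq β hβ b]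
    congr 1
    ext j
    simp [lab, Fin.ext_iff]
  have h2 : ∀ a : Fin n, Fintype.card {i : Fin n // lab α hα i = a} =
      Fintype.card {x : X // x.1.1 = a} := by
    intro a
    rw [card_sigma_fiber M (fun p => p.1 = a), Fintype.card_subtype, Fintype.sum_prod_type]
    dsimp only
    rw [Finset.sum_eq_single a]
    · simp only [↓reduceIte]
      rw [hrow a, ← card_label_eq α hα a]
      congr 1
      ext j
      simp [lab, Fin.ext_iff]
    · intro a' _ ha'
      simp [ha']
    · simp
  let e₁ : Fin n ≃ X := Equiv.ofFiberEquiv (f := lab β hβ) (g := fun x : X => x.1.2)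
    (fun b => Fintype.equivOfCardEq (h1 b))
  let e₂ : Fin n ≃ X := Equiv.ofFiberEquiv (f := lab α hα) (g := fun x : X => x.1.1)
    (fun a => Fintype.equivOfCardEq (h2 a))
  have he₁ : ∀ j, (e₁ j).1.2 = lab β hβ j := fun j =>
    Equiv.ofFiberEquiv_map (f := lab β hβ) (g := fun x : X => x.1.2) _ j
  have he₂ : ∀ i, (e₂ i).1.1 = lab α hα i := fun i =>
    Equiv.ofFiberEquiv_map (f := lab α hα) (g := fun x : X => x.1.1) _ i
  let w : Equiv.Perm (Fin n) := e₁.trans e₂.symm
  have hw : ∀ j, e₂ (w j) = e₁ j := fun j => by simp [w]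
  refine ⟨Quotient.mk _ w, ?_⟩
  apply Subtype.ext
  funext a b
  change tabOf α β w a b = M a b
  unfold tabOf
  have h3 : (Finset.univ.filter (fun j : Fin n => Cfsg.compLabel β j = b.val ∧
      Cfsg.compLabel α (w j) = a.val)) =
      Finset.univ.filter (fun j : Fin n => (e₁ j).1 = (a, b)) := by
    ext j
    simp only [Finset.mem_filter, Finset.mem_univ, true_and]
    have e1 := he₁ j
    have e2 := he₂ (w j)
    rw [hw j] at e2
    rw [Prod.ext_iff, e1, e2]
    simp only [lab, Fin.ext_iff]
    tauto
  rw [h3]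
  have h4 : (Finset.univ.filter (fun j : Fin n => (e₁ j).1 = (a, b))).card =
      (Finset.univ.filter (fun x : X => x.1 = (a, b))).card := by
    apply Finset.card_bijective e₁ e₁.bijective
    intro j
    simp
  rw [h4, ← Fintype.card_subtype, card_sigma_fiber M (fun p => p = (a, b))]
  simp

/-- Young double cosets are counted by contingency tables. -/
theorem card_dc_young (α β : Fin n → ℕ) (hα : ∑ i, α i = n) (hβ : ∑ i, β i = n) :
    Nat.card (Quotient (dcSetoid (Cfsg.youngSubgroup α) (Cfsg.youngSubgroup β))) =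
      Nat.card {M : Fin n → Fin n → ℕ // (∀ a, ∑ b, M a b = α a) ∧ (∀ b, ∑ a, M a b = β b)} :=
  Nat.card_congr (Equiv.ofBijective _ ⟨tabMap_injective α β hα hβ, tabMap_surjective α β hα hβ⟩)

end Cfsg.Agent.Lib.Helper95.FlagD
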