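import Mathlib

set_option autoImplicit false

namespace Cfsg.Agent.Lib.Helper95.FlagE

open Matrix

section H
variable {A : Type*} [CommRing A] {ι : Type*} [DecidableEq ι]

/-- Signed elementary symmetric sums. -/
def cc (y : ι → A) (T : Finset ι) (k : ℕ) : A := ∑ U ∈ T.powersetCard k, ∏ l ∈ U, (- y l)

theorem prod_sub_mul (y : ι → A) (T : Finset ι) (s t : A) :
    ∏ l ∈ T, (s - t * y l) =
      ∑ k ∈ Finset.range (T.card + 1), cc y T k * s ^ (T.card - k) * t ^ k := by
  have h1 : ∏ l ∈ T, (s - t * y l) = ∏ l ∈ T, (t * (- y l) + s) := by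
    refine Finset.prod_congr rfl fun l _ => by ring
  rw [h1, Finset.prod_add, Finset.sum_powerset]
  refine Finset.sum_congr rfl fun k _ => ?_
  unfold cc
  rw [Finset.sum_mul, Finset.sum_mul]
  refine Finset.sum_congr rfl fun U hU => ?_
  rw [Finset.mem_powersetCard] at hU
  rw [Finset.prod_mul_distrib, Finset.prod_const, Finset.prod_const, hU.2,
    Finset.card_sdiff_of_subset hU.1, hU.2]
  ring

end H

section mats
variable {A : Type*} [CommRing A] {n : ℕ}

/-- Coefficient matrix. -/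
def cM (y : Fin n → A) : Matrix (Fin n) (Fin n) A :=
  Matrix.of fun j k => cc y (Finset.univ.erase j) k.val

/-- The Cauchy-type matrix (cleared of denominators). -/
def QM (x y : Fin n → A) : Matrix (Fin n) (Fin n) A :=
  Matrix.of fun i j => ∏ l ∈ Finset.univ.erase j, (1 - x i * y l)

/-- Reversed Vandermonde. -/
def WM (y : Fin n → A) : Matrix (Fin n) (Fin n) A :=
  Matrix.of fun k m => y m ^ (n - 1 - k.val)

theorem card_erase_add_one (j : Fin n) : (Finset.univ.erase j).card + 1 = n := by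
  rw [Finset.card_erase_of_mem (Finset.mem_univ j), Finset.card_univ, Fintype.card_fin]
  have := j.isLt
  omega

theorem QM_eq (x y : Fin n → A) : QM x y = Matrix.vandermonde x * (cM y)ᵀ := by
  ext i j
  simp only [QM, Matrix.of_apply, Matrix.mul_apply, Matrix.vandermonde_apply, Matrix.transpose_apply, cM]
  rw [prod_sub_mul y (Finset.univ.erase j) 1 (x i), card_erase_add_one, Finset.sum_range]
  refine Finset.sum_congr rfl fun k _ => by ring

theorem cM_mul_WM (y : Fin n → A) :
    cM y * WM y = Matrix.diagonal (fun j => ∏ l ∈ Finset.univ.erase j, (y j - y l)) := by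
  ext j m
  simp only [Matrix.mul_apply, cM, WM, Matrix.of_apply]
  have h := prod_sub_mul y (Finset.univ.erase j) (y m) 1
  have hc' : (Finset.univ.erase j).card = n - 1 := by
    have := card_erase_add_one j
    omega
  rw [card_erase_add_one, Finset.sum_range, hc'] at h
  simp only [one_mul, one_pow, mul_one] at h
  rw [← h]
  by_cases hmj : j = m
  · subst hmj
    simp
  · rw [Matrix.diagonal_apply_ne _ hmj]
    exact Finset.prod_eq_zero (Finset.mem_erase.mpr ⟨Ne.symm hmj, Finset.mem_univ m⟩) (sub_self _)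

theorem WM_eq (y : Fin n → A) :
    WM y = ((Matrix.vandermonde y)ᵀ).submatrix (Fin.revPerm : Equiv.Perm (Fin n)) id := by
  ext k m
  simp only [WM, Matrix.of_apply, Matrix.submatrix_apply, Matrix.transpose_apply,
    Matrix.vandermonde_apply, Fin.revPerm_apply, id, Fin.val_rev]
  congr 1
  omega

theorem det_WM (y : Fin n → A) :
    (WM y).det = ((Equiv.Perm.sign (Fin.revPerm : Equiv.Perm (Fin n)) : ℤˣ) : ℤ) * (Matrix.vandermonde y).det := by
  rw [WM_eq, Matrix.det_permute, Matrix.det_transpose]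

theorem prod_diag (y : Fin n → A) :
    ∃ e : A, e * e = 1 ∧ ∏ j : Fin n, ∏ l ∈ Finset.univ.erase j, (y j - y l) =
      (Matrix.vandermonde y).det * (e * (Matrix.vandermonde y).det) := by
  refine ⟨∏ j : Fin n, ∏ l ∈ Finset.Ioi j, (-1 : A), ?_, ?_⟩
  · rw [← Finset.prod_mul_distrib]
    apply Finset.prod_eq_one
    intro j _
    rw [← Finset.prod_mul_distrib]
    apply Finset.prod_eq_one
    intro l _
    ring
  · have h1 : ∀ j : Fin n, ∏ l ∈ Finset.univ.erase j, (y j - y l) =
        (∏ l ∈ Finset.Iio j, (y j - y l)) * ∏ l ∈ Finset.Ioi j, (y j - y l) := by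
      intro j
      rw [← Finset.prod_union]
      · apply Finset.prod_congr _ (fun _ _ => rfl)
        ext l
        simp only [Finset.mem_erase, Finset.mem_univ, and_true, Finset.mem_union, Finset.mem_Iio,
          Finset.mem_Ioi]
        exact lt_or_lt_iff_ne.symm
      · rw [Finset.disjoint_left]
        intro l hl hl'
        simp only [Finset.mem_Iio, Finset.mem_Ioi] at hl hl'
        exact absurd hl (not_lt.mpr hl'.le)
    rw [Finset.prod_congr rfl (fun j _ => h1 j), Finset.prod_mul_distrib]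
    have h2 : ∏ j : Fin n, ∏ l ∈ Finset.Iio j, (y j - y l) = (Matrix.vandermonde y).det := by
      rw [Matrix.det_vandermonde]
      rw [Finset.prod_comm' (s' := fun l => Finset.Ioi l) (t' := Finset.univ)]
      intro j l
      simp
    have h3 : ∏ j : Fin n, ∏ l ∈ Finset.Ioi j, (y j - y l) =
        (∏ j : Fin n, ∏ l ∈ Finset.Ioi j, (-1 : A)) * (Matrix.vandermonde y).det := by
      rw [Matrix.det_vandermonde, ← Finset.prod_mul_distrib]
      refine Finset.prod_congr rfl fun j _ => ?_
      rw [← Finset.prod_mul_distrib]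
      refine Finset.prod_congr rfl fun l _ => by ring
    rw [h2, h3]

theorem det_cM [IsDomain A] (y : Fin n → A) (hy : Function.Injective y) :
    ∃ u : A, (u = 1 ∨ u = -1) ∧ (cM y).det = u * (Matrix.vandermonde y).det := by
  have hV : (Matrix.vandermonde y).det ≠ 0 := Matrix.det_vandermonde_ne_zero_iff.mpr hy
  obtain ⟨e, he, hprod⟩ := prod_diag y
  have h1 := congrArg Matrix.det (cM_mul_WM y)
  rw [Matrix.det_mul, Matrix.det_diagonal, det_WM, hprod] at h1
  set s : A := (((Equiv.Perm.sign (Fin.revPerm : Equiv.Perm (Fin n)) : ℤˣ) : ℤ) : A) with hs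
  have hss : s * s = 1 := by
    rw [hs]
    rcases Int.units_eq_one_or (Equiv.Perm.sign (Fin.revPerm : Equiv.Perm (Fin n))) with h | h <;>
      rw [h] <;> simp
  have h2 : (cM y).det * s = e * (Matrix.vandermonde y).det := by
    apply mul_right_cancel₀ hV
    rw [mul_assoc, h1]
    ring
  have h3 : (cM y).det = (s * e) * (Matrix.vandermonde y).det := by
    calc (cM y).det = (cM y).det * s * s := by rw [mul_assoc, hss, mul_one]
      _ = (s * e) * (Matrix.vandermonde y).det := by rw [h2]; ring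
  refine ⟨s * e, ?_, h3⟩
  apply mul_self_eq_one_iff.mp
  calc s * e * (s * e) = (s * s) * (e * e) := by ring
    _ = 1 := by rw [hss, he, mul_one]

theorem det_QM [IsDomain A] (x y : Fin n → A) (hy : Function.Injective y) :
    ∃ u : A, (u = 1 ∨ u = -1) ∧
      (QM x y).det = u * ((Matrix.vandermonde x).det * (Matrix.vandermonde y).det) := by
  obtain ⟨u, hu, h⟩ := det_cM y hy
  refine ⟨u, hu, ?_⟩
  rw [QM_eq, Matrix.det_mul, Matrix.det_transpose, h]
  ring

end mats


section poly
open MvPolynomial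
variable {n : ℕ}

/-- The polynomial ring in two sets of variables. -/
abbrev RR (n : ℕ) := MvPolynomial (Fin n ⊕ Fin n) ℤ

/-- The first set of variables. -/
noncomputable def xv (i : Fin n) : RR n := X (Sum.inl i)

/-- The second set of variables. -/
noncomputable def yv (j : Fin n) : RR n := X (Sum.inr j)

/-- Exponent vectors. -/
noncomputable def EE (a b : Fin n → ℕ) : (Fin n ⊕ Fin n) →₀ ℕ :=
  Finsupp.equivFunOnFinite.symm (Sum.elim a b)

theorem EE_inl (a b : Fin n → ℕ) (i : Fin n) : EE a b (Sum.inl i) = a i := rfl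

theorem EE_inr (a b : Fin n → ℕ) (i : Fin n) : EE a b (Sum.inr i) = b i := rfl

theorem EE_inj (a b a' b' : Fin n → ℕ) : EE a b = EE a' b' ↔ a = a' ∧ b = b' := by
  constructor
  · intro h
    refine ⟨funext fun i => ?_, funext fun i => ?_⟩
    · have := DFunLike.congr_fun h (Sum.inl i)
      simpa only [EE_inl] using this
    · have := DFunLike.congr_fun h (Sum.inr i)
      simpa only [EE_inr] using this
  · rintro ⟨rfl, rfl⟩
    rfl

theorem mono_eq (a b : Fin n → ℕ) :
    (∏ i, xv i ^ a i) * ∏ j, yv j ^ b j = monomial (EE a b) (1 : ℤ) := by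
  rw [MvPolynomial.monomial_eq, Finsupp.prod_fintype _ _ (fun _ => pow_zero _), Fintype.prod_sum_type]
  simp only [C_1, one_mul, EE_inl, EE_inr]
  rfl

theorem coeff_mono (a b lam lam' : Fin n → ℕ) :
    coeff (EE lam lam') ((∏ i, xv i ^ a i) * ∏ j, yv j ^ b j) =
      if a = lam ∧ b = lam' then (1 : ℤ) else 0 := by
  classical
  rw [mono_eq, coeff_monomial]
  simp only [EE_inj]

/-- Truncated geometric series. -/
noncomputable def GG (B : ℕ) (u : RR n) : RR n := ∑ m ∈ Finset.range (B + 1), u ^ m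

theorem one_sub_mul_GG (B : ℕ) (u : RR n) : (1 - u) * GG B u = 1 - u ^ (B + 1) :=
  mul_neg_geom_sum u (B + 1)

/-- Truncated Cauchy product. -/
noncomputable def CB (n B : ℕ) : RR n := ∏ i : Fin n, ∏ j : Fin n, GG B (xv i * yv j)

theorem T_mul_CB (B : ℕ) (σ : Equiv.Perm (Fin n)) :
    (∏ i : Fin n, ∏ l ∈ Finset.univ.erase (σ i), (1 - xv i * yv l)) * CB n B =
      ∏ i : Fin n, (GG B (xv i * yv (σ i)) *
        ∏ l ∈ Finset.univ.erase (σ i), (1 - (xv i * yv l) ^ (B + 1))) := by
  unfold CB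
  rw [← Finset.prod_mul_distrib]
  refine Finset.prod_congr rfl fun i _ => ?_
  rw [← Finset.mul_prod_erase Finset.univ (fun j => GG B (xv i * yv j)) (Finset.mem_univ (σ i)),
    mul_left_comm, ← Finset.prod_mul_distrib]
  congr 1
  refine Finset.prod_congr rfl fun l _ => ?_
  exact one_sub_mul_GG B _

/-- The ideal of high powers of the `x` variables. -/
noncomputable def JJ (n B : ℕ) : Ideal (RR n) := Ideal.span (Set.range fun i : Fin n => xv i ^ (B + 1))

theorem coeff_JJ (B : ℕ) (lam lam' : Fin n → ℕ) (hB : ∀ i, lam i ≤ B) (p : RR n) (hp : p ∈ JJ n B) :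
    coeff (EE lam lam') p = 0 := by
  classical
  have key : ∀ r : RR n, coeff (EE lam lam') (r * p) = 0 := by
    unfold JJ at hp
    refine Submodule.span_induction (p := fun p _ => ∀ r : RR n, coeff (EE lam lam') (r * p) = 0)
      ?_ ?_ ?_ ?_ hp
    · rintro _ ⟨i, rfl⟩ r
      dsimp only
      unfold xv
      rw [X_pow_eq_monomial, coeff_mul_monomial', if_neg]
      intro hle
      have := hle (Sum.inl i)
      rw [Finsupp.single_eq_same, EE_inl] at this
      have := hB i
      omega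
    · intro r
      simp
    · intro a b _ _ ha hb r
      rw [mul_add, coeff_add, ha r, hb r, add_zero]
    · intro a b _ hb r
      rw [smul_eq_mul, ← mul_assoc]
      exact hb (r * a)
  simpa using key 1

theorem coeff_prod_GG (B : ℕ) (lam lam' : Fin n → ℕ) (hB : ∀ i, lam i ≤ B) (σ : Equiv.Perm (Fin n)) :
    coeff (EE lam lam') (∏ i : Fin n, GG B (xv i * yv (σ i))) =
      if lam' ∘ σ = lam then (1 : ℤ) else 0 := by
  classical
  unfold GG
  rw [Finset.prod_univ_sum, coeff_sum]
  have h1 : ∀ m : Fin n → ℕ, ∏ i : Fin n, (xv i * yv (σ i)) ^ m i =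
      (∏ i, xv i ^ m i) * ∏ j, yv j ^ (m ∘ ⇑σ⁻¹) j := by
    intro m
    rw [← Equiv.prod_comp σ (fun j => yv j ^ (m ∘ ⇑σ⁻¹) j), ← Finset.prod_mul_distrib]
    refine Finset.prod_congr rfl fun i _ => ?_
    simp [mul_pow]
  simp only [h1, coeff_mono]
  by_cases h : lam' ∘ σ = lam
  · rw [if_pos h]
    rw [Finset.sum_eq_single lam]
    · rw [if_pos]
      refine ⟨rfl, ?_⟩
      rw [← h]
      funext j
      simp
    · intro m _ hm
      rw [if_neg]
      exact fun hh => hm hh.1
    · intro hnot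
      exfalso
      apply hnot
      rw [Fintype.mem_piFinset]
      intro i
      rw [Finset.mem_range]
      have := hB i
      omega
  · rw [if_neg h]
    apply Finset.sum_eq_zero
    intro m _
    rw [if_neg]
    rintro ⟨rfl, h2⟩
    apply h
    rw [← h2]
    funext j
    simp

theorem coeff_T_mul_CB (B : ℕ) (lam lam' : Fin n → ℕ) (hB : ∀ i, lam i ≤ B) (σ : Equiv.Perm (Fin n)) :
    coeff (EE lam lam') ((∏ i : Fin n, ∏ l ∈ Finset.univ.erase (σ i), (1 - xv i * yv l)) * CB n B) =
      if lam' ∘ σ = lam then (1 : ℤ) else 0 := by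
  rw [← coeff_prod_GG B lam lam' hB σ]
  have hmem : (∏ i : Fin n, ∏ l ∈ Finset.univ.erase (σ i), (1 - xv i * yv l)) * CB n B -
      ∏ i : Fin n, GG B (xv i * yv (σ i)) ∈ JJ n B := by
    rw [← Ideal.Quotient.eq, T_mul_CB, map_prod, map_prod]
    refine Finset.prod_congr rfl fun i _ => ?_
    rw [map_mul, map_prod]
    have : ∀ l ∈ Finset.univ.erase (σ i),
        Ideal.Quotient.mk (JJ n B) (1 - (xv i * yv l) ^ (B + 1)) = 1 := by
      intro l _
      rw [map_sub, map_one]
      have : Ideal.Quotient.mk (JJ n B) ((xv i * yv l) ^ (B + 1)) = 0 := by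
        rw [Ideal.Quotient.eq_zero_iff_mem, mul_pow]
        apply Ideal.mul_mem_right
        exact Ideal.subset_span ⟨i, rfl⟩
      rw [this, sub_zero]
    rw [Finset.prod_congr rfl this, Finset.prod_const_one, mul_one]
  have := coeff_JJ B lam lam' hB _ hmem
  rw [coeff_sub, sub_eq_zero] at this
  exact this

/-- Row sums. -/
def rowS (M : Fin n × Fin n → ℕ) (i : Fin n) : ℕ := ∑ j, M (i, j)

/-- Column sums. -/
def colS (M : Fin n × Fin n → ℕ) (j : Fin n) : ℕ := ∑ i, M (i, j)

theorem CB_eq (B : ℕ) :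
    CB n B = ∑ M ∈ Fintype.piFinset (fun _ : Fin n × Fin n => Finset.range (B + 1)),
      (∏ i, xv i ^ rowS M i) * ∏ j, yv j ^ colS M j := by
  unfold CB GG
  rw [← Fintype.prod_prod_type' (f := fun i j => ∑ m ∈ Finset.range (B + 1), (xv i * yv j) ^ m),
    Finset.prod_univ_sum]
  refine Finset.sum_congr rfl fun M _ => ?_
  simp only [mul_pow]
  rw [Finset.prod_mul_distrib]
  congr 1
  · rw [Fintype.prod_prod_type]
    refine Finset.prod_congr rfl fun i _ => ?_
    unfold rowS
    dsimp only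
    rw [Finset.prod_pow_eq_pow_sum]
  · rw [Fintype.prod_prod_type, Finset.prod_comm]
    refine Finset.prod_congr rfl fun j _ => ?_
    unfold colS
    dsimp only
    rw [Finset.prod_pow_eq_pow_sum]

theorem det_vand (v : Fin n → RR n) :
    (Matrix.vandermonde v).det =
      ∑ κ : Equiv.Perm (Fin n), ((Equiv.Perm.sign κ : ℤ) : RR n) * ∏ i, v i ^ (κ i : ℕ) := by
  rw [← Matrix.det_transpose, Matrix.det_apply']
  rfl

theorem count_eq (B : ℕ) (lam lam' : Fin n → ℕ) (hB : ∀ i, lam i ≤ B) (κ κ' : Equiv.Perm (Fin n)) :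
    ((Fintype.piFinset (fun _ : Fin n × Fin n => Finset.range (B + 1))).filter
      (fun M => (∀ i, (κ i : ℕ) + rowS M i = lam i) ∧ (∀ j, (κ' j : ℕ) + colS M j = lam' j))).card =
    Nat.card {M : Fin n → Fin n → ℕ // (∀ i, (κ i : ℕ) + ∑ j, M i j = lam i) ∧
      (∀ j, (κ' j : ℕ) + ∑ i, M i j = lam' j)} := by
  classical
  rw [← Fintype.card_coe, ← Nat.card_eq_fintype_card]
  refine Nat.card_congr ⟨fun M' => ⟨fun i j => M'.1 (i, j), (Finset.mem_filter.mp M'.2).2⟩,
    fun M => ⟨fun p => M.1 p.1 p.2, ?_⟩, fun M' => ?_, fun M => ?_⟩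
  · rw [Finset.mem_filter]
    refine ⟨?_, M.2⟩
    rw [Fintype.mem_piFinset]
    intro p
    rw [Finset.mem_range]
    have h1 : M.1 p.1 p.2 ≤ ∑ j, M.1 p.1 j :=
      Finset.single_le_sum (f := fun j => M.1 p.1 j) (fun _ _ => Nat.zero_le _) (Finset.mem_univ p.2)
    have h2 := M.2.1 p.1
    have h3 := hB p.1
    omega
  · rfl
  · rfl

theorem coeff_vand_CB (B : ℕ) (lam lam' : Fin n → ℕ) (hB : ∀ i, lam i ≤ B) :
    coeff (EE lam lam') ((Matrix.vandermonde (xv : Fin n → RR n)).det *
      (Matrix.vandermonde (yv : Fin n → RR n)).det * CB n B) =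
    ∑ κ : Equiv.Perm (Fin n), ∑ κ' : Equiv.Perm (Fin n),
      (Equiv.Perm.sign κ : ℤ) * (Equiv.Perm.sign κ' : ℤ) *
        (Nat.card {M : Fin n → Fin n → ℕ // (∀ i, (κ i : ℕ) + ∑ j, M i j = lam i) ∧
          (∀ j, (κ' j : ℕ) + ∑ i, M i j = lam' j)} : ℤ) := by
  classical
  have hterm : ∀ (κ κ' : Equiv.Perm (Fin n)) (M : Fin n × Fin n → ℕ),
      coeff (EE lam lam') ((((Equiv.Perm.sign κ : ℤ) : RR n) * ∏ i, xv i ^ (κ i : ℕ)) *
        (((Equiv.Perm.sign κ' : ℤ) : RR n) * ∏ j, yv j ^ (κ' j : ℕ)) *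
        ((∏ i, xv i ^ rowS M i) * ∏ j, yv j ^ colS M j)) =
      (Equiv.Perm.sign κ : ℤ) * (Equiv.Perm.sign κ' : ℤ) *
        (if (∀ i, (κ i : ℕ) + rowS M i = lam i) ∧ (∀ j, (κ' j : ℕ) + colS M j = lam' j)
          then 1 else 0) := by
    intro κ κ' M
    have e : (((Equiv.Perm.sign κ : ℤ) : RR n) * ∏ i, xv i ^ (κ i : ℕ)) *
        (((Equiv.Perm.sign κ' : ℤ) : RR n) * ∏ j, yv j ^ (κ' j : ℕ)) *
        ((∏ i, xv i ^ rowS M i) * ∏ j, yv j ^ colS M j) =
        (((Equiv.Perm.sign κ : ℤ) * (Equiv.Perm.sign κ' : ℤ) : ℤ)) •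
          ((∏ i, xv i ^ ((κ i : ℕ) + rowS M i)) * ∏ j, yv j ^ ((κ' j : ℕ) + colS M j)) := by
      rw [zsmul_eq_mul]
      simp only [pow_add, Finset.prod_mul_distrib]
      push_cast
      ring
    rw [e, coeff_smul, coeff_mono, smul_eq_mul]
    congr 1
    simp only [funext_iff]
  rw [det_vand, det_vand, CB_eq, Finset.sum_mul_sum, Finset.sum_mul, coeff_sum]
  refine Finset.sum_congr rfl fun κ _ => ?_
  rw [Finset.sum_mul, coeff_sum]
  refine Finset.sum_congr rfl fun κ' _ => ?_
  rw [Finset.mul_sum, coeff_sum]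
  simp only [hterm]
  rw [← Finset.mul_sum, ← count_eq B lam lam' hB κ κ', Finset.sum_boole]

/-- The orthogonality identity behind the Jacobi–Trudi determinants. -/
theorem main_identity (n : ℕ) : ∃ ε : ℤ, (ε = 1 ∨ ε = -1) ∧
    ∀ lam lam' : Fin n → ℕ, StrictMono lam → StrictMono lam' →
      ∑ κ : Equiv.Perm (Fin n), ∑ κ' : Equiv.Perm (Fin n),
        (Equiv.Perm.sign κ : ℤ) * (Equiv.Perm.sign κ' : ℤ) *
          (Nat.card {M : Fin n → Fin n → ℕ // (∀ i, (κ i : ℕ) + ∑ j, M i j = lam i) ∧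
            (∀ j, (κ' j : ℕ) + ∑ i, M i j = lam' j)} : ℤ) =
        if lam = lam' then ε else 0 := by
  classical
  have hinj : Function.Injective (yv : Fin n → RR n) := by
    intro a b h
    exact Sum.inr_injective (MvPolynomial.X_injective h)
  have ha : ∀ lam lam' : Fin n → ℕ, StrictMono lam → StrictMono lam' →
      coeff (EE lam lam') ((QM (xv : Fin n → RR n) yv).det * CB n (∑ i, lam i)) =
        if lam = lam' then 1 else 0 := by
    intro lam lam' hl hl'
    have hB : ∀ i, lam i ≤ ∑ i, lam i := fun i =>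
      Finset.single_le_sum (fun _ _ => Nat.zero_le _) (Finset.mem_univ i)
    rw [← Matrix.det_transpose, Matrix.det_apply', Finset.sum_mul, coeff_sum]
    have hσ : ∀ σ : Equiv.Perm (Fin n),
        coeff (EE lam lam') ((((Equiv.Perm.sign σ : ℤ) : RR n) *
          ∏ i, (QM (xv : Fin n → RR n) yv)ᵀ (σ i) i) * CB n (∑ i, lam i)) =
        (Equiv.Perm.sign σ : ℤ) * (if lam' ∘ σ = lam then 1 else 0) := by
      intro σ
      rw [mul_assoc, ← zsmul_eq_mul, coeff_smul, smul_eq_mul]
      congr 1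
      exact coeff_T_mul_CB _ lam lam' hB σ
    rw [Finset.sum_congr rfl (fun σ _ => hσ σ)]
    by_cases h : lam = lam'
    · subst h
      rw [if_pos rfl, Finset.sum_eq_single 1]
      · simp
      · intro σ _ hσ1
        rw [if_neg, mul_zero]
        intro hc
        apply hσ1
        ext i
        have := congrFun hc i
        simpa using congrArg Fin.val (hl.injective this)
      · simp
    · rw [if_neg h]
      apply Finset.sum_eq_zero
      intro σ _
      rw [if_neg, mul_zero]
      intro hc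
      apply h
      apply (StrictMono.range_inj hl hl').mp
      rw [← hc, EquivLike.range_comp]
  obtain ⟨u, hu, hdet⟩ := det_QM (xv : Fin n → RR n) yv hinj
  rcases hu with rfl | rfl
  · refine ⟨1, Or.inl rfl, ?_⟩
    intro lam lam' hl hl'
    have hB : ∀ i, lam i ≤ ∑ i, lam i := fun i =>
      Finset.single_le_sum (fun _ _ => Nat.zero_le _) (Finset.mem_univ i)
    rw [← coeff_vand_CB _ lam lam' hB, ← ha lam lam' hl hl', hdet, one_mul]
  · refine ⟨-1, Or.inr rfl, ?_⟩
    intro lam lam' hl hl'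
    have hB : ∀ i, lam i ≤ ∑ i, lam i := fun i =>
      Finset.single_le_sum (fun _ _ => Nat.zero_le _) (Finset.mem_univ i)
    have h1 := ha lam lam' hl hl'
    rw [hdet, neg_one_mul, neg_mul, coeff_neg, coeff_vand_CB _ lam lam' hB] at h1
    by_cases h : lam = lam'
    · rw [if_pos h] at h1 ⊢
      omega
    · rw [if_neg h] at h1 ⊢
      omega

end poly

end Cfsg.Agent.Lib.Helper95.FlagE
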