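import Mathlib
import Cfsg.Prelude.Def_LinearParabolics
import Cfsg.Prelude.Def_Characters
import Cfsg.Agent.S2424
import Cfsg.Agent.Lib.Helper95.FlagD
import Cfsg.Agent.Lib.Helper95.FlagE

set_option autoImplicit false

namespace Cfsg.Agent.Lib.Helper95.FlagF

open scoped MatrixGroups ComplexConjugate
open Cfsg.Agent.Lib.Helper95.FlagA

variable {F : Type*} [Field F] {n : ℕ}

/-- One term of the alternating sum. -/
noncomputable def term (F : Type*) [Field F] {n : ℕ} (ν : Fin n → ℕ) (κ : Equiv.Perm (Fin n))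
    (g : GL (Fin n) F) : ℂ :=
  if ∀ i : Fin n, (κ i).val ≤ ν i + i.val then
    ((Equiv.Perm.sign κ : ℤ) : ℂ) *
      Cfsg.fixedPointCharacter (Cfsg.parabolicGL n F fun i => ν i + i.val - (κ i).val) g
  else 0

theorem unip_eq (ν : Fin n → ℕ) (g : GL (Fin n) F) :
    Cfsg.unipotentCharacterGL n F ν g = ∑ κ, term F ν κ g := rfl

theorem conj_term (ν : Fin n → ℕ) (κ : Equiv.Perm (Fin n)) (g : GL (Fin n) F) :
    conj (term F ν κ g) = term F ν κ g := by
  unfold term
  split_ifs
  · rw [map_mul]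
    unfold Cfsg.fixedPointCharacter
    simp
  · simp

theorem inner_term [Fintype F] [Fintype (GL (Fin n) F)] (ν ν' : Fin n → ℕ)
    (hν : ∑ i, ν i = n) (hν' : ∑ i, ν' i = n) (κ κ' : Equiv.Perm (Fin n)) :
    (Nat.card (GL (Fin n) F) : ℂ)⁻¹ * ∑ g : GL (Fin n) F, term F ν κ g * term F ν' κ' g =
      (((Equiv.Perm.sign κ : ℤ) * (Equiv.Perm.sign κ' : ℤ) *
        (Nat.card {M : Fin n → Fin n → ℕ // (∀ i, (κ i : ℕ) + ∑ j, M i j = ν i + i.val) ∧
          (∀ j, (κ' j : ℕ) + ∑ i, M i j = ν' j + j.val)} : ℤ) : ℤ) : ℂ) := by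
  by_cases h : ∀ i : Fin n, (κ i).val ≤ ν i + i.val
  · by_cases h' : ∀ i : Fin n, (κ' i).val ≤ ν' i + i.val
    · have e1 : ∀ g : GL (Fin n) F, term F ν κ g * term F ν' κ' g =
          (((Equiv.Perm.sign κ : ℤ) : ℂ) * ((Equiv.Perm.sign κ' : ℤ) : ℂ)) *
            (Cfsg.fixedPointCharacter (Cfsg.parabolicGL n F fun i => ν i + i.val - (κ i).val) g *
             Cfsg.fixedPointCharacter (Cfsg.parabolicGL n F fun i => ν' i + i.val - (κ' i).val) g) := by
        intro g
        unfold term
        rw [if_pos h, if_pos h']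
        ring
      rw [Finset.sum_congr rfl (fun g _ => e1 g), ← Finset.mul_sum, mul_left_comm,
        inner_fixedPointCharacter, Cfsg.Agent.Lib.Helper95.FlagC.card_dc_parabolic,
        Cfsg.Agent.Lib.Helper95.FlagD.card_dc_young _ _ (Cfsg.Agent.S2424.sum_comp n ν hν κ h)
          (Cfsg.Agent.S2424.sum_comp n ν' hν' κ' h')]
      push_cast
      congr 2
      refine Nat.card_congr (Equiv.subtypeEquivRight ?_)
      intro M
      constructor
      · rintro ⟨h1, h2⟩
        refine ⟨fun i => ?_, fun j => ?_⟩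
        · have := h1 i
          have := h i
          omega
        · have := h2 j
          have := h' j
          omega
      · rintro ⟨h1, h2⟩
        refine ⟨fun i => ?_, fun j => ?_⟩
        · have := h1 i
          have := h i
          omega
        · have := h2 j
          have := h' j
          omega
    · have e1 : ∀ g : GL (Fin n) F, term F ν κ g * term F ν' κ' g = 0 := by
        intro g
        unfold term
        rw [if_neg h', mul_zero]
      rw [Finset.sum_congr rfl (fun g _ => e1 g), Finset.sum_const_zero, mul_zero]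
      have : IsEmpty {M : Fin n → Fin n → ℕ // (∀ i, (κ i : ℕ) + ∑ j, M i j = ν i + i.val) ∧
          (∀ j, (κ' j : ℕ) + ∑ i, M i j = ν' j + j.val)} := by
        refine ⟨fun M => h' fun j => ?_⟩
        have := M.2.2 j
        omega
      rw [Nat.card_of_isEmpty]
      simp
  · have e1 : ∀ g : GL (Fin n) F, term F ν κ g * term F ν' κ' g = 0 := by
      intro g
      unfold term
      rw [if_neg h, zero_mul]
    rw [Finset.sum_congr rfl (fun g _ => e1 g), Finset.sum_const_zero, mul_zero]
    have : IsEmpty {M : Fin n → Fin n → ℕ // (∀ i, (κ i : ℕ) + ∑ j, M i j = ν i + i.val) ∧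
        (∀ j, (κ' j : ℕ) + ∑ i, M i j = ν' j + j.val)} := by
      refine ⟨fun M => h fun i => ?_⟩
      have := M.2.1 i
      omega
    rw [Nat.card_of_isEmpty]
    simp

/-- Orthogonality (up to a universal sign) of the alternating-sum class functions. -/
theorem classInner_unip [Fintype F] [Fintype (GL (Fin n) F)] :
    ∃ ε : ℤ, (ε = 1 ∨ ε = -1) ∧ ∀ ν ν' : Fin n → ℕ, Monotone ν → ∑ i, ν i = n →
      Monotone ν' → ∑ i, ν' i = n →
      Cfsg.classInner (Cfsg.unipotentCharacterGL n F ν) (Cfsg.unipotentCharacterGL n F ν') =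
        if ν = ν' then (ε : ℂ) else 0 := by
  obtain ⟨ε, hε, hmain⟩ := Cfsg.Agent.Lib.Helper95.FlagE.main_identity n
  refine ⟨ε, hε, ?_⟩
  intro ν ν' hm hs hm' hs'
  unfold Cfsg.classInner
  have h1 : ∀ g : GL (Fin n) F, Cfsg.unipotentCharacterGL n F ν g *
      conj (Cfsg.unipotentCharacterGL n F ν' g) =
      ∑ κ : Equiv.Perm (Fin n), ∑ κ' : Equiv.Perm (Fin n), term F ν κ g * term F ν' κ' g := by
    intro g
    rw [unip_eq, unip_eq, map_sum, Finset.sum_mul_sum]
    simp only [conj_term]
  rw [Finset.sum_congr rfl (fun g _ => h1 g), Finset.sum_comm, Finset.mul_sum]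
  have h2 : ∀ κ : Equiv.Perm (Fin n),
      (Nat.card (GL (Fin n) F) : ℂ)⁻¹ * ∑ g : GL (Fin n) F, ∑ κ' : Equiv.Perm (Fin n),
        term F ν κ g * term F ν' κ' g =
      ∑ κ' : Equiv.Perm (Fin n), (((Equiv.Perm.sign κ : ℤ) * (Equiv.Perm.sign κ' : ℤ) *
        (Nat.card {M : Fin n → Fin n → ℕ // (∀ i, (κ i : ℕ) + ∑ j, M i j = ν i + i.val) ∧
          (∀ j, (κ' j : ℕ) + ∑ i, M i j = ν' j + j.val)} : ℤ) : ℤ) : ℂ) := by
    intro κ
    rw [Finset.sum_comm, Finset.mul_sum]
    exact Finset.sum_congr rfl (fun κ' _ => inner_term ν ν' hs hs' κ κ')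
  rw [Finset.sum_congr rfl (fun κ _ => h2 κ)]
  have hl : StrictMono (fun i : Fin n => ν i + i.val) := by
    intro i j hij
    have := hm hij.le
    have : i.val < j.val := hij
    dsimp only
    omega
  have hl' : StrictMono (fun i : Fin n => ν' i + i.val) := by
    intro i j hij
    have := hm' hij.le
    have : i.val < j.val := hij
    dsimp only
    omega
  have h3 := hmain _ _ hl hl'
  have h4 : ((fun i : Fin n => ν i + i.val) = fun i : Fin n => ν' i + i.val) ↔ ν = ν' := by
    constructor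
    · intro h
      funext i
      have := congrFun h i
      omega
    · rintro rfl
      rfl
  simp only [h4] at h3
  have h5 := congrArg (fun z : ℤ => (z : ℂ)) h3
  rw [Int.cast_sum] at h5
  simp only [Int.cast_sum] at h5
  rw [h5]
  split_ifs <;> simp

end Cfsg.Agent.Lib.Helper95.FlagF
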