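import Mathlib

set_option autoImplicit false

namespace Cfsg.Agent.Lib.Helper95.HessA

/-- Hessenberg permutations. -/
def Hess {n : ℕ} (κ : Equiv.Perm (Fin n)) : Prop := ∀ i : Fin n, (κ i).val ≤ 1 + i.val

instance {n : ℕ} (κ : Equiv.Perm (Fin n)) : Decidable (Hess κ) := by
  unfold Hess
  infer_instance

/-- The interval ends of a Hessenberg permutation. -/
def Ends {n : ℕ} (κ : Equiv.Perm (Fin n)) : Finset (Fin n) :=
  Finset.univ.filter (fun b => κ b ≤ b)

theorem mem_Ends {n : ℕ} (κ : Equiv.Perm (Fin n)) (b : Fin n) : b ∈ Ends κ ↔ κ b ≤ b := by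
  unfold Ends
  simp

/-- Preimage under `Fin.succ`. -/
def pre {n : ℕ} (E : Finset (Fin (n + 1))) : Finset (Fin n) :=
  Finset.univ.filter (fun x : Fin n => x.succ ∈ E)

theorem mem_pre {n : ℕ} (E : Finset (Fin (n + 1))) (x : Fin n) : x ∈ pre E ↔ x.succ ∈ E := by
  unfold pre
  simp

theorem dec_succ_val {n : ℕ} (p : Fin (n + 1)) (e : Equiv.Perm (Fin n)) (x : Fin n) :
    ((Equiv.Perm.decomposeFin.symm (p, e)) x.succ).val =
      if (e x).succ = p then 0 else (e x).val + 1 := by
  rw [Equiv.Perm.decomposeFin_symm_apply_succ]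
  by_cases h : (e x).succ = p
  · rw [if_pos h, h, Equiv.swap_apply_right]
    rfl
  · rw [if_neg h, Equiv.swap_apply_of_ne_of_ne (Fin.succ_ne_zero _) h]
    rfl

theorem hess_decomp {n : ℕ} (p : Fin (n + 1)) (e : Equiv.Perm (Fin n)) :
    Hess (Equiv.Perm.decomposeFin.symm (p, e)) ↔ p.val ≤ 1 ∧ Hess e := by
  constructor
  · intro h
    have h0 := h 0
    rw [Equiv.Perm.decomposeFin_symm_apply_zero] at h0
    have hp : p.val ≤ 1 := by simpa using h0
    refine ⟨hp, fun x => ?_⟩
    have hx := h x.succ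
    rw [dec_succ_val] at hx
    by_cases hc : (e x).succ = p
    · have : (e x).val + 1 = p.val := by rw [← hc]; rfl
      omega
    · rw [if_neg hc] at hx
      simp only [Fin.val_succ] at hx
      omega
  · rintro ⟨hp, he⟩ i
    refine Fin.cases ?_ (fun x => ?_) i
    · rw [Equiv.Perm.decomposeFin_symm_apply_zero]
      simpa using hp
    · rw [dec_succ_val]
      have := he x
      split_ifs
      · omega
      · simp only [Fin.val_succ]; omega

theorem ends_decomp {n : ℕ} (p : Fin (n + 1)) (e : Equiv.Perm (Fin n)) (hp : p.val ≤ 1)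
    (E : Finset (Fin (n + 1))) :
    Ends (Equiv.Perm.decomposeFin.symm (p, e)) = E ↔ ((0 ∈ E ↔ p = 0) ∧ Ends e = pre E) := by
  have key0 : (0 : Fin (n + 1)) ∈ Ends (Equiv.Perm.decomposeFin.symm (p, e)) ↔ p = 0 := by
    rw [mem_Ends, Equiv.Perm.decomposeFin_symm_apply_zero]
    exact Fin.le_zero_iff
  have keys : ∀ x : Fin n, x.succ ∈ Ends (Equiv.Perm.decomposeFin.symm (p, e)) ↔ x ∈ Ends e := by
    intro x
    rw [mem_Ends, mem_Ends, Fin.le_def, Fin.le_def, dec_succ_val]
    by_cases hc : (e x).succ = p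
    · have : (e x).val + 1 = p.val := by rw [← hc]; rfl
      rw [if_pos hc]
      simp only [Fin.val_succ]
      constructor
      · intro _
        omega
      · intro _; omega
    · rw [if_neg hc]
      simp only [Fin.val_succ]
      omega
  constructor
  · intro h
    refine ⟨by rw [← h]; exact key0, ?_⟩
    ext x
    rw [mem_pre, ← h, keys]
  · rintro ⟨h0, hs⟩
    ext i
    refine Fin.cases ?_ (fun x => ?_) i
    · rw [key0, h0]
    · rw [keys, hs, mem_pre]

theorem card_eq_pre {n : ℕ} (E : Finset (Fin (n + 1))) :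
    E.card = (if (0 : Fin (n + 1)) ∈ E then 1 else 0) + (pre E).card := by
  have h1 : E.card = ∑ i : Fin (n + 1), if i ∈ E then 1 else 0 := by
    rw [Finset.sum_boole, Finset.filter_mem_eq_inter, Finset.univ_inter]
    rfl
  have h2 : (pre E).card = ∑ x : Fin n, if x.succ ∈ E then 1 else 0 := by
    unfold pre
    rw [Finset.sum_boole]
    rfl
  rw [h1, h2, Fin.sum_univ_succ]

theorem cond_succ {n : ℕ} (E : Finset (Fin (n + 1))) :
    (∀ b : Fin (n + 1), b.val + 1 = n + 1 → b ∈ E) ↔
      ((n = 0 → (0 : Fin (n + 1)) ∈ E) ∧ ∀ b : Fin n, b.val + 1 = n → b ∈ pre E) := by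
  constructor
  · intro h
    refine ⟨fun hn => h 0 (by simp [hn]), fun b hb => ?_⟩
    rw [mem_pre]
    apply h
    simp only [Fin.val_succ]
    omega
  · rintro ⟨h0, hs⟩ b
    refine Fin.cases ?_ (fun x => ?_) b
    · intro hb
      apply h0
      simp only [Fin.val_zero] at hb
      omega
    · intro hb
      rw [← mem_pre]
      apply hs
      simp only [Fin.val_succ] at hb
      omega

/-- The signed count of Hessenberg permutations with a given set of ends. -/
theorem hess_sum : ∀ (n : ℕ) (E : Finset (Fin n)),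
    ∑ κ : Equiv.Perm (Fin n), (if Hess κ ∧ Ends κ = E then ((Equiv.Perm.sign κ : ℤ)) else 0) =
      if (∀ b : Fin n, b.val + 1 = n → b ∈ E) then (-1 : ℤ) ^ (n - E.card) else 0 := by
  intro n
  induction n with
  | zero =>
    intro E
    have hE : E = ∅ := Finset.eq_empty_of_isEmpty E
    rw [if_pos (fun b => b.elim0)]
    rw [Fintype.sum_eq_single (1 : Equiv.Perm (Fin 0))
      (fun κ hκ => absurd (Subsingleton.elim κ 1) hκ)]
    rw [if_pos ⟨fun i => i.elim0, by rw [hE]; exact Finset.eq_empty_of_isEmpty _⟩]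
    simp [hE]
  | succ n ih =>
    intro E
    rw [← Equiv.sum_comp Equiv.Perm.decomposeFin.symm, Fintype.sum_prod_type]
    have hterm : ∀ (p : Fin (n + 1)) (e : Equiv.Perm (Fin n)),
        (if Hess (Equiv.Perm.decomposeFin.symm (p, e)) ∧
            Ends (Equiv.Perm.decomposeFin.symm (p, e)) = E then
          ((Equiv.Perm.sign (Equiv.Perm.decomposeFin.symm (p, e)) : ℤ)) else 0) =
        (if p.val ≤ 1 ∧ (0 ∈ E ↔ p = 0) then (if p = 0 then (1 : ℤ) else -1) else 0) *
          (if Hess e ∧ Ends e = pre E then ((Equiv.Perm.sign e : ℤ)) else 0) := by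
      intro p e
      have hd := hess_decomp p e
      by_cases hp : p.val ≤ 1
      · by_cases he : Hess e
        · by_cases h0 : (0 ∈ E ↔ p = 0)
          · by_cases hs : Ends e = pre E
            · have c1 : Hess (Equiv.Perm.decomposeFin.symm (p, e)) ∧
                  Ends (Equiv.Perm.decomposeFin.symm (p, e)) = E :=
                ⟨hd.mpr ⟨hp, he⟩, (ends_decomp p e hp E).mpr ⟨h0, hs⟩⟩
              have c2 : p.val ≤ 1 ∧ (0 ∈ E ↔ p = 0) := ⟨hp, h0⟩
              have c3 : Hess e ∧ Ends e = pre E := ⟨he, hs⟩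
              rw [if_pos c1, if_pos c2, if_pos c3, Equiv.Perm.decomposeFin.symm_sign]
              split_ifs <;> simp
            · rw [if_neg (fun h => hs ((ends_decomp p e hp E).mp h.2).2),
                if_neg (fun h : Hess e ∧ Ends e = pre E => hs h.2), mul_zero]
          · rw [if_neg (fun h => h0 ((ends_decomp p e hp E).mp h.2).1),
              if_neg (fun h : p.val ≤ 1 ∧ (0 ∈ E ↔ p = 0) => h0 h.2), zero_mul]
        · rw [if_neg (fun h => he (hd.mp h.1).2),
            if_neg (fun h : Hess e ∧ Ends e = pre E => he h.1), mul_zero]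
      · rw [if_neg (fun h => hp (hd.mp h.1).1),
          if_neg (fun h : p.val ≤ 1 ∧ (0 ∈ E ↔ p = 0) => hp h.1), zero_mul]
    simp_rw [hterm, ← Finset.mul_sum]
    rw [← Finset.sum_mul, ih (pre E)]
    have hcard := card_eq_pre E
    have hcond := cond_succ E
    have hle : (pre E).card ≤ n := by
      have := Finset.card_le_univ (pre E)
      rwa [Fintype.card_fin] at this
    by_cases h0 : (0 : Fin (n + 1)) ∈ E
    · have hc : ∑ p : Fin (n + 1), (if p.val ≤ 1 ∧ (0 ∈ E ↔ p = 0) then
          (if p = 0 then (1 : ℤ) else -1) else 0) = 1 := by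
        rw [Fintype.sum_eq_single (0 : Fin (n + 1))]
        · rw [if_pos ⟨by simp, by simp [h0]⟩, if_pos rfl]
        · intro p hp
          rw [if_neg]
          rintro ⟨-, h⟩
          exact hp (h.mp h0)
      rw [hc, one_mul]
      rw [if_pos h0] at hcard
      by_cases hc2 : ∀ b : Fin n, b.val + 1 = n → b ∈ pre E
      · rw [if_pos hc2, if_pos (hcond.mpr ⟨fun _ => h0, hc2⟩)]
        congr 1
        omega
      · rw [if_neg hc2, if_neg (fun h => hc2 (hcond.mp h).2)]
    · rw [if_neg h0] at hcard
      rcases Nat.eq_zero_or_pos n with hn | hn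
      · subst hn
        have hc : ∑ p : Fin (0 + 1), (if p.val ≤ 1 ∧ (0 ∈ E ↔ p = 0) then
            (if p = 0 then (1 : ℤ) else -1) else 0) = 0 := by
          apply Finset.sum_eq_zero
          intro p _
          rw [if_neg]
          rintro ⟨-, h⟩
          have hp0 : p = 0 := Fin.ext (by have := p.isLt; simp only [Fin.val_zero]; omega)
          exact h0 (h.mpr hp0)
        rw [hc, zero_mul, if_neg (fun h => h0 ((hcond.mp h).1 rfl))]
      · obtain ⟨m, rfl⟩ : ∃ m, n = m + 1 := ⟨n - 1, by omega⟩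
        have hc : ∑ p : Fin (m + 1 + 1), (if p.val ≤ 1 ∧ (0 ∈ E ↔ p = 0) then
            (if p = 0 then (1 : ℤ) else -1) else 0) = -1 := by
          rw [Fintype.sum_eq_single (1 : Fin (m + 1 + 1))]
          · have h10 : (1 : Fin (m + 1 + 1)) ≠ 0 := by
              intro h
              have := congrArg Fin.val h
              simp at this
            rw [if_pos ⟨by simp, by simp [h0, h10]⟩, if_neg h10]
          · intro p hp
            rw [if_neg]
            rintro ⟨h1, h2⟩
            have hp0 : p ≠ 0 := fun h => h0 (h2.mpr h)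
            apply hp
            apply Fin.ext
            have : p.val ≠ 0 := fun h => hp0 (Fin.ext h)
            have h11 : ((1 : Fin (m + 1 + 1)) : ℕ) = 1 := rfl
            omega
        rw [hc]
        by_cases hc2 : ∀ b : Fin (m + 1), b.val + 1 = m + 1 → b ∈ pre E
        · rw [if_pos hc2, if_pos (hcond.mpr ⟨fun h => absurd h (by omega), hc2⟩)]
          have : m + 1 + 1 - E.card = (m + 1 - (pre E).card) + 1 := by omega
          rw [this, pow_succ]
          ring
        · rw [if_neg hc2, if_neg (fun h => hc2 (hcond.mp h).2), mul_zero]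

end Cfsg.Agent.Lib.Helper95.HessA
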