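import Mathlib
import Cfsg.Agent.S2420
import Cfsg.Agent.Lib.Helper95.HessA

set_option autoImplicit false
open scoped MatrixGroups

namespace Cfsg.Agent.Lib.Helper95.HessB

open Cfsg.Agent.Lib.Helper95.HessA
open Cfsg.Agent.S2420 (S label_le_iff card_filter_val_lt)

/-- The composition attached to a Hessenberg permutation. -/
def muK {n : ℕ} (κ : Equiv.Perm (Fin n)) : Fin n → ℕ := fun i => 1 + i.val - (κ i).val

theorem stable {n : ℕ} (κ : Equiv.Perm (Fin n)) (hκ : Hess κ) (b : Fin n) (hb : κ b ≤ b) :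
    ∀ k : Fin n, k ≤ b → κ k ≤ b := by
  intro k hk
  by_contra hcon
  have h1 := hκ k
  rw [Fin.le_def] at hk hb hcon
  have h2 : k = b := Fin.ext (by omega)
  rw [h2] at hcon
  exact hcon hb

theorem S_end {n : ℕ} (κ : Equiv.Perm (Fin n)) (hκ : Hess κ) (b : Fin n) (hb : κ b ≤ b) :
    S (muK κ) b = b.val + 1 := by
  unfold S
  set s := Finset.univ.filter (fun k : Fin n => k ≤ b) with hs
  have h1 : ∑ k ∈ s, muK κ k + ∑ k ∈ s, (κ k).val = ∑ k ∈ s, (1 + k.val) := by
    rw [← Finset.sum_add_distrib]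
    refine Finset.sum_congr rfl fun k _ => ?_
    have := hκ k
    unfold muK
    omega
  have h2 : s.image κ = s := by
    apply Finset.eq_of_subset_of_card_le
    · intro y hy
      obtain ⟨k, hk, rfl⟩ := Finset.mem_image.mp hy
      rw [hs, Finset.mem_filter] at hk ⊢
      exact ⟨Finset.mem_univ _, stable κ hκ b hb k hk.2⟩
    · rw [Finset.card_image_of_injective _ κ.injective]
  have h3 : ∑ k ∈ s, (κ k).val = ∑ k ∈ s, k.val := by
    conv_rhs => rw [← h2]
    rw [Finset.sum_image (fun x _ y _ h => κ.injective h)]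
  have h4 : s.card = b.val + 1 := by
    have : s = Finset.univ.filter (fun i : Fin n => i.val < b.val + 1) := by
      rw [hs]
      ext k
      simp only [Finset.mem_filter, Finset.mem_univ, true_and, Fin.le_def]
      omega
    rw [this]
    exact card_filter_val_lt (b.val + 1) b.isLt
  rw [Finset.sum_add_distrib, Finset.sum_const, smul_eq_mul, mul_one, h4, h3] at h1
  omega

theorem S_const {n : ℕ} (κ : Equiv.Perm (Fin n)) (hκ : Hess κ) (c a : Fin n) (hca : c ≤ a)
    (h : ∀ k : Fin n, c < k → k ≤ a → ¬ κ k ≤ k) : S (muK κ) a = S (muK κ) c := by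
  unfold S
  symm
  apply Finset.sum_subset
  · intro k hk
    rw [Finset.mem_filter] at hk ⊢
    exact ⟨Finset.mem_univ _, hk.2.trans hca⟩
  · intro k hk hk'
    rw [Finset.mem_filter] at hk hk'
    have h1 : c < k := by
      by_contra hcon
      exact hk' ⟨Finset.mem_univ _, not_lt.mp hcon⟩
    have h2 := h k h1 hk.2
    have h3 := hκ k
    rw [Fin.le_def] at h2
    unfold muK
    omega

theorem S_zero {n : ℕ} (κ : Equiv.Perm (Fin n)) (hκ : Hess κ) (a : Fin n)
    (h : ∀ k : Fin n, k ≤ a → ¬ κ k ≤ k) : S (muK κ) a = 0 := by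
  unfold S
  apply Finset.sum_eq_zero
  intro k hk
  rw [Finset.mem_filter] at hk
  have h2 := h k hk.2
  have h3 := hκ k
  rw [Fin.le_def] at h2
  unfold muK
  omega

theorem S_cases {n : ℕ} (κ : Equiv.Perm (Fin n)) (hκ : Hess κ) (a : Fin n) :
    S (muK κ) a = 0 ∨ ∃ b ∈ Ends κ, S (muK κ) a = b.val + 1 := by
  by_cases hex : ∃ k : Fin n, k ≤ a ∧ κ k ≤ k
  · right
    have hne : (Finset.univ.filter (fun k : Fin n => k ≤ a ∧ κ k ≤ k)).Nonempty := by
      obtain ⟨k, hk⟩ := hex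
      exact ⟨k, by rw [Finset.mem_filter]; exact ⟨Finset.mem_univ _, hk⟩⟩
    obtain ⟨c, hc⟩ := Finset.exists_maximal hne
    have hc1 := hc.prop
    rw [Finset.mem_filter] at hc1
    refine ⟨c, (mem_Ends κ c).mpr hc1.2.2, ?_⟩
    rw [S_const κ hκ c a hc1.2.1, S_end κ hκ c hc1.2.2]
    intro k hck hka hk
    have hmem : k ∈ Finset.univ.filter (fun k : Fin n => k ≤ a ∧ κ k ≤ k) := by
      rw [Finset.mem_filter]
      exact ⟨Finset.mem_univ _, hka, hk⟩
    exact absurd (hc.le_of_ge hmem hck.le) (not_le.mpr hck)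
  · left
    apply S_zero κ hκ a
    intro k hk hk'
    exact hex ⟨k, hk, hk'⟩

theorem label_lt_iff_ends {n : ℕ} (κ : Equiv.Perm (Fin n)) (hκ : Hess κ) (i j : Fin n) :
    Cfsg.compLabel (muK κ) j < Cfsg.compLabel (muK κ) i ↔ ∃ b ∈ Ends κ, j ≤ b ∧ b < i := by
  constructor
  · intro h
    have hle : Cfsg.compLabel (muK κ) i ≤ n := by
      unfold Cfsg.compLabel
      have := Finset.card_le_univ (Finset.univ.filter fun j : Fin n =>
        (∑ k ∈ Finset.univ.filter (fun k : Fin n => k ≤ j), muK κ k) ≤ i.val)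
      rwa [Fintype.card_fin] at this
    let a : Fin n := ⟨Cfsg.compLabel (muK κ) j, lt_of_lt_of_le h hle⟩
    have h1 : j.val < S (muK κ) a := (label_le_iff (muK κ) j a).mp le_rfl
    have h2 : ¬ i.val < S (muK κ) a := fun hh =>
      absurd ((label_le_iff (muK κ) i a).mpr hh) (not_le.mpr h)
    rcases S_cases κ hκ a with h0 | ⟨b, hb, hS⟩
    · omega
    · refine ⟨b, hb, ?_, ?_⟩
      · rw [Fin.le_def]; omega
      · rw [Fin.lt_def]; omega
  · rintro ⟨b, hb, hjb, hbi⟩
    have hS := S_end κ hκ b ((mem_Ends κ b).mp hb)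
    have h1 : Cfsg.compLabel (muK κ) j ≤ b.val := by
      rw [label_le_iff, hS]
      rw [Fin.le_def] at hjb
      omega
    have h2 : ¬ Cfsg.compLabel (muK κ) i ≤ b.val := by
      rw [label_le_iff, hS]
      rw [Fin.lt_def] at hbi
      omega
    omega

theorem mem_parabolic_iff {F : Type*} [Field F] {n : ℕ} (κ : Equiv.Perm (Fin n)) (hκ : Hess κ)
    (g : GL (Fin n) F) :
    g ∈ Cfsg.parabolicGL n F (muK κ) ↔
      ∀ b ∈ Ends κ, ∀ i j : Fin n, j ≤ b → b < i → (g : Matrix (Fin n) (Fin n) F) i j = 0 := by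
  constructor
  · intro hg b hb i j hjb hbi
    exact hg ((label_lt_iff_ends κ hκ i j).mpr ⟨b, hb, hjb, hbi⟩)
  · intro h i j hij
    obtain ⟨b, hb, hjb, hbi⟩ := (label_lt_iff_ends κ hκ i j).mp hij
    exact h b hb i j hjb hbi

end Cfsg.Agent.Lib.Helper95.HessB
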