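import Mathlib
import Cfsg.Agent.S2420
import Cfsg.Agent.Lib.Helper95.HallA
import Cfsg.Agent.Lib.Helper95.HessB

set_option autoImplicit false
open scoped MatrixGroups

namespace Cfsg.Agent.Lib.Helper95.FlagG

open Classical
open Cfsg.Agent.Lib.Helper95.HallA Cfsg.Agent.Lib.Helper95.HessA Cfsg.Agent.Lib.Helper95.HessB

noncomputable section

/-- Counting fixed cosets through an orbit. -/
theorem card_fixedBy_quotient {G : Type*} [Group G] (H : Subgroup G) {X : Type*} (a : G → X → X)
    (h1 : ∀ y, a 1 y = y) (hmul : ∀ g h y, a (g * h) y = a g (a h y)) (b₀ : X)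
    (hH : ∀ g, g ∈ H ↔ a g b₀ = b₀) (x : G) :
    Nat.card (MulAction.fixedBy (G ⧸ H) x) =
      Nat.card {y : X // (∃ g, a g b₀ = y) ∧ a x y = y} := by
  have hwd : ∀ g g' : G, (QuotientGroup.leftRel H) g g' → a g b₀ = a g' b₀ := by
    intro g g' hgg'
    have h2 : g⁻¹ * g' ∈ H := QuotientGroup.leftRel_apply.mp hgg'
    have h3 := (hH _).mp h2
    calc a g b₀ = a g (a (g⁻¹ * g') b₀) := by rw [h3]
      _ = a (g * (g⁻¹ * g')) b₀ := (hmul _ _ _).symm
      _ = a g' b₀ := by rw [mul_inv_cancel_left]
  let f : G ⧸ H → X := Quotient.lift (fun g => a g b₀) hwd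
  have hf_mk : ∀ g : G, f (QuotientGroup.mk g) = a g b₀ := fun g => rfl
  have hf_inj : Function.Injective f := by
    intro q q' hqq
    induction q using QuotientGroup.induction_on with
    | H g =>
      induction q' using QuotientGroup.induction_on with
      | H g' =>
        rw [hf_mk, hf_mk] at hqq
        rw [QuotientGroup.eq, hH, hmul, ← hqq, ← hmul, inv_mul_cancel, h1]
  have hf_smul : ∀ q : G ⧸ H, f (x • q) = a x (f q) := by
    intro q
    induction q using QuotientGroup.induction_on with
    | H g =>
      rw [MulAction.Quotient.smul_mk, hf_mk, hf_mk, smul_eq_mul, hmul]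
  rw [← Nat.card_image_of_injective hf_inj]
  have hset : f '' (MulAction.fixedBy (G ⧸ H) x) =
      {y : X | (∃ g, a g b₀ = y) ∧ a x y = y} := by
    ext y
    constructor
    · rintro ⟨q, hq, rfl⟩
      rw [MulAction.mem_fixedBy] at hq
      refine ⟨?_, ?_⟩
      · induction q using QuotientGroup.induction_on with
        | H g => exact ⟨g, rfl⟩
      · rw [← hf_smul, hq]
    · rintro ⟨⟨g, rfl⟩, hy⟩
      refine ⟨QuotientGroup.mk g, ?_, rfl⟩
      rw [MulAction.mem_fixedBy]
      apply hf_inj
      rw [hf_smul, hf_mk, hy]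
  rw [hset]
  rfl

theorem card_fs {α : Type*} [Finite α] (P : α → Prop) : (fs P).card = Nat.card {a : α // P a} := by
  unfold fs
  rw [← Set.ncard_eq_toFinset_card, ← Nat.card_coe_set_eq]
  rfl

variable {F : Type*} [Field F] {n : ℕ}

/-- Standard subspaces. -/
def Est (F : Type*) [Field F] (n d : ℕ) : Submodule F (Fin n → F) where
  carrier := {v | ∀ i : Fin n, d ≤ i.val → v i = 0}
  zero_mem' := fun _ _ => rfl
  add_mem' := fun {v w} hv hw i hi => by
    show v i + w i = 0
    rw [hv i hi, hw i hi, add_zero]
  smul_mem' := fun c v hv i hi => by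
    show c * v i = 0
    rw [hv i hi, mul_zero]

theorem Est_mono {d d' : ℕ} (h : d ≤ d') : Est F n d ≤ Est F n d' :=
  fun v hv i hi => hv i (h.trans hi)

/-- Coordinates on a standard subspace. -/
def EstEquiv (F : Type*) [Field F] (n d : ℕ) : Est F n d ≃ₗ[F] ({i : Fin n // i.val < d} → F) where
  toFun v := fun i => v.1 i.1
  map_add' := fun _ _ => rfl
  map_smul' := fun _ _ => rfl
  invFun f := ⟨fun i => if h : i.val < d then f ⟨i, h⟩ else 0, fun i hi => dif_neg (by omega)⟩
  left_inv v := by
    apply Subtype.ext
    funext i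
    by_cases h : i.val < d
    · simp [h]
    · simp only [h, dif_neg, not_false_iff]
      exact (v.2 i (by omega)).symm
  right_inv f := by
    funext ⟨i, hi⟩
    simp [hi]

theorem finrank_Est {d : ℕ} (hd : d ≤ n) : Module.finrank F (Est F n d) = d := by
  rw [(EstEquiv F n d).finrank_eq, Module.finrank_fintype_fun_eq_card, Fintype.card_subtype]
  exact Cfsg.Agent.S2420.card_filter_val_lt d hd

/-- The linear map of an invertible matrix. -/
def lin (g : GL (Fin n) F) : (Fin n → F) →ₗ[F] (Fin n → F) :=
  Matrix.mulVecLin (g : Matrix (Fin n) (Fin n) F)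

theorem lin_apply (g : GL (Fin n) F) (v : Fin n → F) :
    lin g v = (g : Matrix (Fin n) (Fin n) F).mulVec v := rfl

theorem lin_one : lin (1 : GL (Fin n) F) = LinearMap.id := by
  unfold lin
  rw [Units.val_one, Matrix.mulVecLin_one]

theorem lin_mul (g h : GL (Fin n) F) : lin (g * h) = lin g ∘ₗ lin h := by
  unfold lin
  rw [Units.val_mul, Matrix.mulVecLin_mul]

theorem lin_injective (g : GL (Fin n) F) : Function.Injective (lin g) := by
  intro v w h
  have := congrArg (lin g⁻¹) h
  rw [← LinearMap.comp_apply, ← LinearMap.comp_apply, ← lin_mul, inv_mul_cancel, lin_one] at this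
  exact this

theorem finrank_map (g : GL (Fin n) F) (W : Submodule F (Fin n → F)) :
    Module.finrank F (W.map (lin g)) = Module.finrank F W :=
  (Submodule.equivMapOfInjective (lin g) (lin_injective g) W).finrank_eq.symm

theorem map_eq_iff (g : GL (Fin n) F) (W : Submodule F (Fin n → F)) :
    W.map (lin g) = W ↔ ∀ v ∈ W, lin g v ∈ W := by
  constructor
  · intro h v hv
    rw [← h]
    exact Submodule.mem_map_of_mem hv
  · intro h
    apply Submodule.eq_of_le_of_finrank_eq
    · rintro _ ⟨v, hv, rfl⟩
      exact h v hv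
    · exact finrank_map g W

theorem preserves_Est_iff (g : GL (Fin n) F) (d : ℕ) :
    (∀ v ∈ Est F n d, lin g v ∈ Est F n d) ↔
      ∀ i j : Fin n, j.val < d → d ≤ i.val → (g : Matrix (Fin n) (Fin n) F) i j = 0 := by
  constructor
  · intro h i j hj hi
    have h1 : (Pi.single j (1 : F) : Fin n → F) ∈ Est F n d := by
      intro i' hi'
      rw [Pi.single_apply, if_neg]
      rintro rfl
      omega
    have h2 := h _ h1 i hi
    rw [lin_apply, Matrix.mulVec_single_one] at h2
    exact h2
  · intro h v hv i hi
    rw [lin_apply]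
    show ∑ j, (g : Matrix (Fin n) (Fin n) F) i j * v j = 0
    apply Finset.sum_eq_zero
    intro j _
    by_cases hj : j.val < d
    · rw [h i j hj hi, zero_mul]
    · rw [hv j (by omega), mul_zero]

/-- The action on finite sets of subspaces. -/
def act (g : GL (Fin n) F) (C : Finset (Submodule F (Fin n → F))) :
    Finset (Submodule F (Fin n → F)) := C.image (Submodule.map (lin g))

theorem act_one (C : Finset (Submodule F (Fin n → F))) : act (1 : GL (Fin n) F) C = C := by
  unfold act
  rw [lin_one]
  have : (Submodule.map (LinearMap.id : (Fin n → F) →ₗ[F] (Fin n → F))) = id := by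
    funext W
    exact Submodule.map_id W
  rw [this, Finset.image_id]

theorem act_mul (g h : GL (Fin n) F) (C : Finset (Submodule F (Fin n → F))) :
    act (g * h) C = act g (act h C) := by
  unfold act
  rw [Finset.image_image, lin_mul]
  congr 1
  funext W
  exact Submodule.map_comp _ _ _

theorem act_eq_self (g : GL (Fin n) F) (C : Finset (Submodule F (Fin n → F)))
    (h : ∀ X ∈ C, X.map (lin g) = X) : act g C = C := by
  unfold act
  conv_rhs => rw [← Finset.image_id (s := C)]
  exact Finset.image_congr (fun X hX => h X hX)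

/-- The standard chain with a given set of dimensions. -/
def stdChain (F : Type*) [Field F] {n : ℕ} (E : Finset (Fin n)) :
    Finset (Submodule F (Fin n → F)) := E.image (fun b => Est F n (b.val + 1))

theorem mem_parabolic_iff_act (κ : Equiv.Perm (Fin n)) (hκ : Hess κ) (g : GL (Fin n) F) :
    g ∈ Cfsg.parabolicGL n F (muK κ) ↔ act g (stdChain F (Ends κ)) = stdChain F (Ends κ) := by
  rw [mem_parabolic_iff κ hκ]
  constructor
  · intro h
    apply act_eq_self
    intro X hX
    obtain ⟨b, hb, rfl⟩ := Finset.mem_image.mp hX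
    rw [map_eq_iff, preserves_Est_iff]
    intro i j hj hi
    exact h b hb i j (by rw [Fin.le_def]; omega) (by rw [Fin.lt_def]; omega)
  · intro h b hb i j hjb hbi
    have h1 : (Est F n (b.val + 1)).map (lin g) ∈ act g (stdChain F (Ends κ)) :=
      Finset.mem_image_of_mem _ (Finset.mem_image_of_mem _ hb)
    rw [h] at h1
    obtain ⟨b', hb', h2⟩ := Finset.mem_image.mp h1
    have h3 : Module.finrank F (Est F n (b'.val + 1)) =
        Module.finrank F ((Est F n (b.val + 1)).map (lin g)) :=
      congrArg (fun W : Submodule F (Fin n → F) => Module.finrank F W) h2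
    rw [finrank_map, finrank_Est (by have := b'.isLt; omega), finrank_Est (by have := b.isLt; omega)]
      at h3
    have h4 : b' = b := Fin.ext (by omega)
    rw [h4] at h2
    have h5 := (preserves_Est_iff g (b.val + 1)).mp ((map_eq_iff g _).mp h2.symm)
    exact h5 i j (by rw [Fin.le_def] at hjb; omega) (by rw [Fin.lt_def] at hbi; omega)

theorem exists_adapted [Fintype F] (C : Finset (Submodule F (Fin n → F)))
    (htot : ∀ X ∈ C, ∀ Y ∈ C, X ≤ Y ∨ Y ≤ X) :
    ∃ g : GL (Fin n) F, ∀ X ∈ C, (Est F n (Module.finrank F X)).map (lin g) = X := by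
  let W : ℕ → Submodule F (Fin n → F) := fun j =>
    (C.filter (fun X : Submodule F (Fin n → F) => j < Module.finrank F X)).inf id
  have hW : Monotone W := by
    intro j j' h
    apply Finset.inf_mono
    intro X hX
    rw [Finset.mem_filter] at hX ⊢
    exact ⟨hX.1, lt_of_le_of_lt h hX.2⟩
  have hrank : ∀ j : ℕ, j < n → j < Module.finrank F (W j) := by
    intro j hj
    by_cases hne : (C.filter (fun X : Submodule F (Fin n → F) => j < Module.finrank F X)).Nonempty
    · obtain ⟨m, hm⟩ := Finset.exists_minimal hne
      have hm1 := hm.prop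
      have hWm : W j = m := by
        apply le_antisymm (Finset.inf_le (f := id) hm1)
        apply Finset.le_inf
        intro X hX
        rcases htot m (Finset.mem_filter.mp hm1).1 X (Finset.mem_filter.mp hX).1 with h | h
        · exact h
        · exact hm.le_of_le hX h
      rw [hWm]
      exact (Finset.mem_filter.mp hm1).2
    · rw [Finset.not_nonempty_iff_eq_empty] at hne
      have hWt : W j = ⊤ := by
        show (C.filter (fun X : Submodule F (Fin n → F) => j < Module.finrank F X)).inf id = ⊤
        rw [hne, Finset.inf_empty]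
      rw [hWt, finrank_top, Module.finrank_fintype_fun_eq_card, Fintype.card_fin]
      exact hj
  have hcard := Cfsg.Agent.S2420.card_flagTuples W hW n
  have hpos : 0 < Nat.card (Cfsg.Agent.S2420.FlagTuples F W n) := by
    rw [hcard]
    apply Finset.prod_pos
    intro j hj
    rw [Finset.mem_range] at hj
    have h1 : Nat.card (W j) = Nat.card F ^ Module.finrank F (W j) :=
      Module.natCard_eq_pow_finrank (K := F) (V := W j)
    have h2 : Nat.card F ^ j < Nat.card F ^ Module.finrank F (W j) :=
      Nat.pow_lt_pow_right (Finite.one_lt_card (α := F)) (hrank j hj)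
    omega
  obtain ⟨⟨s, hs, hsW⟩⟩ := (Nat.card_pos_iff.mp hpos).1
  let g : GL (Fin n) F := (Matrix.equiv_GL_linearindependent n).symm ⟨s, hs⟩
  have hg : ∀ i j : Fin n, (g : Matrix (Fin n) (Fin n) F) i j = s j i := by
    intro i j
    have h1 := (Matrix.equiv_GL_linearindependent n).apply_symm_apply ⟨s, hs⟩
    have h2 := congrArg Subtype.val h1
    exact congrFun (congrFun h2 j) i
  refine ⟨g, fun X hX => ?_⟩
  have hdn : Module.finrank F X ≤ n := by
    have := Submodule.finrank_le X
    rwa [Module.finrank_fintype_fun_eq_card, Fintype.card_fin] at this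
  apply Submodule.eq_of_le_of_finrank_eq
  · rintro _ ⟨v, hv, rfl⟩
    have h1 : lin g v = ∑ j, v j • s j := by
      funext i
      rw [lin_apply, Finset.sum_apply]
      show ∑ j, (g : Matrix (Fin n) (Fin n) F) i j * v j = _
      refine Finset.sum_congr rfl fun j _ => ?_
      rw [hg, Pi.smul_apply, smul_eq_mul, mul_comm]
    rw [h1]
    apply Submodule.sum_mem
    intro j _
    by_cases hj : j.val < Module.finrank F X
    · apply Submodule.smul_mem
      have h2 : W j.val ≤ X := Finset.inf_le (f := id) (Finset.mem_filter.mpr ⟨hX, hj⟩)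
      exact h2 (hsW j)
    · rw [hv j (by omega), zero_smul]
      exact Submodule.zero_mem _
  · rw [finrank_map, finrank_Est hdn]

theorem orbit_iff [Fintype F] (E : Finset (Fin n)) (C : Finset (Submodule F (Fin n → F))) :
    (∃ g : GL (Fin n) F, act g (stdChain F E) = C) ↔
      ((∀ X ∈ C, ∀ Y ∈ C, X ≤ Y ∨ Y ≤ X) ∧
        C.image (fun X : Submodule F (Fin n → F) => Module.finrank F X) = E.image (fun b => b.val + 1)) := by
  constructor
  · rintro ⟨g, rfl⟩
    constructor
    · intro X hX Y hY
      obtain ⟨X', hX', rfl⟩ := Finset.mem_image.mp hX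
      obtain ⟨Y', hY', rfl⟩ := Finset.mem_image.mp hY
      obtain ⟨b, -, rfl⟩ := Finset.mem_image.mp hX'
      obtain ⟨b', -, rfl⟩ := Finset.mem_image.mp hY'
      rcases le_total b.val b'.val with h | h
      · exact Or.inl (Submodule.map_mono (Est_mono (by omega)))
      · exact Or.inr (Submodule.map_mono (Est_mono (by omega)))
    · unfold act stdChain
      rw [Finset.image_image, Finset.image_image]
      apply Finset.image_congr
      intro b _
      show Module.finrank F ((Est F n (b.val + 1)).map (lin g)) = b.val + 1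
      rw [finrank_map, finrank_Est (by have := b.isLt; omega)]
  · rintro ⟨htot, hdim⟩
    obtain ⟨g, hg⟩ := exists_adapted C htot
    refine ⟨g, ?_⟩
    ext X
    constructor
    · intro hX
      obtain ⟨X', hX', rfl⟩ := Finset.mem_image.mp hX
      obtain ⟨b, hb, rfl⟩ := Finset.mem_image.mp hX'
      have h1 : b.val + 1 ∈ C.image (fun X : Submodule F (Fin n → F) => Module.finrank F X) := by
        rw [hdim]
        exact Finset.mem_image_of_mem _ hb
      obtain ⟨Y, hY, hYd⟩ := Finset.mem_image.mp h1
      have h2 := hg Y hY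
      rw [hYd] at h2
      rw [h2]
      exact hY
    · intro hX
      have h1 : Module.finrank F X ∈ E.image (fun b => b.val + 1) := by
        rw [← hdim]
        exact Finset.mem_image_of_mem _ hX
      obtain ⟨b, hb, hbd⟩ := Finset.mem_image.mp h1
      have h2 := hg X hX
      rw [← hbd] at h2
      rw [← h2]
      exact Finset.mem_image_of_mem _ (Finset.mem_image_of_mem _ hb)

end

end Cfsg.Agent.Lib.Helper95.FlagG
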