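import Mathlib

set_option autoImplicit false

namespace Cfsg.Agent.Lib.Helper95.FpfA

/-- The norm-zero property of a monoid homomorphism into a semiring: for every non-identity `a`
the sum of the powers of `ρ a` vanishes. -/
def NZ {A S : Type*} [Group A] [Semiring S] (ρ : A →* S) : Prop :=
  ∀ a : A, a ≠ 1 → ∑ i ∈ Finset.range (orderOf a), ρ a ^ i = 0

theorem binom_aux {S : Type*} [Ring S] (r : ℕ) (hr : 2 ≤ r) (c : S) :
    ∃ w : S, (1 + c) ^ r = 1 + r • c + c ^ 2 * w := by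
  obtain ⟨t, rfl⟩ : ∃ t, r = t + 2 := ⟨r - 2, by omega⟩
  refine ⟨∑ m ∈ Finset.range (t + 1), c ^ m * ((t + 2).choose (m + 2) : S), ?_⟩
  rw [add_comm 1 c, (Commute.one_right c).add_pow, Finset.sum_range_succ', Finset.sum_range_succ',
    Finset.mul_sum]
  simp only [one_pow, mul_one, pow_zero, Nat.choose_zero_right, Nat.cast_one, zero_add, pow_one,
    Nat.choose_one_right]
  rw [nsmul_eq_mul']
  have : ∀ m, c ^ (m + 1 + 1) * ((t + 2).choose (m + 1 + 1) : S) =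
      c ^ 2 * (c ^ m * ((t + 2).choose (m + 2) : S)) := by
    intro m
    rw [← mul_assoc, ← pow_add]
    congr 2
    omega
  simp only [this]
  abel

theorem pow_lemma {S : Type*} [Ring S] (r : ℕ) (hr : 2 ≤ r) (j : ℕ) (z : S) :
    ∃ z' : S, (1 + r • z) ^ (r ^ j) = 1 + (r ^ (j + 1)) • z' := by
  induction j with
  | zero => exact ⟨z, by simp⟩
  | succ j ih =>
    obtain ⟨z', hz'⟩ := ih
    obtain ⟨w, hw⟩ := binom_aux r hr ((r ^ (j + 1)) • z')
    refine ⟨z' + (r ^ j) • (z' * z' * w), ?_⟩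
    rw [pow_succ, pow_mul, hz', hw, smul_smul, sq, smul_mul_assoc, mul_smul_comm, smul_mul_assoc,
      smul_mul_assoc, smul_smul, smul_add, smul_smul, add_assoc]
    congr 2
    · congr 1
      ring
    · congr 1
      ring

section ZModLift

variable {m : ℕ} (r k : ℕ)

theorem exists_eq_nsmul (hk : k ≠ 0) [NeZero (r ^ k)] (x : ZMod (r ^ k))
    (hx : ZMod.castHom (dvd_pow_self r hk) (ZMod r) x = 0) : ∃ y : ZMod (r ^ k), x = r • y := by
  have h1 : x = ((x.val : ℕ) : ZMod (r ^ k)) := (ZMod.natCast_zmod_val x).symm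
  rw [h1, map_natCast, ZMod.natCast_eq_zero_iff] at hx
  obtain ⟨t, ht⟩ := hx
  refine ⟨(t : ZMod (r ^ k)), ?_⟩
  rw [h1, ht, Nat.cast_mul, nsmul_eq_mul]

theorem matrix_eq_nsmul (hk : k ≠ 0) [NeZero (r ^ k)] (X : Matrix (Fin m) (Fin m) (ZMod (r ^ k)))
    (hX : (ZMod.castHom (dvd_pow_self r hk) (ZMod r)).mapMatrix X = 0) :
    ∃ Z : Matrix (Fin m) (Fin m) (ZMod (r ^ k)), X = r • Z := by
  have h : ∀ i j, ∃ y : ZMod (r ^ k), X i j = r • y := by
    intro i j
    apply exists_eq_nsmul r k hk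
    have := congrFun (congrFun hX i) j
    simpa using this
  choose Z hZ using h
  refine ⟨Matrix.of Z, ?_⟩
  ext i j
  rw [hZ i j]
  rfl

theorem pow_nsmul_eq_zero (Z : Matrix (Fin m) (Fin m) (ZMod (r ^ k))) : (r ^ k) • Z = 0 := by
  ext i j
  rw [Matrix.smul_apply, nsmul_eq_mul, ZMod.natCast_self, zero_mul]
  rfl

theorem pow_eq_one_of_map_eq_one (hr : 2 ≤ r) (hk : k ≠ 0) [NeZero (r ^ k)]
    (X : Matrix (Fin m) (Fin m) (ZMod (r ^ k)))
    (hX : (ZMod.castHom (dvd_pow_self r hk) (ZMod r)).mapMatrix X = 1) : X ^ (r ^ (k - 1)) = 1 := by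
  obtain ⟨Z, hZ⟩ := matrix_eq_nsmul (m := m) r k hk (X - 1) (by rw [map_sub, hX, map_one, sub_self])
  have hX' : X = 1 + r • Z := by rw [← hZ]; abel
  obtain ⟨z', hz'⟩ := pow_lemma r hr (k - 1) Z
  rw [hX', hz', Nat.sub_add_cancel (Nat.pos_of_ne_zero hk), pow_nsmul_eq_zero, add_zero]

theorem exists_unit_lift (hr : 2 ≤ r) (hk : k ≠ 0) [NeZero (r ^ k)]
    (Y Y' : Matrix (Fin m) (Fin m) (ZMod r)) (hY : Y * Y' = 1) :
    ∃ g : (Matrix (Fin m) (Fin m) (ZMod (r ^ k)))ˣ,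
      (ZMod.castHom (dvd_pow_self r hk) (ZMod r)).mapMatrix (g : Matrix (Fin m) (Fin m) (ZMod (r ^ k))) = Y := by
  have hsurj := ZMod.castHom_surjective (dvd_pow_self r hk)
  have hlift : ∀ Y : Matrix (Fin m) (Fin m) (ZMod r), ∃ X : Matrix (Fin m) (Fin m) (ZMod (r ^ k)),
      (ZMod.castHom (dvd_pow_self r hk) (ZMod r)).mapMatrix X = Y := by
    intro Y
    refine ⟨Matrix.of fun i j => Classical.choose (hsurj (Y i j)), ?_⟩
    ext i j
    exact Classical.choose_spec (hsurj (Y i j))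
  obtain ⟨X, hX⟩ := hlift Y
  obtain ⟨X', hX'⟩ := hlift Y'
  have h1 := pow_eq_one_of_map_eq_one r k hr hk (X * X') (by rw [map_mul, hX, hX', hY])
  have hpos : 0 < r ^ (k - 1) := by positivity
  obtain ⟨t, ht⟩ : ∃ t, r ^ (k - 1) = t + 1 := ⟨r ^ (k - 1) - 1, by omega⟩
  rw [ht, pow_succ', mul_assoc] at h1
  exact ⟨⟨X, X' * (X * X') ^ t, h1, mul_eq_one_comm.mp h1⟩, hX⟩

end ZModLift

section Lift

variable {A : Type*} [Group A] {m : ℕ}

/-- Lifting a matrix representation from `ZMod r` to `ZMod (r ^ k)` when `r ∤ |A|`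
(Schur–Zassenhaus on the congruence kernel). -/
theorem exists_lift [Finite A] (r k : ℕ) (hr : r.Prime) (hk : k ≠ 0)
    (hcop : (Nat.card A).Coprime r) (ρ₁ : A →* Matrix (Fin m) (Fin m) (ZMod r)) :
    ∃ ρ : A →* Matrix (Fin m) (Fin m) (ZMod (r ^ k)),
      ∀ a, (ZMod.castHom (dvd_pow_self r hk) (ZMod r)).mapMatrix (ρ a) = ρ₁ a := by
  classical
  have : Fact r.Prime := ⟨hr⟩
  have : NeZero (r ^ k) := ⟨pow_ne_zero k hr.ne_zero⟩
  let E : Subgroup (A × (Matrix (Fin m) (Fin m) (ZMod (r ^ k)))ˣ) :=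
    { carrier := {x | (ZMod.castHom (dvd_pow_self r hk) (ZMod r)).mapMatrix
        (x.2 : Matrix (Fin m) (Fin m) (ZMod (r ^ k))) = ρ₁ x.1}
      mul_mem' := by
        intro x y hx hy
        change _ = _ at hx hy ⊢
        rw [Prod.snd_mul, Prod.fst_mul, Units.val_mul, map_mul, map_mul, hx, hy]
      one_mem' := by
        change _ = _
        rw [Prod.snd_one, Prod.fst_one, Units.val_one, map_one, map_one]
      inv_mem' := by
        intro x hx
        change _ = _ at hx ⊢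
        rw [Prod.snd_inv, Prod.fst_inv]
        have h1 : (ZMod.castHom (dvd_pow_self r hk) (ZMod r)).mapMatrix
            ((x.2⁻¹ : (Matrix (Fin m) (Fin m) (ZMod (r ^ k)))ˣ) : Matrix (Fin m) (Fin m) (ZMod (r ^ k))) *
            ρ₁ x.1 = 1 := by
          rw [← hx, ← map_mul, ← Units.val_mul, inv_mul_cancel, Units.val_one, map_one]
        have h2 : ρ₁ x.1 * ρ₁ x.1⁻¹ = 1 := by rw [← map_mul, mul_inv_cancel, map_one]
        have h3 : (ZMod.castHom (dvd_pow_self r hk) (ZMod r)).mapMatrix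
            ((x.2⁻¹ : (Matrix (Fin m) (Fin m) (ZMod (r ^ k)))ˣ) : Matrix (Fin m) (Fin m) (ZMod (r ^ k))) =
            (ZMod.castHom (dvd_pow_self r hk) (ZMod r)).mapMatrix
              ((x.2⁻¹ : (Matrix (Fin m) (Fin m) (ZMod (r ^ k)))ˣ) : Matrix (Fin m) (Fin m) (ZMod (r ^ k))) *
              (ρ₁ x.1 * ρ₁ x.1⁻¹) := by rw [h2, mul_one]
        rw [h3, ← mul_assoc, h1, one_mul] }
  let pr : E →* A := (MonoidHom.fst A (Matrix (Fin m) (Fin m) (ZMod (r ^ k)))ˣ).comp E.subtype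
  have hmemE : ∀ x : E, (ZMod.castHom (dvd_pow_self r hk) (ZMod r)).mapMatrix
      ((x : A × (Matrix (Fin m) (Fin m) (ZMod (r ^ k)))ˣ).2 : Matrix (Fin m) (Fin m) (ZMod (r ^ k))) =
        ρ₁ (pr x) := fun x => x.2
  have hsurj : Function.Surjective pr := by
    intro a
    obtain ⟨g, hg⟩ := exists_unit_lift (m := m) r k hr.two_le hk (ρ₁ a) (ρ₁ a⁻¹)
      (by rw [← map_mul, mul_inv_cancel, map_one])
    exact ⟨⟨(a, g), hg⟩, rfl⟩
  have hker : IsPGroup r pr.ker := by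
    intro x
    refine ⟨k - 1, ?_⟩
    have hx1 : pr (x : E) = 1 := x.2
    have hx2 := hmemE (x : E)
    rw [hx1, map_one] at hx2
    have hx3 := pow_eq_one_of_map_eq_one r k hr.two_le hk _ hx2
    apply Subtype.ext
    apply Subtype.ext
    refine Prod.ext ?_ ?_
    · change (pr (x : E)) ^ r ^ (k - 1) = 1
      rw [hx1, one_pow]
    · apply Units.ext
      change (((x : E) : A × (Matrix (Fin m) (Fin m) (ZMod (r ^ k)))ˣ).2 ^ r ^ (k - 1) :
        (Matrix (Fin m) (Fin m) (ZMod (r ^ k)))ˣ).val = 1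
      rw [Units.val_pow_eq_pow_val]
      exact hx3
  have hcop' : Nat.Coprime (Nat.card pr.ker) pr.ker.index := by
    obtain ⟨j, hj⟩ := IsPGroup.iff_card.mp hker
    rw [hj, Subgroup.index_ker]
    apply Nat.Coprime.pow_left
    apply Nat.Coprime.symm
    exact Nat.Coprime.coprime_dvd_left (Subgroup.card_subgroup_dvd_card _) hcop
  obtain ⟨C, hC⟩ := Subgroup.exists_right_complement'_of_coprime hcop'
  have hinj : Function.Injective (pr.comp C.subtype) := by
    rw [injective_iff_map_eq_one]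
    intro c hc
    have h1 : (c : E) ∈ pr.ker ⊓ C := ⟨hc, c.2⟩
    rw [hC.disjoint.eq_bot] at h1
    exact Subtype.ext (Subgroup.mem_bot.mp h1)
  have hsurj' : Function.Surjective (pr.comp C.subtype) := by
    intro a
    obtain ⟨e, he⟩ := hsurj a
    obtain ⟨⟨n, c⟩, hnc, -⟩ := (Subgroup.isComplement'_def.mp hC).existsUnique e
    refine ⟨c, ?_⟩
    have h2 : pr (n : E) = 1 := n.2
    change pr (c : E) = a
    rw [← he, ← hnc, map_mul, h2, one_mul]
  let σ : C ≃* A := MulEquiv.ofBijective (pr.comp C.subtype) ⟨hinj, hsurj'⟩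
  refine ⟨(Units.coeHom (Matrix (Fin m) (Fin m) (ZMod (r ^ k)))).comp
    ((MonoidHom.snd A (Matrix (Fin m) (Fin m) (ZMod (r ^ k)))ˣ).comp
      (E.subtype.comp (C.subtype.comp σ.symm.toMonoidHom))), ?_⟩
  intro a
  have h3 := hmemE ((σ.symm a : C) : E)
  have h4 : pr ((σ.symm a : C) : E) = a := σ.apply_symm_apply a
  rw [h4] at h3
  exact h3

/-- The norm-zero property lifts along reduction mod `r`. -/
theorem nz_lift (r k : ℕ) (hr : r.Prime) (hk : k ≠ 0) [Finite A]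
    (hcop : (Nat.card A).Coprime r) (ρ₁ : A →* Matrix (Fin m) (Fin m) (ZMod r)) (hρ₁ : NZ ρ₁)
    (ρ : A →* Matrix (Fin m) (Fin m) (ZMod (r ^ k)))
    (hρ : ∀ a, (ZMod.castHom (dvd_pow_self r hk) (ZMod r)).mapMatrix (ρ a) = ρ₁ a) : NZ ρ := by
  have : NeZero (r ^ k) := ⟨pow_ne_zero k hr.ne_zero⟩
  intro a ha
  set n := orderOf a with hn
  set S := ∑ i ∈ Finset.range n, ρ a ^ i with hS
  have hS0 : (ZMod.castHom (dvd_pow_self r hk) (ZMod r)).mapMatrix S = 0 := by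
    rw [hS, map_sum]
    simp only [map_pow, hρ]
    exact hρ₁ a ha
  obtain ⟨Z, hZ⟩ := matrix_eq_nsmul (m := m) r k hk S hS0
  have hpow : ρ a ^ n = 1 := by rw [← map_pow, hn, pow_orderOf_eq_one, map_one]
  have h1 : ρ a * S = S := by
    rw [hS, Finset.mul_sum]
    have e1 : ∑ i ∈ Finset.range n, ρ a * ρ a ^ i = ∑ i ∈ Finset.range n, ρ a ^ (i + 1) :=
      Finset.sum_congr rfl fun i _ => (pow_succ' _ _).symm
    rw [e1]
    have e2 := Finset.sum_range_succ (fun i => ρ a ^ i) n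
    have e3 := Finset.sum_range_succ' (fun i => ρ a ^ i) n
    rw [e2, hpow, pow_zero] at e3
    exact (add_right_cancel e3).symm
  have h2 : ∀ i : ℕ, ρ a ^ i * S = S := by
    intro i
    induction i with
    | zero => rw [pow_zero, one_mul]
    | succ i ih => rw [pow_succ, mul_assoc, h1, ih]
  have h3 : S * S = n • S := by
    conv_lhs => rw [hS, Finset.sum_mul]
    rw [Finset.sum_congr rfl (fun i _ => h2 i), Finset.sum_const, Finset.card_range]
  have hncop : n.Coprime (r ^ k) := by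
    apply Nat.Coprime.pow_right
    exact Nat.Coprime.coprime_dvd_left (orderOf_dvd_natCard a) hcop
  obtain ⟨u, hu⟩ : ∃ u : ZMod (r ^ k), u * (n : ZMod (r ^ k)) = 1 :=
    ⟨((ZMod.unitOfCoprime n hncop)⁻¹ : (ZMod (r ^ k))ˣ), by
      rw [← ZMod.coe_unitOfCoprime n hncop, ← Units.val_mul, inv_mul_cancel, Units.val_one]⟩
  have h4 : S = r • ((u • Z) * S) := by
    have e1 : S = u • (n • S) := by
      rw [← Nat.cast_smul_eq_nsmul (ZMod (r ^ k)) n S, smul_smul, hu, one_smul]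
    have e2 : S * S = (r • Z) * S := congrArg (fun X => X * S) hZ
    conv_lhs => rw [e1, ← h3, e2]
    rw [smul_mul_assoc, smul_comm, smul_mul_assoc]
  have h5 : ∀ j : ℕ, S = (r ^ j) • ((u • Z) ^ j * S) := by
    intro j
    induction j with
    | zero => simp
    | succ j ih =>
      conv_lhs => rw [h4, ih]
      rw [mul_smul_comm, smul_smul, ← mul_assoc, ← pow_succ', ← pow_succ']
  rw [h5 k]
  exact pow_nsmul_eq_zero r k _

/-- Combined: a norm-zero representation over `ZMod r` has norm-zero lifts modulo all powers. -/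
theorem exists_nz_lift (r k : ℕ) (hr : r.Prime) (hk : k ≠ 0) [Finite A]
    (hcop : (Nat.card A).Coprime r) (ρ₁ : A →* Matrix (Fin m) (Fin m) (ZMod r)) (hρ₁ : NZ ρ₁) :
    ∃ ρ : A →* Matrix (Fin m) (Fin m) (ZMod (r ^ k)), NZ ρ := by
  obtain ⟨ρ, hρ⟩ := exists_lift r k hr hk hcop ρ₁
  exact ⟨ρ, nz_lift r k hr hk hcop ρ₁ hρ₁ ρ hρ⟩

end Lift

end Cfsg.Agent.Lib.Helper95.FpfA
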