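import Mathlib
import Cfsg.Agent.Lib.Helper95.FpfA

set_option autoImplicit false

namespace Cfsg.Agent.Lib.Helper95.FpfB

open Cfsg.Agent.Lib.Helper95.FpfA
open Classical

variable {A : Type*} [Group A]

/-- The generators `g · N_a · h` of the norm ideal, as functions on the group. -/
noncomputable def gen (R : Type*) [Semiring R] (g a h : A) : A → R :=
  ∑ i ∈ Finset.range (orderOf a), Pi.single (g * a ^ i * h) (1 : R)

/-- The norm ideal, as a submodule of the regular module. -/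
noncomputable def W (R : Type*) [CommRing R] : Submodule R (A → R) :=
  Submodule.span R {x | ∃ g a h : A, a ≠ 1 ∧ x = gen R g a h}

/-- Left translation. -/
def Lt (R : Type*) [CommRing R] (g : A) : (A → R) →ₗ[R] (A → R) :=
  LinearMap.funLeft R R (fun x => g⁻¹ * x)

theorem Lt_apply (R : Type*) [CommRing R] (g : A) (f : A → R) (x : A) :
    Lt R g f x = f (g⁻¹ * x) := rfl

theorem Lt_single (R : Type*) [CommRing R] (g h : A) (c : R) :
    Lt R g (Pi.single h c) = Pi.single (g * h) c := by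
  ext x
  rw [Lt_apply, Pi.single_apply, Pi.single_apply]
  congr 1
  rw [inv_mul_eq_iff_eq_mul]

theorem Lt_gen (R : Type*) [CommRing R] (g g' a h : A) :
    Lt R g (gen R g' a h) = gen R (g * g') a h := by
  unfold gen
  rw [map_sum]
  refine Finset.sum_congr rfl fun i _ => ?_
  rw [Lt_single, mul_assoc, mul_assoc, mul_assoc]

theorem W_Lt (R : Type*) [CommRing R] (g : A) : W (A := A) R ≤ (W R).comap (Lt R g) := by
  unfold W
  rw [Submodule.span_le]
  rintro x ⟨g', a, h, ha, rfl⟩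
  rw [SetLike.mem_coe, Submodule.mem_comap, Lt_gen]
  exact Submodule.subset_span ⟨g * g', a, h, ha, rfl⟩

theorem Lt_one (R : Type*) [CommRing R] : Lt (A := A) R 1 = LinearMap.id := by
  ext f x
  simp [Lt_apply]

theorem Lt_mul (R : Type*) [CommRing R] (g h : A) : Lt R (g * h) = Lt R g ∘ₗ Lt R h := by
  apply LinearMap.ext
  intro f
  funext x
  simp only [LinearMap.comp_apply, Lt_apply, mul_inv_rev, mul_assoc]

/-- The action on the quotient of the regular module by the norm ideal. -/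
noncomputable def τ (R : Type*) [CommRing R] : A →* Module.End R ((A → R) ⧸ W (A := A) R) where
  toFun g := (W R).mapQ (W R) (Lt R g) (W_Lt R g)
  map_one' := by
    apply LinearMap.ext
    intro v
    obtain ⟨f, rfl⟩ := Submodule.mkQ_surjective _ v
    simp [Lt_one]
  map_mul' g h := by
    apply LinearMap.ext
    intro v
    obtain ⟨f, rfl⟩ := Submodule.mkQ_surjective _ v
    simp [Lt_mul]

theorem τ_mk (R : Type*) [CommRing R] (g : A) (f : A → R) :
    τ R g (Submodule.Quotient.mk f) = Submodule.Quotient.mk (Lt R g f) := rfl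

theorem sum_Lt_mem [Fintype A] (R : Type*) [CommRing R] (a : A) (ha : a ≠ 1) (f : A → R) :
    ∑ i ∈ Finset.range (orderOf a), Lt R (a ^ i) f ∈ W (A := A) R := by
  have hf : f = ∑ h : A, f h • Pi.single h (1 : R) := by
    funext x
    simp [Finset.sum_apply, Pi.single_apply]
  have e : ∑ i ∈ Finset.range (orderOf a), Lt R (a ^ i) f = ∑ h : A, f h • gen R 1 a h := by
    conv_lhs => rw [hf]
    simp only [map_sum, map_smul, Lt_single]
    rw [Finset.sum_comm]
    refine Finset.sum_congr rfl fun h _ => ?_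
    rw [← Finset.smul_sum]
    unfold gen
    simp only [one_mul]
  rw [e]
  apply Submodule.sum_mem
  intro h _
  apply Submodule.smul_mem
  exact Submodule.subset_span ⟨1, a, h, ha, rfl⟩

theorem nz_τ [Finite A] (R : Type*) [CommRing R] : NZ (τ (A := A) R) := by
  have : Fintype A := Fintype.ofFinite A
  intro a ha
  apply LinearMap.ext
  intro v
  obtain ⟨f, rfl⟩ := Submodule.mkQ_surjective _ v
  rw [LinearMap.sum_apply, LinearMap.zero_apply]
  have e : ∀ i, ((τ (A := A) R) a ^ i) ((W R).mkQ f) = (W R).mkQ (Lt R (a ^ i) f) := by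
    intro i
    rw [← map_pow]
    rfl
  rw [Finset.sum_congr rfl (fun i _ => e i), ← map_sum, Submodule.mkQ_apply,
    Submodule.Quotient.mk_eq_zero]
  exact sum_Lt_mem R a ha f

theorem gen_map {R R' : Type*} [Semiring R] [Semiring R'] (φ : R →+* R') (g a h x : A) :
    φ (gen R g a h x) = gen R' g a h x := by
  unfold gen
  simp only [Finset.sum_apply, Pi.single_apply, map_sum]
  refine Finset.sum_congr rfl fun i _ => ?_
  split_ifs <;> simp

/-- The linear map induced by a monoid homomorphism into a ring. -/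
noncomputable def Φ [Fintype A] {S : Type*} [Ring S] (ρ : A →* S) : (A → ℤ) →ₗ[ℤ] S where
  toFun f := ∑ x : A, f x • ρ x
  map_add' f f' := by simp [add_smul, Finset.sum_add_distrib]
  map_smul' c f := by simp [mul_smul, Finset.smul_sum]

theorem Φ_single [Fintype A] {S : Type*} [Ring S] (ρ : A →* S) (x : A) :
    Φ ρ (Pi.single x 1) = ρ x := by
  change ∑ y : A, (Pi.single x (1 : ℤ) : A → ℤ) y • ρ y = ρ x
  rw [Finset.sum_eq_single x]
  · simp
  · intro y _ hy
    rw [Pi.single_eq_of_ne hy, zero_smul]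
  · intro h
    exact absurd (Finset.mem_univ x) h

theorem Φ_gen [Fintype A] {S : Type*} [Ring S] (ρ : A →* S) (hρ : NZ ρ) (g a h : A) (ha : a ≠ 1) :
    Φ ρ (gen ℤ g a h) = 0 := by
  unfold gen
  rw [map_sum]
  simp only [Φ_single, map_mul, map_pow]
  rw [← Finset.sum_mul, ← Finset.mul_sum, hρ a ha, mul_zero, zero_mul]

theorem W_le_ker [Fintype A] {S : Type*} [Ring S] (ρ : A →* S) (hρ : NZ ρ) :
    W (A := A) ℤ ≤ LinearMap.ker (Φ ρ) := by
  unfold W
  rw [Submodule.span_le]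
  rintro x ⟨g, a, h, ha, rfl⟩
  exact Φ_gen ρ hρ g a h ha

/-- No positive multiple of the identity lies in the integral norm ideal. -/
theorem no_pos_int [Finite A] (r m : ℕ) (hr : 2 ≤ r) (hm : 0 < m)
    (hρ : ∀ k : ℕ, k ≠ 0 → ∃ ρ : A →* Matrix (Fin m) (Fin m) (ZMod (r ^ k)), NZ ρ)
    (d : ℕ) (hd : 0 < d) : (d • Pi.single 1 1 : A → ℤ) ∉ W (A := A) ℤ := by
  have : Fintype A := Fintype.ofFinite A
  intro hmem
  obtain ⟨ρ, hρ'⟩ := hρ d hd.ne'
  have h1 := W_le_ker ρ hρ' hmem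
  rw [LinearMap.mem_ker, map_nsmul, Φ_single, map_one] at h1
  have h2 := congrFun (congrFun h1 ⟨0, hm⟩) ⟨0, hm⟩
  rw [Matrix.smul_apply, Matrix.one_apply_eq, Matrix.zero_apply, nsmul_eq_mul, mul_one,
    ZMod.natCast_eq_zero_iff] at h2
  have h3 := Nat.le_of_dvd hd h2
  have h4 : d < r ^ d := Nat.lt_pow_self hr
  omega

theorem clear_denom (w : A → ℚ) (hw : w ∈ W (A := A) ℚ) :
    ∃ d : ℕ, 0 < d ∧ ∃ z ∈ W (A := A) ℤ, ∀ x, ((z x : ℤ) : ℚ) = d * w x := by
  unfold W at hw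
  induction hw using Submodule.span_induction with
  | mem x hx =>
    obtain ⟨g, a, h, ha, rfl⟩ := hx
    refine ⟨1, one_pos, gen ℤ g a h, Submodule.subset_span ⟨g, a, h, ha, rfl⟩, fun x => ?_⟩
    rw [Nat.cast_one, one_mul]
    exact gen_map (Int.castRingHom ℚ) g a h x
  | zero => exact ⟨1, one_pos, 0, Submodule.zero_mem _, fun x => by simp⟩
  | add x y _ _ hx hy =>
    obtain ⟨d₁, hd₁, z₁, hz₁, e₁⟩ := hx
    obtain ⟨d₂, hd₂, z₂, hz₂, e₂⟩ := hy
    refine ⟨d₁ * d₂, Nat.mul_pos hd₁ hd₂, d₂ • z₁ + d₁ • z₂,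
      Submodule.add_mem _ (Submodule.smul_of_tower_mem _ d₂ hz₁) (Submodule.smul_of_tower_mem _ d₁ hz₂),
      fun t => ?_⟩
    rw [Pi.add_apply, Pi.smul_apply, Pi.smul_apply, nsmul_eq_mul, nsmul_eq_mul, Pi.add_apply]
    push_cast
    rw [e₁ t, e₂ t]
    ring
  | smul c x _ hx =>
    obtain ⟨d, hd, z, hz, e⟩ := hx
    refine ⟨c.den * d, Nat.mul_pos c.den_pos hd, c.num • z, Submodule.smul_mem _ _ hz, fun t => ?_⟩
    rw [Pi.smul_apply, Pi.smul_apply, smul_eq_mul, smul_eq_mul]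
    push_cast
    rw [e t]
    have hc : (c.den : ℚ) * c = c.num := by
      rw [mul_comm]
      exact Rat.mul_den_eq_num c
    calc ((c.num : ℤ) : ℚ) * ((d : ℚ) * x t) = ((c.den : ℚ) * c) * ((d : ℚ) * x t) := by rw [hc]
      _ = (c.den : ℚ) * d * (c * x t) := by ring

theorem one_not_mem_rat
    (h : ∀ d : ℕ, 0 < d → (d • Pi.single 1 1 : A → ℤ) ∉ W (A := A) ℤ) :
    (Pi.single 1 1 : A → ℚ) ∉ W (A := A) ℚ := by
  intro hmem
  obtain ⟨d, hd, z, hz, e⟩ := clear_denom _ hmem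
  apply h d hd
  have : z = d • Pi.single 1 1 := by
    funext x
    apply Int.cast_injective (α := ℚ)
    rw [e x]
    simp only [Pi.smul_apply, Pi.single_apply, nsmul_eq_mul]
    split_ifs <;> simp
  rw [← this]
  exact hz

theorem lift_mod (s : ℕ) (w : A → ZMod s) (hw : w ∈ W (A := A) (ZMod s)) :
    ∃ z ∈ W (A := A) ℤ, ∀ x, ((z x : ℤ) : ZMod s) = w x := by
  unfold W at hw
  induction hw using Submodule.span_induction with
  | mem x hx =>
    obtain ⟨g, a, h, ha, rfl⟩ := hx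
    exact ⟨gen ℤ g a h, Submodule.subset_span ⟨g, a, h, ha, rfl⟩,
      fun x => gen_map (Int.castRingHom (ZMod s)) g a h x⟩
  | zero => exact ⟨0, Submodule.zero_mem _, fun x => by simp⟩
  | add x y _ _ hx hy =>
    obtain ⟨z₁, hz₁, e₁⟩ := hx
    obtain ⟨z₂, hz₂, e₂⟩ := hy
    exact ⟨z₁ + z₂, Submodule.add_mem _ hz₁ hz₂, fun t => by simp [e₁ t, e₂ t]⟩
  | smul c x _ hx =>
    obtain ⟨z, hz, e⟩ := hx
    obtain ⟨n, rfl⟩ := ZMod.intCast_surjective c
    exact ⟨n • z, Submodule.smul_mem _ _ hz, fun t => by simp [e t]⟩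

theorem one_not_mem_zmod [Finite A] (s : ℕ) (hs : 2 ≤ s)
    (h : ∀ d : ℕ, 0 < d → (d • Pi.single 1 1 : A → ℤ) ∉ W (A := A) ℤ) :
    (Pi.single 1 1 : A → ZMod s) ∉ W (A := A) (ZMod s) := by
  have : Fintype A := Fintype.ofFinite A
  intro hmem
  obtain ⟨z, hz, e⟩ := lift_mod s _ hmem
  have hy : ∀ x, ∃ t : ℤ, (Pi.single 1 1 : A → ℤ) x - z x = s * t := by
    intro x
    have h0 : (((Pi.single 1 1 : A → ℤ) x - z x : ℤ) : ZMod s) = 0 := by
      rw [Int.cast_sub, e x, Pi.single_apply, Pi.single_apply]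
      split_ifs <;> simp
    exact (ZMod.intCast_zmod_eq_zero_iff_dvd _ _).mp h0
  choose y hy using hy
  have hδ : (Pi.single 1 1 : A → ℤ) = z + (s : ℤ) • y := by
    funext x
    have := hy x
    rw [Pi.add_apply, Pi.smul_apply, smul_eq_mul]
    linarith
  have key : ∀ f : A → ℤ, (Submodule.Quotient.mk f : (A → ℤ) ⧸ W (A := A) ℤ) ∈
      (Ideal.span {(s : ℤ)}) • (⊤ : Submodule ℤ ((A → ℤ) ⧸ W (A := A) ℤ)) := by
    intro f
    have hf : f = ∑ h : A, f h • Pi.single h (1 : ℤ) := by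
      funext x
      simp [Finset.sum_apply, Pi.single_apply]
    rw [hf, ← Submodule.mkQ_apply, map_sum]
    apply Submodule.sum_mem
    intro h _
    rw [map_smul]
    apply Submodule.smul_mem
    have e1 : (Pi.single h 1 : A → ℤ) = Lt ℤ h z + (s : ℤ) • Lt ℤ h y := by
      have e2 : (Pi.single h 1 : A → ℤ) = Lt ℤ h (Pi.single 1 1) := by
        rw [Lt_single, mul_one]
      rw [e2, hδ, map_add, map_smul]
    have hz' : Lt ℤ h z ∈ W (A := A) ℤ := W_Lt ℤ h hz
    rw [e1, map_add, map_smul, Submodule.mkQ_apply, Submodule.mkQ_apply,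
      (Submodule.Quotient.mk_eq_zero _).mpr hz', zero_add]
    exact Submodule.smul_mem_smul (Ideal.mem_span_singleton_self _) Submodule.mem_top
  have hle : (⊤ : Submodule ℤ ((A → ℤ) ⧸ W (A := A) ℤ)) ≤ Ideal.span {(s : ℤ)} • ⊤ := by
    intro v _
    obtain ⟨f, rfl⟩ := Submodule.mkQ_surjective _ v
    exact key f
  obtain ⟨c, hc1, hc2⟩ := Submodule.exists_sub_one_mem_and_smul_eq_zero_of_fg_of_le_smul
    (Ideal.span {(s : ℤ)}) ⊤ Module.Finite.fg_top hle
  have hc3 := hc2 (Submodule.Quotient.mk (Pi.single 1 1)) Submodule.mem_top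
  rw [← Submodule.Quotient.mk_smul, Submodule.Quotient.mk_eq_zero] at hc3
  have hc0 : c ≠ 0 := by
    rintro rfl
    rw [Ideal.mem_span_singleton] at hc1
    have h1 : (s : ℤ) ∣ 1 := by
      have := dvd_neg.mpr hc1
      simpa using this
    have := Int.le_of_dvd one_pos h1
    omega
  apply h c.natAbs (Int.natAbs_pos.mpr hc0)
  rcases Int.natAbs_eq c with h1 | h1
  · have e3 : (c.natAbs • Pi.single 1 1 : A → ℤ) = c • Pi.single 1 1 := by
      rw [← natCast_zsmul, ← h1]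
    rw [e3]
    exact hc3
  · have e3 : (c.natAbs • Pi.single 1 1 : A → ℤ) = -(c • Pi.single 1 1) := by
      rw [← natCast_zsmul, ← neg_smul]
      congr 1
      omega
    rw [e3]
    exact Submodule.neg_mem _ hc3

theorem exists_matrix_nz [Finite A] (R : Type*) [Field R]
    (h : (Pi.single 1 1 : A → R) ∉ W (A := A) R) :
    ∃ (m : ℕ) (ρ : A →* Matrix (Fin m) (Fin m) R), 0 < m ∧ NZ ρ := by
  have hnt : Nontrivial ((A → R) ⧸ W (A := A) R) :=
    ⟨⟨Submodule.Quotient.mk (Pi.single 1 1), 0,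
      fun h0 => h ((Submodule.Quotient.mk_eq_zero _).mp h0)⟩⟩
  let b := Module.finBasis R ((A → R) ⧸ W (A := A) R)
  refine ⟨Module.finrank R ((A → R) ⧸ W (A := A) R),
    (LinearMap.toMatrixAlgEquiv b).toRingEquiv.toMonoidHom.comp (τ R), Module.finrank_pos, ?_⟩
  intro a ha
  have h1 := nz_τ (A := A) R a ha
  have h2 := congrArg (LinearMap.toMatrixAlgEquiv b) h1
  rw [map_sum, map_zero] at h2
  simp only [map_pow] at h2
  exact h2

/-- From a norm-zero matrix representation over `ZMod r` (`r ∤ |A|`): no positive integer lies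
in the integral norm ideal. -/
theorem main_int [Finite A] (r m : ℕ) (hr : r.Prime) (hm : 0 < m) (hcop : (Nat.card A).Coprime r)
    (ρ₁ : A →* Matrix (Fin m) (Fin m) (ZMod r)) (hρ₁ : NZ ρ₁) (d : ℕ) (hd : 0 < d) :
    (d • Pi.single 1 1 : A → ℤ) ∉ W (A := A) ℤ :=
  no_pos_int r m hr.two_le hm (fun k hk => exists_nz_lift r k hr hk hcop ρ₁ hρ₁) d hd

/-- Change of characteristic, to characteristic zero. -/
theorem main_rat [Finite A] (r m : ℕ) (hr : r.Prime) (hm : 0 < m) (hcop : (Nat.card A).Coprime r)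
    (ρ₁ : A →* Matrix (Fin m) (Fin m) (ZMod r)) (hρ₁ : NZ ρ₁) :
    ∃ (m' : ℕ) (ρ : A →* Matrix (Fin m') (Fin m') ℚ), 0 < m' ∧ NZ ρ :=
  exists_matrix_nz ℚ (one_not_mem_rat (main_int r m hr hm hcop ρ₁ hρ₁))

/-- Change of characteristic, to any prime characteristic. -/
theorem main_zmod [Finite A] (r m : ℕ) (hr : r.Prime) (hm : 0 < m) (hcop : (Nat.card A).Coprime r)
    (ρ₁ : A →* Matrix (Fin m) (Fin m) (ZMod r)) (hρ₁ : NZ ρ₁) (s : ℕ) [Fact s.Prime] :
    ∃ (m' : ℕ) (ρ : A →* Matrix (Fin m') (Fin m') (ZMod s)), 0 < m' ∧ NZ ρ :=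
  exists_matrix_nz (ZMod s) (one_not_mem_zmod s (Fact.out : s.Prime).two_le
    (main_int r m hr hm hcop ρ₁ hρ₁))

end Cfsg.Agent.Lib.Helper95.FpfB
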