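import Mathlib
import Cfsg.Agent.Lib.Helper95.FpfA

set_option autoImplicit false

namespace Cfsg.Agent.Lib.Helper95.FpfC

open Cfsg.Agent.Lib.Helper95.FpfA

/-- A fixed-point-free linear group on a finite `ZMod r`-space: its order is prime to `r`,
and it has a norm-zero matrix representation over `ZMod r`. -/
theorem nz_of_fpf {G : Type*} [Group G] [Finite G] {r : ℕ} [Fact r.Prime] {V : Type*}
    [AddCommGroup V] [Module (ZMod r) V] [Finite V] [Nontrivial V]
    (ρ : G →* (V ≃ₗ[ZMod r] V)) (hρ : ∀ g : G, g ≠ 1 → ∀ v : V, ρ g v = v → v = 0) :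
    (Nat.card G).Coprime r ∧
      ∃ (m : ℕ) (ρ₁ : G →* Matrix (Fin m) (Fin m) (ZMod r)), 0 < m ∧ NZ ρ₁ := by
  classical
  have hr : r.Prime := Fact.out
  have hfin : 0 < Module.finrank (ZMod r) V := Module.finrank_pos
  constructor
  · rw [Nat.coprime_comm, Nat.Prime.coprime_iff_not_dvd hr]
    intro hdvd
    obtain ⟨g, hg⟩ := exists_prime_orderOf_dvd_card' r hdvd
    have hP : IsPGroup r (Subgroup.zpowers g) :=
      IsPGroup.of_card (n := 1) (by rw [Nat.card_zpowers, hg, pow_one])
    let act : MulAction (Subgroup.zpowers g) V :=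
      MulAction.compHom V (ρ.comp (Subgroup.zpowers g).subtype)
    have hcard : r ∣ Nat.card V := by
      rw [Module.natCard_eq_pow_finrank (K := ZMod r), Nat.card_zmod]
      exact dvd_pow_self r hfin.ne'
    obtain ⟨b, hb, hb0⟩ := hP.exists_fixed_point_of_prime_dvd_card_of_fixed_point V hcard
      (a := (0 : V)) (by
        intro p
        change ρ (p : G) 0 = 0
        exact map_zero _)
    have hg1 : g ≠ 1 := by
      rintro rfl
      rw [orderOf_one] at hg
      exact hr.one_lt.ne hg
    have h1 : ρ g b = b := hb ⟨g, Subgroup.mem_zpowers g⟩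
    exact hb0 (hρ g hg1 b h1).symm
  · let ρ' : G →* Module.End (ZMod r) V :=
      { toFun := fun g => (ρ g).toLinearMap
        map_one' := by rw [map_one]; rfl
        map_mul' := fun g h => by rw [map_mul]; rfl }
    let b := Module.finBasis (ZMod r) V
    refine ⟨Module.finrank (ZMod r) V,
      (LinearMap.toMatrixAlgEquiv b).toRingEquiv.toMonoidHom.comp ρ', hfin, ?_⟩
    intro a ha
    have h1 : ∑ i ∈ Finset.range (orderOf a), ρ' a ^ i = 0 := by
      apply LinearMap.ext
      intro v
      rw [LinearMap.zero_apply]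
      apply hρ a ha
      have e1 : ∀ i, (ρ' a ^ i) v = ρ (a ^ i) v := by
        intro i
        rw [← map_pow]
        rfl
      rw [LinearMap.sum_apply, map_sum]
      have e2 : ∀ i, ρ a ((ρ' a ^ i) v) = (ρ' a ^ (i + 1)) v := by
        intro i
        rw [e1, e1, pow_succ', map_mul]
        rfl
      rw [Finset.sum_congr rfl (fun i _ => e2 i)]
      have e3 := Finset.sum_range_succ (fun i => (ρ' a ^ i) v) (orderOf a)
      have e4 := Finset.sum_range_succ' (fun i => (ρ' a ^ i) v) (orderOf a)
      rw [e3] at e4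
      have e5 : (ρ' a ^ orderOf a) v = (ρ' a ^ 0) v := by
        rw [← map_pow, pow_orderOf_eq_one, map_one, pow_zero]
      rw [e5] at e4
      exact (add_right_cancel e4).symm
    have h2 := congrArg (LinearMap.toMatrixAlgEquiv b) h1
    rw [map_sum, map_zero] at h2
    simp only [map_pow] at h2
    exact h2

/-- A norm-zero matrix representation over a field in which the order of `g` is invertible:
`g ≠ 1` fixes no nonzero vector (action on the left). -/
theorem fpf_of_nz {G : Type*} [Group G] {K : Type*} [Field K] {m : ℕ}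
    (ρ : G →* Matrix (Fin m) (Fin m) K) (hρ : NZ ρ) (g : G) (hg : g ≠ 1)
    (hK : ((orderOf g : ℕ) : K) ≠ 0) (v : Fin m → K) (hv : (ρ g).mulVec v = v) : v = 0 := by
  have h1 : ∀ i : ℕ, (ρ g ^ i).mulVec v = v := by
    intro i
    induction i with
    | zero => rw [pow_zero, Matrix.one_mulVec]
    | succ i ih => rw [pow_succ, ← Matrix.mulVec_mulVec, hv, ih]
  have h2 : (∑ i ∈ Finset.range (orderOf g), ρ g ^ i).mulVec v = (orderOf g) • v := by
    rw [Matrix.sum_mulVec, Finset.sum_congr rfl (fun i _ => h1 i), Finset.sum_const,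
      Finset.card_range]
  rw [hρ g hg, Matrix.zero_mulVec] at h2
  funext i
  have h3 := congrFun h2 i
  rw [Pi.zero_apply, Pi.smul_apply, nsmul_eq_mul] at h3
  rcases mul_eq_zero.mp h3.symm with h4 | h4
  · exact absurd h4 hK
  · exact h4

/-- Matrix version for right multiplication on a rectangular matrix. -/
theorem fpf_of_nz_left {G : Type*} [Group G] {K : Type*} [Field K] {m n : ℕ}
    (ρ : G →* Matrix (Fin m) (Fin m) K) (hρ : NZ ρ) (g : G) (hg : g ≠ 1)
    (hK : ((orderOf g : ℕ) : K) ≠ 0) (X : Matrix (Fin m) (Fin n) K) (hX : ρ g * X = X) : X = 0 := by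
  have h1 : ∀ i : ℕ, ρ g ^ i * X = X := by
    intro i
    induction i with
    | zero => rw [pow_zero, Matrix.one_mul]
    | succ i ih => rw [pow_succ, Matrix.mul_assoc, hX, ih]
  have h2 : (∑ i ∈ Finset.range (orderOf g), ρ g ^ i) * X = (orderOf g) • X := by
    rw [Matrix.sum_mul, Finset.sum_congr rfl (fun i _ => h1 i), Finset.sum_const,
      Finset.card_range]
  rw [hρ g hg, Matrix.zero_mul] at h2
  ext i j
  have h3 := congrFun (congrFun h2 i) j
  rw [Matrix.zero_apply, Matrix.smul_apply, nsmul_eq_mul] at h3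
  rcases mul_eq_zero.mp h3.symm with h4 | h4
  · exact absurd h4 hK
  · exact h4

theorem fpf_of_nz_right {G : Type*} [Group G] {K : Type*} [Field K] {m n : ℕ}
    (ρ : G →* Matrix (Fin n) (Fin n) K) (hρ : NZ ρ) (g : G) (hg : g ≠ 1)
    (hK : ((orderOf g : ℕ) : K) ≠ 0) (X : Matrix (Fin m) (Fin n) K) (hX : X * ρ g = X) : X = 0 := by
  have h1 : ∀ i : ℕ, X * ρ g ^ i = X := by
    intro i
    induction i with
    | zero => rw [pow_zero, Matrix.mul_one]
    | succ i ih => rw [pow_succ', ← Matrix.mul_assoc, hX, ih]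
  have h2 : X * (∑ i ∈ Finset.range (orderOf g), ρ g ^ i) = (orderOf g) • X := by
    rw [Matrix.mul_sum, Finset.sum_congr rfl (fun i _ => h1 i), Finset.sum_const,
      Finset.card_range]
  rw [hρ g hg, Matrix.mul_zero] at h2
  ext i j
  have h3 := congrFun (congrFun h2 i) j
  rw [Matrix.zero_apply, Matrix.smul_apply, nsmul_eq_mul] at h3
  rcases mul_eq_zero.mp h3.symm with h4 | h4
  · exact absurd h4 hK
  · exact h4

end Cfsg.Agent.Lib.Helper95.FpfC
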