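import Mathlib
import Cfsg.Agent.Lib.Helper12.FpfLin

namespace Cfsg.Agent.Lib.Helper95.HupP7

theorem card_sub_modEq {p : ℕ} [Fact p.Prime] {V : Type*} [AddCommGroup V] [Module (ZMod p) V]
    [Finite V] (X : V ≃ₗ[ZMod p] V) (ℓ : ℕ) (hℓ : ℓ.Prime) (hX : X ^ ℓ = 1)
    (W : Submodule (ZMod p) V) (hW : ∀ w ∈ W, X w ∈ W) :
    Nat.card W ≡ Nat.card (W ⊓ LinearMap.ker ((X : V →ₗ[ZMod p] V) - 1) :
      Submodule (ZMod p) V) [MOD ℓ] := by
  classical
  have : Fact ℓ.Prime := ⟨hℓ⟩
  letI := Fintype.ofFinite W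
  let f : Function.End W := fun w => ⟨X w, hW w w.2⟩
  have hpow : ∀ k : ℕ, ∀ w : W, (((f ^ k) w : W) : V) = (X ^ k) w := by
    intro k
    induction k with
    | zero => intro w; rfl
    | succ k ih =>
      intro w
      rw [pow_succ, pow_succ]
      exact ih (f w)
  have hf : f ^ ℓ ^ 1 = 1 := by
    rw [pow_one]
    funext w
    apply Subtype.ext
    rw [hpow, hX]
    rfl
  have h := Equiv.Perm.card_fixedPoints_modEq hf
  rw [← Nat.card_eq_fintype_card, ← Nat.card_eq_fintype_card] at h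
  have e : ↥(Function.fixedPoints f) ≃
      (W ⊓ LinearMap.ker ((X : V →ₗ[ZMod p] V) - 1) : Submodule (ZMod p) V) :=
    { toFun := fun w => ⟨w.1.1, w.1.2, by
        have h1 : f w.1 = w.1 := w.2
        have h2 : X (w.1 : V) = w.1 := congrArg Subtype.val h1
        change (w.1 : V) ∈ LinearMap.ker ((X : V →ₗ[ZMod p] V) - 1)
        simp [h2]⟩
      invFun := fun v => ⟨⟨v.1, v.2.1⟩, by
        have h1 : (v : V) ∈ LinearMap.ker ((X : V →ₗ[ZMod p] V) - 1) := v.2.2
        simp only [LinearMap.mem_ker, LinearMap.sub_apply, LinearEquiv.coe_coe,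
          Module.End.one_apply, sub_eq_zero] at h1
        exact Subtype.ext h1⟩
      left_inv := fun w => rfl
      right_inv := fun v => rfl }
  rw [Nat.card_congr e] at h
  exact h

theorem comm_of_ppd {p : ℕ} [Fact p.Prime] {V : Type*} [AddCommGroup V] [Module (ZMod p) V]
    [Finite V] {G : Type*} [Group G] (ρ : G →* (V ≃ₗ[ZMod p] V)) (hinj : Function.Injective ρ)
    (n ℓ : ℕ) (hℓ : ℓ.Prime) (hV : Nat.card V = p ^ n) (hdvd : ℓ ∣ p ^ n - 1)
    (hprim : ∀ k, 0 < k → k < n → ¬ ℓ ∣ p ^ k - 1) (x : G) (hx : x ^ ℓ = 1) (hx1 : x ≠ 1) :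
    ∀ a b : G, a * x = x * a → b * x = x * b → a * b = b * a := by
  intro a b ha hb
  classical
  have hp : p.Prime := Fact.out
  have hXℓ : (ρ x) ^ ℓ = 1 := by rw [← map_pow, hx, map_one]
  have hX1 : ρ x ≠ 1 := fun h => hx1 (hinj (by rw [h, map_one]))
  have hcardK : Nat.card (ZMod p) = p := Nat.card_zmod p
  have hcardsub : ∀ W : Submodule (ZMod p) V, Nat.card W = p ^ Module.finrank (ZMod p) W := by
    intro W
    letI := Fintype.ofFinite W
    rw [Nat.card_eq_fintype_card, Module.card_eq_pow_finrank (K := ZMod p) (V := W), ZMod.card]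
  have hfrV : Module.finrank (ZMod p) V = n := by
    letI := Fintype.ofFinite V
    have h1 : Nat.card V = p ^ Module.finrank (ZMod p) V := by
      rw [Nat.card_eq_fintype_card, Module.card_eq_pow_finrank (K := ZMod p) (V := V), ZMod.card]
    rw [hV] at h1
    exact (Nat.pow_right_injective hp.two_le h1).symm
  have hfrle : ∀ W : Submodule (ZMod p) V, Module.finrank (ZMod p) W ≤ n := by
    intro W; rw [← hfrV]; exact Submodule.finrank_le W
  -- n ≥ 1
  have hn : 1 ≤ n := by
    by_contra hn0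
    have hn0' : n = 0 := by omega
    rw [hn0', pow_zero] at hV
    have hsub : Subsingleton V := (Nat.card_eq_one_iff_unique.mp hV).1
    exact hX1 (LinearEquiv.ext fun v => Subsingleton.elim _ _)
  have hℓp : ℓ ≠ p := by
    intro h
    rw [h] at hdvd
    have h1 : p ∣ p ^ n := dvd_pow_self p (by omega)
    have h2 : 1 ≤ p ^ n := Nat.one_le_pow _ _ hp.pos
    have h3 : p ∣ 1 := by
      have : p ^ n - (p ^ n - 1) = 1 := by omega
      rw [← this]
      exact Nat.dvd_sub h1 hdvd
    exact hp.one_lt.ne' (Nat.dvd_one.mp h3)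
  have hℓpow : ∀ j, ¬ ℓ ∣ p ^ j := by
    intro j h
    exact hℓp ((Nat.prime_dvd_prime_iff_eq hℓ hp).mp (hℓ.dvd_of_dvd_pow h))
  -- fixed space is trivial
  have hF : LinearMap.ker (((ρ x) : V →ₗ[ZMod p] V) - 1) = ⊥ := by
    have h := card_sub_modEq (ρ x) ℓ hℓ hXℓ ⊤ (fun w _ => trivial)
    rw [top_inf_eq, hcardsub, hcardsub] at h
    rw [finrank_top, hfrV] at h
    set j := Module.finrank (ZMod p) (LinearMap.ker (((ρ x) : V →ₗ[ZMod p] V) - 1)) with hj
    have hjn : j ≤ n := hfrle _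
    rcases Nat.eq_zero_or_pos j with hj0 | hjpos
    · exact Submodule.finrank_eq_zero.mp hj0
    · exfalso
      rcases Nat.lt_or_ge j n with hlt | hge
      · have h1 : ℓ ∣ p ^ n - p ^ j :=
          (Nat.modEq_iff_dvd' (Nat.pow_le_pow_right hp.pos hjn)).mp h.symm
        have h2 : p ^ n - p ^ j = p ^ j * (p ^ (n - j) - 1) := by
          rw [Nat.mul_sub, mul_one, ← pow_add]
          congr 2; omega
        rw [h2] at h1
        rcases (Nat.Prime.dvd_mul hℓ).mp h1 with h3 | h3
        · exact hℓpow j h3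
        · exact hprim (n - j) (by omega) (by omega) h3
      · have hjeq : j = n := le_antisymm hjn hge
        have htop : LinearMap.ker (((ρ x) : V →ₗ[ZMod p] V) - 1) = ⊤ :=
          Submodule.eq_top_of_finrank_eq (by rw [← hj, hjeq, hfrV])
        apply hX1
        apply LinearEquiv.ext
        intro v
        have hv : v ∈ LinearMap.ker (((ρ x) : V →ₗ[ZMod p] V) - 1) := by rw [htop]; trivial
        simpa [sub_eq_zero] using hv
  -- irreducibility
  have hirrX : ∀ W : Submodule (ZMod p) V, (∀ w ∈ W, ρ x w ∈ W) → W = ⊥ ∨ W = ⊤ := by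
    intro W hW
    have h := card_sub_modEq (ρ x) ℓ hℓ hXℓ W hW
    rw [hF, inf_bot_eq, hcardsub, hcardsub, finrank_bot, pow_zero] at h
    set k := Module.finrank (ZMod p) W with hk
    have hkn : k ≤ n := hfrle _
    rcases Nat.eq_zero_or_pos k with hk0 | hkpos
    · left; exact Submodule.finrank_eq_zero.mp hk0
    · right
      have h1 : ℓ ∣ p ^ k - 1 := (Nat.modEq_iff_dvd' (Nat.one_le_pow _ _ hp.pos)).mp h.symm
      rcases Nat.lt_or_ge k n with hlt | hge
      · exact absurd h1 (hprim k hkpos hlt)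
      · exact Submodule.eq_top_of_finrank_eq (by rw [← hk, le_antisymm hkn hge, hfrV])
  have hnt : Nontrivial V := by
    by_contra hnt
    rw [not_nontrivial_iff_subsingleton] at hnt
    exact hX1 (LinearEquiv.ext fun v => Subsingleton.elim _ _)
  let r : Subgroup.zpowers x →* Module.End (ZMod p) V :=
    (LinearEquiv.automorphismGroup.toLinearMapMonoidHom).comp
      (ρ.comp (Subgroup.zpowers x).subtype)
  have hr : ∀ (m : Subgroup.zpowers x) (v : V), r m v = ρ (m : G) v := fun m v => rfl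
  have hirr : ∀ W : Submodule (ZMod p) V, (∀ m : Subgroup.zpowers x, ∀ w ∈ W, r m w ∈ W) →
      W = ⊥ ∨ W = ⊤ := by
    intro W hW
    apply hirrX W
    intro w hw
    exact hW ⟨x, Subgroup.mem_zpowers x⟩ w hw
  have hcomm : ∀ c : G, c * x = x * c → ∀ m : Subgroup.zpowers x,
      ((ρ c : V ≃ₗ[ZMod p] V) : Module.End (ZMod p) V) * r m =
        r m * ((ρ c : V ≃ₗ[ZMod p] V) : Module.End (ZMod p) V) := by
    intro c hc m
    obtain ⟨m, hm⟩ := m
    obtain ⟨k, rfl⟩ := Subgroup.mem_zpowers_iff.mp hm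
    have h1 : Commute c x := hc
    have h2 : c * x ^ k = x ^ k * c := (h1.zpow_right k).eq
    ext v
    simp only [Module.End.mul_apply, LinearEquiv.coe_coe, hr]
    rw [← LinearEquiv.mul_apply, ← LinearEquiv.mul_apply, ← map_mul, ← map_mul, h2]
  have hfin := Cfsg.Agent.Lib.Helper12.FpfLin.commutant_comm r hirr
    ((ρ a : V ≃ₗ[ZMod p] V) : Module.End (ZMod p) V)
    ((ρ b : V ≃ₗ[ZMod p] V) : Module.End (ZMod p) V) (hcomm a ha) (hcomm b hb)
  apply hinj
  apply LinearEquiv.ext
  intro v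
  have h3 := congrArg (fun T : Module.End (ZMod p) V => T v) hfin
  simp only [Module.End.mul_apply, LinearEquiv.coe_coe] at h3
  rw [map_mul, map_mul, LinearEquiv.mul_apply, LinearEquiv.mul_apply]
  exact h3

end Cfsg.Agent.Lib.Helper95.HupP7
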