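import Mathlib
import Cfsg.Agent.Lib.Helper95.JQuad

set_option autoImplicit false

namespace Cfsg.Agent.Lib.Helper95.JQuad2

open Module Matrix Cfsg.Agent.Lib.Helper95.NilJordan Cfsg.Agent.Lib.Helper95.JType
  Cfsg.Agent.Lib.Helper95.JAsm Cfsg.Agent.Lib.Helper95.JQuad

universe u

variable {F : Type u} [Field F]

/-! ### a single block of even size on a hyperbolic space, characteristic 2 -/

section char2

/-- the "reflection" `p ↦ p + (x₀ + y₀) (e₀, e₀)` -/
noncomputable def refl0 (F : Type u) [Field F] (j : ℕ) (hj : 0 < j) :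
    Module.End F ((Fin j → F) × (Fin j → F)) :=
  1 + (LinearMap.toSpanSingleton F ((Fin j → F) × (Fin j → F))
      ((Pi.single (⟨0, hj⟩ : Fin j) (1 : F), Pi.single (⟨0, hj⟩ : Fin j) (1 : F)))).comp
    ((LinearMap.proj (⟨0, hj⟩ : Fin j)).comp (LinearMap.fst F _ _) +
      (LinearMap.proj (⟨0, hj⟩ : Fin j)).comp (LinearMap.snd F _ _))

variable (j : ℕ) (hj : 0 < j)

theorem refl0_apply (p : (Fin j → F) × (Fin j → F)) :
    refl0 F j hj p =
      (p.1 + (p.1 ⟨0, hj⟩ + p.2 ⟨0, hj⟩) • Pi.single (⟨0, hj⟩ : Fin j) (1 : F),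
        p.2 + (p.1 ⟨0, hj⟩ + p.2 ⟨0, hj⟩) • Pi.single (⟨0, hj⟩ : Fin j) (1 : F)) := rfl

theorem refl0_isomQ [CharP F 2] (p : (Fin j → F) × (Fin j → F)) :
    hypQ F j (refl0 F j hj p) = hypQ F j p := by
  rw [hypQ_apply, hypQ_apply, refl0_apply]
  simp only [add_dotProduct, dotProduct_add, smul_dotProduct, dotProduct_smul, single_dotProduct,
    dotProduct_single, one_mul, mul_one, smul_eq_mul, Pi.single_eq_same, Pi.add_apply,
    Pi.smul_apply]
  linear_combination ((p.1 ⟨0, hj⟩ + p.2 ⟨0, hj⟩) ^ 2) * (CharTwo.two_eq_zero (R := F))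

/-- the single-block element -/
noncomputable def gsq (F : Type u) [Field F] (j : ℕ) (hj : 0 < j) :
    Module.End F ((Fin j → F) × (Fin j → F)) := gpair F j * refl0 F j hj

theorem gsq_isomQ [CharP F 2] (p : (Fin j → F) × (Fin j → F)) :
    hypQ F j (gsq F j hj p) = hypQ F j p := by
  rw [gsq, Module.End.mul_apply, gpair_isomQ, refl0_isomQ]

theorem sht_single_zero : sht F j (Pi.single (⟨0, hj⟩ : Fin j) (1 : F)) = 0 := by
  funext i
  rw [sht_apply]
  split_ifs with h
  · rw [Pi.single_eq_of_ne]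
    · rfl
    · intro hh
      have := congrArg Fin.val hh
      simp only at this
      omega
  · rfl

theorem wv_single_zero : wv F j (Pi.single (⟨0, hj⟩ : Fin j) (1 : F)) =
    Pi.single (⟨0, hj⟩ : Fin j) (1 : F) :=
  (wv_fixed_iff j _).mpr (sht_single_zero j hj)

theorem gsq_sub_one_apply (p : (Fin j → F) × (Fin j → F)) :
    (gsq F j hj - 1) p =
      (sh F j p.1 + (p.1 ⟨0, hj⟩ + p.2 ⟨0, hj⟩) •
          (Pi.single (⟨0, hj⟩ : Fin j) (1 : F) + sh F j (Pi.single (⟨0, hj⟩ : Fin j) (1 : F))),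
        (wv F j - 1) p.2 + (p.1 ⟨0, hj⟩ + p.2 ⟨0, hj⟩) • Pi.single (⟨0, hj⟩ : Fin j) (1 : F)) := by
  rw [LinearMap.sub_apply, gsq, Module.End.mul_apply, refl0_apply, gpair_apply,
    Module.End.one_apply]
  apply Prod.ext
  · simp only [Prod.fst_sub, map_add, map_smul, smul_add]
    abel
  · simp only [Prod.snd_sub, map_add, map_smul, LinearMap.sub_apply, Module.End.one_apply,
      wv_single_zero j hj]
    abel

theorem sh_apply_zero (x : Fin j → F) : sh F j x ⟨0, hj⟩ = 0 := by
  rw [sh_apply, dif_neg (by simp)]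

/-- the projection to the top quotient -/
noncomputable def piq (p : (Fin j → F) × (Fin j → F)) : Fin j → F :=
  p.2 - p.1 ⟨0, hj⟩ • Pi.single (⟨0, hj⟩ : Fin j) (1 : F)

theorem piq_N (p : (Fin j → F) × (Fin j → F)) :
    piq j hj ((gsq F j hj - 1) p) = (wv F j - 1) (piq j hj p) := by
  rw [gsq_sub_one_apply]
  unfold piq
  simp only [Pi.add_apply, Pi.smul_apply, sh_apply_zero, Pi.single_eq_same, smul_eq_mul, mul_one,
    zero_add, add_zero, map_sub, map_smul, LinearMap.sub_apply, Module.End.one_apply,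
    wv_single_zero j hj, sub_self, smul_zero, sub_zero]
  abel

theorem piq_N_pow (k : ℕ) (p : (Fin j → F) × (Fin j → F)) :
    piq j hj (((gsq F j hj - 1) ^ k) p) = ((wv F j - 1) ^ k) (piq j hj p) := by
  induction k generalizing p with
  | zero => simp
  | succ k ih =>
    rw [pow_succ, Module.End.mul_apply, ih, piq_N, pow_succ, Module.End.mul_apply]

theorem N_of_ker [CharP F 2] (x : Fin j → F) :
    (gsq F j hj - 1) (x, x ⟨0, hj⟩ • Pi.single (⟨0, hj⟩ : Fin j) (1 : F)) = (sh F j x, 0) := by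
  rw [gsq_sub_one_apply]
  have hc : x ⟨0, hj⟩ + (x ⟨0, hj⟩ • Pi.single (⟨0, hj⟩ : Fin j) (1 : F)) ⟨0, hj⟩ = 0 := by
    rw [Pi.smul_apply, Pi.single_eq_same, smul_eq_mul, mul_one]
    exact CharTwo.add_self_eq_zero _
  simp only [hc, zero_smul, add_zero, map_smul, LinearMap.sub_apply, Module.End.one_apply,
    wv_single_zero j hj, sub_self, smul_zero]

theorem N_pow_W1 (k : ℕ) (x : Fin j → F) (hx : x ⟨0, hj⟩ = 0) :
    ((gsq F j hj - 1) ^ k) (x, 0) = (((sh F j) ^ k) x, 0) := by
  induction k generalizing x with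
  | zero => simp
  | succ k ih =>
    have h1 : (gsq F j hj - 1) (x, 0) = (sh F j x, 0) := by
      rw [gsq_sub_one_apply]
      simp only [hx, Pi.zero_apply, add_zero, zero_smul, map_zero]
    rw [pow_succ, Module.End.mul_apply, h1, ih _ (sh_apply_zero j hj x), pow_succ,
      Module.End.mul_apply]

theorem isNilpotent_gsq [CharP F 2] : IsNilpotent (gsq F j hj - 1) := by
  obtain ⟨m, hm⟩ := isNilpotent_wv_sub_one (F := F) j
  refine ⟨j + (1 + m), ?_⟩
  apply LinearMap.ext
  intro p
  rw [pow_add, pow_add, pow_one, Module.End.mul_apply, Module.End.mul_apply]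
  have h1 := piq_N_pow j hj m p
  rw [hm] at h1
  have h2 : ((gsq F j hj - 1) ^ m) p = ((((gsq F j hj - 1) ^ m) p).1,
      (((gsq F j hj - 1) ^ m) p).1 ⟨0, hj⟩ • Pi.single (⟨0, hj⟩ : Fin j) (1 : F)) := by
    apply Prod.ext
    · rfl
    · unfold piq at h1
      exact sub_eq_zero.mp h1
  rw [h2, N_of_ker, N_pow_W1 j hj j _ (sh_apply_zero j hj _), sh_pow_self]
  rfl

theorem ker_gsq :
    LinearMap.ker (gsq F j hj - 1) =
      Submodule.span F {((Pi.single (⟨j - 1, by omega⟩ : Fin j) (1 : F),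
        (-(Pi.single (⟨j - 1, by omega⟩ : Fin j) (1 : F) : Fin j → F) ⟨0, hj⟩) •
          Pi.single (⟨0, hj⟩ : Fin j) (1 : F)) : (Fin j → F) × (Fin j → F))} := by
  apply le_antisymm
  · rintro ⟨x, y⟩ hp
    rw [LinearMap.mem_ker, gsq_sub_one_apply] at hp
    have hp1 := congrArg Prod.fst hp
    have hp2 := congrArg Prod.snd hp
    simp only [Prod.fst_zero, Prod.snd_zero] at hp1 hp2
    have hc : x ⟨0, hj⟩ + y ⟨0, hj⟩ = 0 := by
      have h0 := congrFun hp1 ⟨0, hj⟩
      simpa [sh_apply_zero] using h0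
    rw [hc, zero_smul, add_zero] at hp1 hp2
    have hy1 : sht F j y = 0 := (wv_fixed_iff j y).mp (sub_eq_zero.mp hp2)
    have hy : ∀ i : Fin j, (i : ℕ) ≠ 0 → y i = 0 := by
      intro i hi
      have h1 := congrFun hy1 ⟨(i : ℕ) - 1, by omega⟩
      rw [sht_apply, dif_pos (by simp only; omega)] at h1
      have e : (⟨(i : ℕ) - 1 + 1, by omega⟩ : Fin j) = i := by
        apply Fin.ext
        show (i : ℕ) - 1 + 1 = (i : ℕ)
        omega
      rw [e] at h1
      exact h1
    have hx' : ∀ i : Fin j, (i : ℕ) + 1 < j → x i = 0 := by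
      intro i hi
      have h1 := congrFun hp1 ⟨(i : ℕ) + 1, hi⟩
      rw [sh_apply, dif_pos (by simp)] at h1
      simpa using h1
    have hxe : x = x ⟨j - 1, by omega⟩ • Pi.single (⟨j - 1, by omega⟩ : Fin j) (1 : F) := by
      funext i
      simp only [Pi.smul_apply, smul_eq_mul]
      by_cases hi : (i : ℕ) + 1 < j
      · rw [hx' i hi, Pi.single_eq_of_ne, mul_zero]
        intro hh
        have := congrArg Fin.val hh
        simp only at this
        omega
      · have : i = ⟨j - 1, by omega⟩ := by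
          apply Fin.ext
          simp only
          have := i.2
          omega
        rw [this, Pi.single_eq_same, mul_one]
    rw [Submodule.mem_span_singleton]
    refine ⟨x ⟨j - 1, by omega⟩, ?_⟩
    apply Prod.ext
    · exact hxe.symm
    · funext i
      simp only [Prod.smul_snd, Pi.smul_apply, smul_eq_mul]
      by_cases hi : (i : ℕ) = 0
      · have hi' : i = ⟨0, hj⟩ := Fin.ext hi
        rw [hi', Pi.single_eq_same, mul_one]
        have h3 := congrFun hxe ⟨0, hj⟩
        simp only [Pi.smul_apply, smul_eq_mul] at h3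
        rw [mul_neg, ← h3]
        exact (eq_neg_of_add_eq_zero_right hc).symm
      · have h5 : (Pi.single (⟨0, hj⟩ : Fin j) (1 : F) : Fin j → F) i = 0 :=
          Pi.single_eq_of_ne (fun hh => hi (congrArg Fin.val hh)) _
        rw [hy i hi, h5, mul_zero, mul_zero]
  · rw [Submodule.span_singleton_le_iff_mem, LinearMap.mem_ker, gsq_sub_one_apply]
    simp only [map_smul, LinearMap.sub_apply, Module.End.one_apply, wv_single_zero j hj, sub_self,
      smul_zero, Pi.smul_apply, Pi.single_eq_same, smul_eq_mul, mul_one, add_neg_cancel,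
      zero_smul, add_zero, sh_single_last j hj]
    rfl

theorem rk_gsq [CharP F 2] (i : ℕ) : rk (gsq F j hj - 1) i = (j + j) - i := by
  have hker : finrank F (LinearMap.ker (gsq F j hj - 1)) = 1 := by
    rw [ker_gsq]
    apply finrank_span_singleton
    intro hh
    have h1 := congrFun (congrArg Prod.fst hh) ⟨j - 1, by omega⟩
    simp at h1
  rw [rk_of_ker_one _ (isNilpotent_gsq j hj) hker, Module.finrank_prod, Module.finrank_fin_fun]

theorem goodQ_single_even [CharP F 2] (hj' : 0 < j) : GoodQ F (fun i => (j + j) - i) :=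
  ⟨_, inferInstance, inferInstance, inferInstance, hypQ F j, gsq F j hj', hypQ_sep j,
    gsq_isomQ j hj', isNilpotent_gsq j hj', rk_gsq j hj'⟩

end char2

/-- every Jordan type whose odd parts have even multiplicity is realised by a unipotent isometry
of a quadratic form with nondegenerate polar form, in characteristic 2 -/
theorem goodQ_of_parity_char2 [CharP F 2] {κ : Type*} [Fintype κ] [DecidableEq κ]
    (d : κ → ℕ) (hd : ∀ k, 0 < d k)
    (hpar : ∀ j : ℕ, Odd j → Even (Finset.univ.filter (fun k => d k = j)).card) :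
    GoodQ F (fun i => ∑ k, (d k - i)) := by
  refine assemble (GoodQ F) Even goodQ_zero goodQ_add (fun j _ => goodQ_pair j) ?_ d
    Finset.univ (fun k _ => hd k) (fun j hj => hpar j (Nat.not_even_iff_odd.mp hj))
  rintro j hj ⟨c, rfl⟩
  exact goodQ_single_even c (by omega)

end Cfsg.Agent.Lib.Helper95.JQuad2
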