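import Mathlib
import Cfsg.Agent.Lib.Helper27.JzStmt

/-!
helper95: S5403 piece SISO: the centraliser of the image of `t` in the quotient by the central
subgroup `Z0`, modulo the image of `Q`, is the image of `ψ` (adapted from
`Cfsg.Agent.Lib.Helper2.OzTISO`).
-/

set_option autoImplicit false

namespace Cfsg.Agent.Lib.Helper95.JzSISO

open Cfsg Cfsg.Agent.Lib.Helper27.OzStmt Cfsg.Agent.Lib.Helper27.JzStmt

theorem main : SIso := by
  intro M _ _ Z0 _ t Q X _ c ψ hψ hker hN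
  have := hN
  classical
  -- `mk g` centralizes `mk t` iff `g` centralizes `t`
  have hCb : ∀ g : M, QuotientGroup.mk' Z0 g ∈ Cb M Z0 t → g * t = t * g := by
    intro g h
    rw [Subgroup.mem_centralizer_iff] at h
    have h1 := h (zb M Z0 t) rfl
    have h2 : QuotientGroup.mk' Z0 (t * g) = QuotientGroup.mk' Z0 (g * t) := by
      rw [map_mul, map_mul]; exact h1
    have h3 : (t * g)⁻¹ * (g * t) ∈ Z0 := by
      rw [QuotientGroup.mk'_apply, QuotientGroup.mk'_apply, QuotientGroup.eq] at h2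
      exact h2
    apply c.nofus g
    have e : g * t * g⁻¹ * t⁻¹ = (t * g) * ((t * g)⁻¹ * (g * t)) * (t * g)⁻¹ := by group
    rw [e, ← c.central _ h3 (t * g), mul_inv_cancel_right]
    exact h3
  have hmem : ∀ g : ↥(Subgroup.centralizer ({t} : Set M)),
      ((QuotientGroup.mk' Z0).comp (Subgroup.subtype _)) g ∈ Cb M Z0 t := by
    intro g
    rw [Subgroup.mem_centralizer_iff]
    intro h hh
    rw [Set.mem_singleton_iff] at hh
    rw [hh]
    have hg := Subgroup.mem_centralizer_iff.1 g.2 t (Set.mem_singleton t)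
    show QuotientGroup.mk' Z0 t * QuotientGroup.mk' Z0 (g : M) =
      QuotientGroup.mk' Z0 (g : M) * QuotientGroup.mk' Z0 t
    rw [← map_mul, ← map_mul, hg]
  let ψ0 : ↥(Subgroup.centralizer ({t} : Set M)) →* ↥(Cb M Z0 t) :=
    ((QuotientGroup.mk' Z0).comp (Subgroup.subtype _)).codRestrict (Cb M Z0 t) hmem
  let Ψ : ↥(Subgroup.centralizer ({t} : Set M)) →* ↥(Cb M Z0 t) ⧸ Qb M Z0 t Q :=
    (QuotientGroup.mk' (Qb M Z0 t Q)).comp ψ0
  have hsurj : Function.Surjective Ψ := by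
    intro y
    obtain ⟨x, rfl⟩ := QuotientGroup.mk_surjective y
    obtain ⟨xb, hxb⟩ := x
    obtain ⟨g, rfl⟩ := QuotientGroup.mk_surjective xb
    have hg : g ∈ Subgroup.centralizer ({t} : Set M) := by
      rw [Subgroup.mem_centralizer_iff]
      intro h hh
      rw [Set.mem_singleton_iff] at hh
      rw [hh]
      exact (hCb g hxb).symm
    exact ⟨⟨g, hg⟩, rfl⟩
  have hkerΨ : Ψ.ker = ψ.ker := by
    ext g
    rw [MonoidHom.mem_ker, MonoidHom.mem_ker, hker g]
    show (QuotientGroup.mk' (Qb M Z0 t Q)) (ψ0 g) = 1 ↔ _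
    rw [QuotientGroup.mk'_apply, QuotientGroup.eq_one_iff]
    show QuotientGroup.mk' Z0 (g : M) ∈ Q.map (QuotientGroup.mk' Z0) ↔ _
    rw [Subgroup.mem_map]
    constructor
    · rintro ⟨k, hk, hkg⟩
      have h3 : k⁻¹ * (g : M) ∈ Z0 := by
        rw [QuotientGroup.mk'_apply, QuotientGroup.mk'_apply, QuotientGroup.eq] at hkg
        exact hkg
      exact ⟨k, hk, k⁻¹ * (g : M), h3, by group⟩
    · rintro ⟨q, hq, z, hz, hgz⟩
      refine ⟨q, hq, ?_⟩
      rw [hgz, map_mul]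
      have hz1 : QuotientGroup.mk' Z0 z = 1 := by
        rw [QuotientGroup.mk'_apply, QuotientGroup.eq_one_iff]; exact hz
      rw [hz1, mul_one]
  have e1 : ↥(Subgroup.centralizer ({t} : Set M)) ⧸ Ψ.ker ≃* ↥(Cb M Z0 t) ⧸ Qb M Z0 t Q :=
    QuotientGroup.quotientKerEquivOfSurjective Ψ hsurj
  have e2 : ↥(Subgroup.centralizer ({t} : Set M)) ⧸ ψ.ker ≃* X :=
    QuotientGroup.quotientKerEquivOfSurjective ψ hψ
  have e3 : ↥(Subgroup.centralizer ({t} : Set M)) ⧸ Ψ.ker ≃*
      ↥(Subgroup.centralizer ({t} : Set M)) ⧸ ψ.ker :=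
    QuotientGroup.quotientMulEquivOfEq hkerΨ
  exact ⟨e1.symm.trans (e3.trans e2)⟩

end Cfsg.Agent.Lib.Helper95.JzSISO
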