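import Mathlib
import Cfsg.Agent.Lib.Helper27.JzStmt

/-!
helper95: S5403 piece SWIT: the two witnesses pass to the quotient by the central subgroup `Z0`
(adapted from `Cfsg.Agent.Lib.Helper67.OzTWIT`).
-/

set_option autoImplicit false

namespace Cfsg.Agent.Lib.Helper95.JzSWIT

open Cfsg Cfsg.Agent.Lib.Helper27.OzStmt Cfsg.Agent.Lib.Helper27.JzStmt

section

variable {M : Type} [Group M] {Z0 : Subgroup M} [Z0.Normal] {t : M} {Q : Subgroup M}

/-- Equal images modulo `Z0`. -/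
theorem mk_eq_iff (x y : M) :
    QuotientGroup.mk' Z0 x = QuotientGroup.mk' Z0 y ↔ x⁻¹ * y ∈ Z0 := by
  rw [QuotientGroup.mk'_apply, QuotientGroup.mk'_apply, QuotientGroup.eq]

/-- The image of `g` centralizes the image of `t` iff `g` centralizes `t`. -/
theorem mem_Cb_iff (c : SCtx M Z0 t Q) (g : M) :
    QuotientGroup.mk' Z0 g ∈ Cb M Z0 t ↔ g * t = t * g := by
  rw [Subgroup.mem_centralizer_iff]
  constructor
  · intro h
    have h1 := h (zb M Z0 t) rfl
    have h2 : QuotientGroup.mk' Z0 (t * g) = QuotientGroup.mk' Z0 (g * t) := by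
      rw [map_mul, map_mul]; exact h1
    have h3 := (mk_eq_iff _ _).mp h2
    apply c.nofus g
    have e : g * t * g⁻¹ * t⁻¹ = (t * g) * ((t * g)⁻¹ * (g * t)) * (t * g)⁻¹ := by group
    rw [e, ← c.central _ h3 (t * g), mul_inv_cancel_right]
    exact h3
  · intro h x hx
    rw [Set.mem_singleton_iff] at hx
    rw [hx]
    show QuotientGroup.mk' Z0 t * QuotientGroup.mk' Z0 g =
      QuotientGroup.mk' Z0 g * QuotientGroup.mk' Z0 t
    rw [← map_mul, ← map_mul, h]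

/-- Two elements of `Q` with the same image are equal. -/
theorem eq_of_mk_eq_of_mem (c : SCtx M Z0 t Q) (x y : M) (hx : x ∈ Q) (hy : y ∈ Q)
    (h : QuotientGroup.mk' Z0 x = QuotientGroup.mk' Z0 y) : y = x := by
  have h1 := (mk_eq_iff _ _).mp h
  have h2 := c.Q_meet _ (Q.mul_mem (Q.inv_mem hx) hy) h1
  exact (inv_mul_eq_one.mp h2).symm

theorem mem_Qb_iff (x : ↥(Cb M Z0 t)) :
    x ∈ Qb M Z0 t Q ↔ (x : M ⧸ Z0) ∈ Q.map (QuotientGroup.mk' Z0) :=
  Iff.rfl

end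

theorem main : SWit := by
  intro M _ _ Z0 _ t Q c hw1 hw2
  constructor
  · obtain ⟨g, hgt, k, hk, k', hk', hne⟩ := hw1
    have hgC := (mem_Cb_iff c g).mpr hgt
    have hkC := (mem_Cb_iff c k).mpr (c.Q_comm k hk)
    have hk'C := (mem_Cb_iff c k').mpr (c.Q_comm k' hk')
    refine ⟨⟨_, hgC⟩, ⟨_, hkC⟩, ?_, ⟨_, hk'C⟩, ?_, ?_⟩
    · rw [mem_Qb_iff]; exact Subgroup.mem_map_of_mem _ hk
    · rw [mem_Qb_iff]; exact Subgroup.mem_map_of_mem _ hk'
    · intro heq
      apply hne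
      have h1 := congrArg (fun x : ↥(Cb M Z0 t) => (x : M ⧸ Z0)) heq
      have h2 : QuotientGroup.mk' Z0 ((g * k * g⁻¹ * k⁻¹) * k') =
          QuotientGroup.mk' Z0 (k' * (g * k * g⁻¹ * k⁻¹)) := by
        simp only [map_mul, map_inv]
        exact h1
      have hcK : g * k * g⁻¹ * k⁻¹ ∈ Q := Q.mul_mem (c.Q_norm g hgt k hk) (Q.inv_mem hk)
      exact (eq_of_mk_eq_of_mem c _ _ (Q.mul_mem hcK hk') (Q.mul_mem hk' hcK) h2).symm
  · obtain ⟨g, q, hq, z, hz, hgq, hqt⟩ := hw2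
    have hz1 : QuotientGroup.mk' Z0 z = 1 := by
      rw [QuotientGroup.mk'_apply, QuotientGroup.eq_one_iff]; exact hz
    have e : QuotientGroup.mk' Z0 g * zb M Z0 t * (QuotientGroup.mk' Z0 g)⁻¹ =
        QuotientGroup.mk' Z0 q := by
      have h0 : QuotientGroup.mk' Z0 (g * t * g⁻¹) = QuotientGroup.mk' Z0 (q * z) := by rw [hgq]
      rw [map_mul, map_mul, map_inv, map_mul, hz1, mul_one] at h0
      exact h0
    refine ⟨QuotientGroup.mk' Z0 g, ⟨?_, ?_⟩, ?_⟩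
    · rw [e]
      exact (mem_Cb_iff c _).mpr (c.Q_comm _ hq)
    · rw [mem_Qb_iff]
      show QuotientGroup.mk' Z0 g * zb M Z0 t * (QuotientGroup.mk' Z0 g)⁻¹ ∈ _
      rw [e]
      exact Subgroup.mem_map_of_mem _ hq
    · intro heq
      rw [e] at heq
      have h1 : QuotientGroup.mk' Z0 q = QuotientGroup.mk' Z0 t := heq
      exact hqt (eq_of_mk_eq_of_mem c q t hq c.t_mem h1).symm

end Cfsg.Agent.Lib.Helper95.JzSWIT
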