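import Mathlib
import Cfsg.Agent.Lib.Helper41.OMStmt
import Cfsg.Agent.Lib.Helper38.OrtSINGERC
import Cfsg.Agent.Lib.Helper40.RecipPoly
import Cfsg.Agent.S2568

/-!
helper95: S5978 piece MELTEVEN: the element of order `r` (`i` even, `i + 2 ≤ 2 d`) with an
invariant symmetric form of discriminant `(-1)^d ν`.  This is `Cfsg.Agent.Lib.Helper38.OFELTEVEN1`
(helper38) with the free diagonal entry `δ` chosen as `(-1)^d ν / det N`.
-/

set_option autoImplicit false

namespace Cfsg.Agent.Lib.Helper95.OMMELTEVEN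

open Matrix Polynomial UniqueFactorizationMonoid

universe u

/-- powers of a block-diagonal matrix `diag(A, 1)` -/
theorem fromBlocks_pow {F : Type u} [Field F] {i n' : ℕ} (A : Matrix (Fin i) (Fin i) F) (n : ℕ) :
    (Matrix.fromBlocks A 0 0 (1 : Matrix (Fin n') (Fin n') F)) ^ n
      = Matrix.fromBlocks (A ^ n) 0 0 1 := by
  induction n with
  | zero => simp [Matrix.fromBlocks_one]
  | succ n ih =>
    rw [pow_succ, ih, Matrix.fromBlocks_multiply, pow_succ]
    simp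

/-- the block construction -/
theorem core {F : Type u} [Field F] (d i n' : ℕ) (ν : F) (hin : i + n' = 2 * d) (hn' : 0 < n')
    (c₁ N : Matrix (Fin i) (Fin i) F) (hN : Nᵀ = N) (hNd : N.det ≠ 0)
    (hiso : c₁ᵀ * N * c₁ = N) (r : ℕ) (hcr : c₁ ^ r = 1) (hc1 : c₁ ≠ 1)
    (hirr : Irreducible c₁.charpoly) (hdeg : 2 ≤ c₁.charpoly.natDegree) :
    ∃ (x₁ S₁ : Matrix (Fin (2 * d)) (Fin (2 * d)) F) (P R : F[X]) (μ : F),
      S₁ᵀ = S₁ ∧ μ ≠ 0 ∧ S₁.det = (-1) ^ d * ν * μ ^ 2 ∧ x₁ᵀ * S₁ * x₁ = S₁ ∧ x₁ ^ r = 1 ∧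
      (∀ z : F, x₁ ≠ z • 1) ∧ Irreducible P ∧ P.Monic ∧ x₁.charpoly = P * R ∧ ¬ P ∣ R := by
  classical
  obtain ⟨e, -⟩ : ∃ e : Fin i ⊕ Fin n' ≃ Fin (2 * d), True :=
    ⟨finSumFinEquiv.trans (finCongr hin), trivial⟩
  obtain ⟨j₀, -⟩ : ∃ j₀ : Fin n', True := ⟨⟨0, hn'⟩, trivial⟩
  obtain ⟨δ, hδ⟩ : ∃ δ : F, δ = (-1) ^ d * ν * (N.det)⁻¹ := ⟨_, rfl⟩
  obtain ⟨D, hD⟩ : ∃ D : Matrix (Fin n') (Fin n') F,
      D = Matrix.diagonal (Function.update (fun _ => (1 : F)) j₀ δ) := ⟨_, rfl⟩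
  have hDt : Dᵀ = D := by rw [hD, Matrix.diagonal_transpose]
  have hDdet : D.det = δ := by
    rw [hD, Matrix.det_diagonal, Finset.prod_update_of_mem (Finset.mem_univ j₀)]
    simp
  obtain ⟨X0, hX0⟩ : ∃ X0 : Matrix (Fin i ⊕ Fin n') (Fin i ⊕ Fin n') F,
      X0 = Matrix.fromBlocks c₁ 0 0 1 := ⟨_, rfl⟩
  obtain ⟨T0, hT0⟩ : ∃ T0 : Matrix (Fin i ⊕ Fin n') (Fin i ⊕ Fin n') F,
      T0 = Matrix.fromBlocks N 0 0 D := ⟨_, rfl⟩
  have hT0t : T0ᵀ = T0 := by
    rw [hT0, Matrix.fromBlocks_transpose, hN, hDt]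
    simp
  have hT0det : T0.det = (-1) ^ d * ν * 1 ^ 2 := by
    rw [hT0, Matrix.det_fromBlocks_zero₁₂, hDdet, hδ]
    field_simp
  have hisoX : X0ᵀ * T0 * X0 = T0 := by
    rw [hX0, hT0, Matrix.fromBlocks_transpose, Matrix.fromBlocks_multiply,
      Matrix.fromBlocks_multiply]
    simp [hiso]
  have hX0r : X0 ^ r = 1 := by
    rw [hX0, fromBlocks_pow, hcr, Matrix.fromBlocks_one]
  have hX0ns : ∀ z : F, X0 ≠ z • 1 := by
    intro z hz
    rw [hX0, ← Matrix.fromBlocks_one, Matrix.fromBlocks_smul, Matrix.fromBlocks_inj] at hz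
    obtain ⟨h1, -, -, h4⟩ := hz
    have hz1 : z = 1 := by
      have := congrFun (congrFun h4 j₀) j₀
      simp at this
      exact this.symm
    rw [hz1, one_smul] at h1
    exact hc1 h1
  have hX0c : X0.charpoly = c₁.charpoly * (X - C 1) ^ n' := by
    rw [hX0, Matrix.charpoly_fromBlocks_zero₁₂, Matrix.charpoly_one, Fintype.card_fin, C_1]
  refine ⟨Matrix.reindex e e X0, Matrix.reindex e e T0, c₁.charpoly, (X - C 1) ^ n', 1, ?_,
    one_ne_zero, ?_, ?_, ?_, ?_, hirr, Matrix.charpoly_monic c₁, ?_, ?_⟩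
  · rw [Matrix.transpose_reindex, hT0t]
  · rw [Matrix.reindex_apply, Matrix.det_submatrix_equiv_self, hT0det]
  · rw [Matrix.transpose_reindex, Matrix.reindex_apply, Matrix.reindex_apply,
      Matrix.reindex_apply, Matrix.submatrix_mul_equiv, Matrix.submatrix_mul_equiv, hisoX]
  · have h := map_pow (Matrix.reindexAlgEquiv F F e) X0 r
    simp only [Matrix.coe_reindexAlgEquiv] at h
    rw [← h, hX0r, Matrix.reindex_apply, Matrix.submatrix_one_equiv]
  · intro z hz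
    apply hX0ns z
    have h := congrArg (Matrix.reindex e e).symm hz
    rw [Equiv.symm_apply_apply] at h
    rw [h]
    ext a b
    simp [Matrix.reindex_symm, Matrix.reindex_apply, Matrix.one_apply]
  · rw [Matrix.charpoly_reindex, hX0c]
  · intro hdvd
    have h1 := hirr.prime.dvd_of_dvd_pow hdvd
    have h2 := Polynomial.natDegree_le_of_dvd h1 (X_sub_C_ne_zero 1)
    rw [natDegree_X_sub_C] at h2
    omega

theorem aux {F : Type u} [Field F] [Fintype F] (p : ℕ) [Fact p.Prime] [CharP F p] (d r : ℕ)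
    (ν : F) [Fact r.Prime] (hrp : r ≠ p) (i : ℕ) (hi : i = orderOf ((Fintype.card F : ℕ) : ZMod r))
    (hi2 : 2 ≤ i) (hid : i + 2 ≤ 2 * d) (hidvd : i ∣ r - 1) (c : GL (Fin i) F)
    (N : Matrix (Fin i) (Fin i) F)
    (hord : orderOf c = r ^ padicValNat r (Fintype.card F ^ i - 1)) (hN : Nᵀ = N)
    (hNd : N.det ≠ 0)
    (hiso : (c : Matrix (Fin i) (Fin i) F)ᵀ * N * (c : Matrix (Fin i) (Fin i) F) = N) :
    ∃ (x₁ S₁ : Matrix (Fin (2 * d)) (Fin (2 * d)) F) (P R : F[X]) (μ : F),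
      S₁ᵀ = S₁ ∧ μ ≠ 0 ∧ S₁.det = (-1) ^ d * ν * μ ^ 2 ∧ x₁ᵀ * S₁ * x₁ = S₁ ∧ x₁ ^ r = 1 ∧
      (∀ z : F, x₁ ≠ z • 1) ∧ Irreducible P ∧ P.Monic ∧ x₁.charpoly = P * R ∧ ¬ P ∣ R := by
  classical
  have hr : r.Prime := Fact.out
  have hp : p.Prime := Fact.out
  obtain ⟨a, ha⟩ : ∃ a, a = padicValNat r (Fintype.card F ^ i - 1) := ⟨_, rfl⟩
  rw [← ha] at hord
  have hq2 : 2 ≤ Fintype.card F := Fintype.one_lt_card
  have hqi : 2 ≤ Fintype.card F ^ i :=
    le_trans hq2 (Nat.le_self_pow (by omega) _)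
  have hrdvd : r ∣ Fintype.card F ^ i - 1 := by
    rw [← ZMod.natCast_eq_zero_iff, Nat.cast_sub (by omega), Nat.cast_pow, Nat.cast_one, hi,
      pow_orderOf_eq_one, sub_self]
  have ha1 : 1 ≤ a := by
    rw [ha]
    exact one_le_padicValNat_of_dvd (by omega) hrdvd
  -- the element of order `r`
  obtain ⟨c₁, hc₁⟩ : ∃ c₁ : GL (Fin i) F, c₁ = c ^ (r ^ (a - 1)) := ⟨_, rfl⟩
  have hc₁r : c₁ ^ r = 1 := by
    rw [hc₁, ← pow_mul, ← pow_succ, Nat.sub_add_cancel ha1, ← hord, pow_orderOf_eq_one]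
  have hc₁1 : c₁ ≠ 1 := by
    intro h
    rw [hc₁] at h
    have h3 := orderOf_dvd_of_pow_eq_one h
    rw [hord] at h3
    have h4 := (Nat.pow_dvd_pow_iff_le_right hr.one_lt).mp h3
    omega
  have hisopow : ∀ n : ℕ, ((c : Matrix (Fin i) (Fin i) F) ^ n)ᵀ * N
      * (c : Matrix (Fin i) (Fin i) F) ^ n = N := by
    intro n
    induction n with
    | zero => simp
    | succ n ih =>
      rw [pow_succ, Matrix.transpose_mul]
      calc (c : Matrix (Fin i) (Fin i) F)ᵀ * ((c : Matrix (Fin i) (Fin i) F) ^ n)ᵀ * N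
            * ((c : Matrix (Fin i) (Fin i) F) ^ n * (c : Matrix (Fin i) (Fin i) F))
          = (c : Matrix (Fin i) (Fin i) F)ᵀ * (((c : Matrix (Fin i) (Fin i) F) ^ n)ᵀ * N
            * (c : Matrix (Fin i) (Fin i) F) ^ n) * (c : Matrix (Fin i) (Fin i) F) := by
            simp only [Matrix.mul_assoc]
        _ = N := by rw [ih, hiso]
  obtain ⟨M, hM⟩ : ∃ M : Matrix (Fin i) (Fin i) F, M = (c₁ : Matrix (Fin i) (Fin i) F) :=
    ⟨_, rfl⟩
  have hMr : M ^ r = 1 := by
    rw [hM, ← Units.val_pow_eq_pow_val, hc₁r]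
    rfl
  have hM1 : M ≠ 1 := by
    intro h
    apply hc₁1
    apply Units.ext
    rw [← hM, h]
    rfl
  have hMiso : Mᵀ * N * M = N := by
    rw [hM, hc₁, Units.val_pow_eq_pow_val]
    exact hisopow _
  -- the characteristic polynomial
  have hr0 : (r : F) ≠ 0 := by
    rw [Ne, CharP.cast_eq_zero_iff F p]
    intro h
    exact hrp ((Nat.prime_dvd_prime_iff_eq hp hr).mp h).symm
  obtain ⟨t, ht⟩ := hidvd
  obtain ⟨S, -, -, hSS, hall⟩ := Cfsg.Agent.S2568.cyclo_facts (F := F) (p := p) r i t hr hrp hi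
    (by rw [ht, mul_comm])
  have hχm : M.charpoly.Monic := Matrix.charpoly_monic M
  have hχd : M.charpoly.natDegree = i := by
    rw [Matrix.charpoly_natDegree_eq_dim, Fintype.card_fin]
  have hχ0 : M.charpoly ≠ 0 := hχm.ne_zero
  have hann : aeval M (X ^ r - C (1 : F)) = 0 := by
    rw [map_sub, map_pow, aeval_X, aeval_C, map_one, hMr, sub_self]
  have hfac : ∀ P ∈ normalizedFactors M.charpoly, P = X - C 1 ∨ P = M.charpoly := by
    intro P hP
    have hirr : Irreducible P := irreducible_of_normalized_factor P hP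
    have hmon : P.Monic := by
      have h3 := normalize_normalized_factor P hP
      rw [← h3]
      exact monic_normalize hirr.ne_zero
    have hdvd : P ∣ X ^ r - C (1 : F) :=
      Cfsg.Agent.Lib.Helper40.RecipPoly.dvd_of_mem_nf_charpoly' M _ hann P hP
    rcases (hall P hirr hmon).mp hdvd with h | h
    · exact Or.inl h
    · right
      have hdeg : P.natDegree = i := (hSS P h).2.2
      exact (Polynomial.eq_of_monic_of_dvd_of_natDegree_le hmon hχm
        (dvd_of_mem_normalizedFactors hP) (by rw [hχd, hdeg])).symm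
  have hirrχ : Irreducible M.charpoly := by
    by_cases hex : ∃ P ∈ normalizedFactors M.charpoly, P = M.charpoly
    · obtain ⟨P, hP, hPe⟩ := hex
      rw [← hPe]
      exact irreducible_of_normalized_factor P hP
    · exfalso
      push Not at hex
      have hall1 : ∀ P ∈ normalizedFactors M.charpoly, P = X - C 1 := fun P hP =>
        (hfac P hP).resolve_right (hex P hP)
      have hχeq : M.charpoly = (X - C (1 : F)) ^ (Multiset.card (normalizedFactors M.charpoly)) := by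
        have h3 := prod_normalizedFactors_eq hχ0
        rw [hχm.normalize_eq_self, Multiset.eq_replicate_of_mem hall1,
          Multiset.prod_replicate] at h3
        exact h3.symm
      obtain ⟨k, hk⟩ : ∃ k, k = Multiset.card (normalizedFactors M.charpoly) := ⟨_, rfl⟩
      rw [← hk] at hχeq
      have hΦmul : cyclotomic r F * (X - C 1) = X ^ r - C 1 := by
        rw [C_1]
        exact cyclotomic_prime_mul_X_sub_one F r
      have hcop : IsCoprime (X - C (1 : F)) (cyclotomic r F) := by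
        rw [(irreducible_X_sub_C (1 : F)).coprime_iff_not_dvd, dvd_iff_isRoot, IsRoot,
          eval_one_cyclotomic_prime]
        exact hr0
      obtain ⟨a', b', hab⟩ := (hcop.pow_left (m := k)).symm
      -- a' * Φ + b' * (X - 1)^k = 1
      have hpoly : (X - C (1 : F)) = a' * (X ^ r - C 1) + b' * (X - C 1) * M.charpoly := by
        rw [← hΦmul, hχeq]
        linear_combination (-(X - C (1 : F))) * hab
      have h5 := congrArg (aeval M) hpoly
      rw [map_add, map_mul, hann, mul_zero, zero_add, map_mul, Matrix.aeval_self_charpoly,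
        mul_zero, map_sub, aeval_X, aeval_C, map_one, sub_eq_zero] at h5
      exact hM1 h5
  exact core d i (2 * d - i) ν (by omega) (by omega) M N hN hNd hMiso r hMr hM1 hirrχ
    (by rw [hχd]; exact hi2)


theorem main : Cfsg.Agent.Lib.Helper41.OMStmt.MEltEven.{u} := by
  intro F _ _ p _ _ q hq h2F d ν _ r _ hr2 hrp i hi hev hid
  classical
  subst hq
  subst hi
  have hr : r.Prime := Fact.out
  have hp : p.Prime := Fact.out
  obtain ⟨f, -, hf⟩ := FiniteField.card F p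
  have hq0 : ((Fintype.card F : ℕ) : ZMod r) ≠ 0 := by
    rw [Ne, ZMod.natCast_eq_zero_iff, hf]
    intro h
    exact hrp ((Nat.prime_dvd_prime_iff_eq hr hp).mp (hr.dvd_of_dvd_pow h))
  have hpow1 : ((Fintype.card F : ℕ) : ZMod r) ^ (r - 1) = 1 := ZMod.pow_card_sub_one_eq_one hq0
  have hidvd : orderOf ((Fintype.card F : ℕ) : ZMod r) ∣ r - 1 := orderOf_dvd_of_pow_eq_one hpow1
  have hipos : 0 < orderOf ((Fintype.card F : ℕ) : ZMod r) := by
    rw [orderOf_pos_iff]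
    exact isOfFinOrder_iff_pow_eq_one.mpr ⟨r - 1, by have := hr.two_le; omega, hpow1⟩
  have hi2 : 2 ≤ orderOf ((Fintype.card F : ℕ) : ZMod r) := by
    obtain ⟨j, hj⟩ := hev
    omega
  obtain ⟨c, N, hord, hN, hNd, hiso⟩ :=
    Cfsg.Agent.Lib.Helper38.OrtSINGERC.main F p r h2F hr2 hrp hi2 hev
  exact aux p d r ν hrp _ rfl hi2 hid hidvd c N hord hN hNd hiso

end Cfsg.Agent.Lib.Helper95.OMMELTEVEN
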