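import Mathlib

set_option autoImplicit false

namespace Cfsg.Agent.Lib.Helper95.OnanScott

variable {ι T : Type*} [DecidableEq ι] [Group T]

theorem center_trivial [IsSimpleGroup T] (hT : ¬ ∀ a b : T, a * b = b * a) (x : T)
    (hx : ∀ t : T, x * t = t * x) : x = 1 := by
  have hc : x ∈ Subgroup.center T := Subgroup.mem_center_iff.mpr (fun t => (hx t).symm)
  rcases (Subgroup.center T).normal_of_characteristic.eq_bot_or_eq_top with h | h
  · rw [h] at hc
    exact Subgroup.mem_bot.mp hc
  · exfalso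
    apply hT
    intro a b
    have : a ∈ Subgroup.center T := by rw [h]; exact Subgroup.mem_top a
    exact (Subgroup.mem_center_iff.mp this b).symm

theorem mulSingle_conj (x : ι → T) (i : ι) (t : T) :
    x * Pi.mulSingle i t * x⁻¹ = Pi.mulSingle i (x i * t * (x i)⁻¹) := by
  funext l
  by_cases hl : l = i
  · subst hl; simp
  · simp [Pi.mulSingle_eq_of_ne hl]

/-- A nontrivial normal subgroup of a power of a nonabelian simple group contains a coordinate
subgroup. -/
theorem exists_coord_le [IsSimpleGroup T] (hT : ¬ ∀ a b : T, a * b = b * a)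
    (M : Subgroup (ι → T)) [hMn : M.Normal] (hM : M ≠ ⊥) :
    ∃ i, ∀ t : T, Pi.mulSingle i t ∈ M := by
  obtain ⟨⟨x, hxM⟩, hx1⟩ := (Subgroup.ne_bot_iff_exists_ne_one).mp hM
  have hx1' : x ≠ 1 := fun h => hx1 (Subtype.ext h)
  obtain ⟨i, hi⟩ := Function.ne_iff.mp hx1'
  have hi' : x i ≠ 1 := hi
  obtain ⟨t, ht⟩ : ∃ t, x i * t ≠ t * x i := by
    by_contra hcon
    exact hi' (center_trivial hT _ (fun t => by
      by_contra h
      exact hcon ⟨t, h⟩))
  refine ⟨i, ?_⟩
  let M' : Subgroup T := M.comap (MonoidHom.mulSingle (fun _ => T) i)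
  have hM'n : M'.Normal := hMn.comap _
  have hmem : x i * t * (x i)⁻¹ * t⁻¹ ∈ M' := by
    show Pi.mulSingle i (x i * t * (x i)⁻¹ * t⁻¹) ∈ M
    have h1 : x * Pi.mulSingle i t * x⁻¹ * (Pi.mulSingle i t)⁻¹ =
        Pi.mulSingle i (x i * t * (x i)⁻¹ * t⁻¹) := by
      rw [mulSingle_conj, ← Pi.mulSingle_inv, ← Pi.mulSingle_mul]
    rw [← h1]
    have h2 : x * Pi.mulSingle i t * x⁻¹ * (Pi.mulSingle i t)⁻¹ =
        x * (Pi.mulSingle i t * x⁻¹ * (Pi.mulSingle i t)⁻¹) := by group
    rw [h2]
    exact M.mul_mem hxM (hMn.conj_mem _ (M.inv_mem hxM) _)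
  have hne : x i * t * (x i)⁻¹ * t⁻¹ ≠ 1 := by
    intro h
    apply ht
    have : x i * t = (x i * t * (x i)⁻¹ * t⁻¹) * (t * x i) := by group
    rw [this, h, one_mul]
  have hM'top : M' = ⊤ := by
    rcases hM'n.eq_bot_or_eq_top with h | h
    · rw [h] at hmem
      exact absurd (Subgroup.mem_bot.mp hmem) hne
    · exact h
  intro s
  have : s ∈ M' := by rw [hM'top]; exact Subgroup.mem_top s
  exact this

theorem mulSingle_injective' (i : ι) (t : T) (h : Pi.mulSingle i t = (1 : ι → T)) : t = 1 := by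
  have := congrFun h i
  simpa using this

/-- Every automorphism of a power of a nonabelian simple group is monomial. -/
theorem exists_monomial [Finite ι] [IsSimpleGroup T] (hT : ¬ ∀ a b : T, a * b = b * a)
    (θ : (ι → T) ≃* (ι → T)) :
    ∃ (π : Equiv.Perm ι) (φ : ι → (T ≃* T)), ∀ x i, θ x (π i) = φ i (x i) := by
  have key : ∀ (θ : (ι → T) ≃* (ι → T)) (i : ι),
      ∃ j, ∀ t, ∃ s, θ (Pi.mulSingle i s) = Pi.mulSingle j t := by
    intro θ i
    let M : Subgroup (ι → T) := ((MonoidHom.mulSingle (fun _ => T) i).range).map θ.toMonoidHom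
    have hMn : M.Normal := by
      apply Subgroup.Normal.map _ _ θ.surjective
      constructor
      rintro _ ⟨t, rfl⟩ x
      exact ⟨x i * t * (x i)⁻¹, (mulSingle_conj x i t).symm⟩
    have hM : M ≠ ⊥ := by
      obtain ⟨t, ht⟩ := exists_ne (1 : T)
      intro h
      have h1 : θ (Pi.mulSingle i t) ∈ M := ⟨_, ⟨t, rfl⟩, rfl⟩
      rw [h, Subgroup.mem_bot] at h1
      have h2 : Pi.mulSingle i t = (1 : ι → T) := θ.injective (by rw [h1, map_one])
      exact ht (mulSingle_injective' i t h2)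
    obtain ⟨j, hj⟩ := exists_coord_le hT M hM
    refine ⟨j, fun t => ?_⟩
    obtain ⟨_, ⟨s, rfl⟩, hs⟩ := hj t
    exact ⟨s, hs⟩
  have key2 : ∀ i, ∃ j, (∀ t, ∃ s, θ (Pi.mulSingle i s) = Pi.mulSingle j t) ∧
      (∀ t, ∃ s, θ (Pi.mulSingle i t) = Pi.mulSingle j s) := by
    intro i
    obtain ⟨j, hj⟩ := key θ i
    obtain ⟨l, hl⟩ := key θ.symm j
    refine ⟨j, hj, ?_⟩
    have hli : l = i := by
      obtain ⟨t, ht⟩ := exists_ne (1 : T)
      obtain ⟨s, hs⟩ := hl t
      obtain ⟨s', hs'⟩ := hj s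
      have h1 : (Pi.mulSingle l t : ι → T) = Pi.mulSingle i s' := by
        rw [← hs, ← hs', MulEquiv.symm_apply_apply]
      by_contra hne
      have h3 := congrFun h1 l
      rw [Pi.mulSingle_eq_same, Pi.mulSingle_eq_of_ne hne] at h3
      exact ht h3
    subst hli
    intro t
    obtain ⟨s, hs⟩ := hl t
    exact ⟨s, by rw [← hs, MulEquiv.apply_symm_apply]⟩
  choose π hπ1 hπ2 using key2
  let φh : ι → (T →* T) := fun i =>
    (Pi.evalMonoidHom (fun _ => T) (π i)).comp
      (θ.toMonoidHom.comp (MonoidHom.mulSingle (fun _ => T) i))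
  have hφ : ∀ i t, θ (Pi.mulSingle i t) = Pi.mulSingle (π i) (φh i t) := by
    intro i t
    obtain ⟨s, hs⟩ := hπ2 i t
    have : φh i t = s := by
      show θ (Pi.mulSingle i t) (π i) = s
      rw [hs, Pi.mulSingle_eq_same]
    rw [this, hs]
  have hinj : ∀ i, Function.Injective (φh i) := by
    intro i
    rw [injective_iff_map_eq_one]
    intro t ht
    have h1 := hφ i t
    rw [ht, Pi.mulSingle_one] at h1
    have h2 : Pi.mulSingle i t = (1 : ι → T) := θ.injective (by rw [h1, map_one])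
    exact mulSingle_injective' i t h2
  have hsurj : ∀ i, Function.Surjective (φh i) := by
    intro i t
    obtain ⟨s, hs⟩ := hπ1 i t
    refine ⟨s, ?_⟩
    show θ (Pi.mulSingle i s) (π i) = t
    rw [hs, Pi.mulSingle_eq_same]
  have hπinj : Function.Injective π := by
    intro i i' hii
    by_contra hne
    obtain ⟨t, ht⟩ := exists_ne (1 : T)
    obtain ⟨s, hs⟩ := hsurj i' (φh i t)
    have h1 : θ (Pi.mulSingle i' s) = θ (Pi.mulSingle i t) := by
      rw [hφ, hφ, hs, hii]
    have h2 := congrFun (θ.injective h1) i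
    rw [Pi.mulSingle_eq_same, Pi.mulSingle_eq_of_ne hne] at h2
    exact ht h2.symm
  refine ⟨Equiv.ofBijective π (Finite.injective_iff_bijective.mp hπinj),
    fun i => MulEquiv.ofBijective (φh i) ⟨hinj i, hsurj i⟩, ?_⟩
  intro x i
  have hext : (Pi.evalMonoidHom (fun _ => T) (π i)).comp θ.toMonoidHom =
      (φh i).comp (Pi.evalMonoidHom (fun _ => T) i) := by
    apply MonoidHom.pi_ext
    intro l s
    show θ (Pi.mulSingle l s) (π i) = φh i ((Pi.mulSingle l s : ι → T) i)
    rw [hφ]
    by_cases hl : i = l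
    · subst hl
      rw [Pi.mulSingle_eq_same, Pi.mulSingle_eq_same]
    · rw [Pi.mulSingle_eq_of_ne (fun h => hl (hπinj h)), Pi.mulSingle_eq_of_ne hl, map_one]
  exact congrFun (congrArg DFunLike.coe hext) x

/-- Subdirect products of nonabelian simple groups: surjectivity onto a set of pairwise
unrelated coordinates. -/
theorem subdirect_surj [Finite ι] [IsSimpleGroup T] (hT : ¬ ∀ a b : T, a * b = b * a)
    (D : Subgroup (ι → T)) (hD : ∀ i t, ∃ d ∈ D, d i = t) (J : Finset ι)
    (hJ : ∀ i ∈ J, ∀ j ∈ J, (∃ ψ : T ≃* T, ∀ d ∈ D, d j = ψ (d i)) → i = j) :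
    ∀ y : ι → T, ∃ d ∈ D, ∀ j ∈ J, d j = y j := by
  induction J using Finset.induction_on with
  | empty => exact fun y => ⟨1, D.one_mem, by simp⟩
  | insert j J' hj IH =>
    have ih := IH (fun i hi i' hi' h =>
      hJ i (Finset.mem_insert_of_mem hi) i' (Finset.mem_insert_of_mem hi') h)
    let M : Subgroup T :=
      { carrier := {t | ∃ d ∈ D, (∀ l ∈ J', d l = 1) ∧ d j = t}
        one_mem' := ⟨1, D.one_mem, fun _ _ => rfl, rfl⟩
        mul_mem' := by
          rintro _ _ ⟨d₁, hd₁, h1, rfl⟩ ⟨d₂, hd₂, h2, rfl⟩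
          exact ⟨d₁ * d₂, D.mul_mem hd₁ hd₂, fun l hl => by simp [h1 l hl, h2 l hl], rfl⟩
        inv_mem' := by
          rintro _ ⟨d₁, hd₁, h1, rfl⟩
          exact ⟨d₁⁻¹, D.inv_mem hd₁, fun l hl => by simp [h1 l hl], rfl⟩ }
    have hMn : M.Normal := by
      constructor
      rintro _ ⟨d₁, hd₁, h1, rfl⟩ s
      obtain ⟨d', hd', rfl⟩ := hD j s
      exact ⟨d' * d₁ * d'⁻¹, D.mul_mem (D.mul_mem hd' hd₁) (D.inv_mem hd'),
        fun l hl => by simp [h1 l hl], rfl⟩
    rcases hMn.eq_bot_or_eq_top with hM | hM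
    · exfalso
      choose dd hdd hdd' using ih
      have hwd : ∀ d ∈ D, ∀ d' ∈ D, (∀ l ∈ J', d l = d' l) → d j = d' j := by
        intro d hd d' hd' h
        have hmem : (d⁻¹ * d') j ∈ M :=
          ⟨d⁻¹ * d', D.mul_mem (D.inv_mem hd) hd', fun l hl => by simp [h l hl], rfl⟩
        rw [hM, Subgroup.mem_bot] at hmem
        have h2 : (d j)⁻¹ * d' j = 1 := hmem
        exact inv_mul_eq_one.mp h2
      let f : (ι → T) →* T :=
        { toFun := fun y => dd y j
          map_one' := hwd (dd 1) (hdd 1) 1 D.one_mem (fun l hl => hdd' 1 l hl)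
          map_mul' := fun y y' => hwd (dd (y * y')) (hdd _) (dd y * dd y')
            (D.mul_mem (hdd y) (hdd y'))
            (fun l hl => by
              rw [hdd' _ l hl, Pi.mul_apply, Pi.mul_apply, hdd' y l hl, hdd' y' l hl]) }
      have hfD : ∀ d ∈ D, f d = d j := fun d hd => hwd (dd d) (hdd d) d hd (hdd' d)
      have hfdep : ∀ y y', (∀ l ∈ J', y l = y' l) → f y = f y' := by
        intro y y' h
        exact hwd (dd y) (hdd y) (dd y') (hdd y')
          (fun l hl => by rw [hdd' y l hl, hdd' y' l hl, h l hl])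
      have hfsurj : Function.Surjective f := by
        intro t
        obtain ⟨d, hd, rfl⟩ := hD j t
        exact ⟨d, hfD d hd⟩
      have hout : ∀ l, l ∉ J' → ∀ s, f (Pi.mulSingle l s) = 1 := by
        intro l hl s
        rw [← map_one f]
        apply hfdep
        intro l' hl'
        rw [Pi.mulSingle_eq_of_ne (by rintro rfl; exact hl hl')]
        rfl
      obtain ⟨l₀, s₀, hs₀⟩ : ∃ l₀ s₀, f (Pi.mulSingle l₀ s₀) ≠ 1 := by
        by_contra hcon
        have hf1 : f = 1 := by
          apply MonoidHom.pi_ext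
          intro l s
          by_contra h
          exact hcon ⟨l, s, h⟩
        obtain ⟨t, ht⟩ := exists_ne (1 : T)
        obtain ⟨y, hy⟩ := hfsurj t
        rw [hf1] at hy
        exact ht hy.symm
      have hl₀ : l₀ ∈ J' := by
        by_contra h
        exact hs₀ (hout l₀ h s₀)
      let g : T →* T := f.comp (MonoidHom.mulSingle (fun _ => T) l₀)
      have hgn : g.range.Normal := by
        constructor
        rintro _ ⟨s, rfl⟩ t
        obtain ⟨x, rfl⟩ := hfsurj t
        refine ⟨x l₀ * s * (x l₀)⁻¹, ?_⟩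
        show f (Pi.mulSingle l₀ (x l₀ * s * (x l₀)⁻¹)) = f x * f (Pi.mulSingle l₀ s) * (f x)⁻¹
        rw [← mulSingle_conj, map_mul, map_mul, map_inv]
      have hgsurj : Function.Surjective g := by
        rcases hgn.eq_bot_or_eq_top with h | h
        · exfalso
          have : g s₀ ∈ g.range := ⟨s₀, rfl⟩
          rw [h, Subgroup.mem_bot] at this
          exact hs₀ this
        · exact MonoidHom.range_eq_top.mp h
      have hginj : Function.Injective g := by
        rcases g.normal_ker.eq_bot_or_eq_top with h | h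
        · exact (MonoidHom.ker_eq_bot_iff g).mp h
        · exfalso
          have : s₀ ∈ g.ker := by rw [h]; exact Subgroup.mem_top _
          exact hs₀ (MonoidHom.mem_ker.mp this)
      have hother : ∀ l, l ≠ l₀ → ∀ s, f (Pi.mulSingle l s) = 1 := by
        intro l hl s
        apply center_trivial hT
        intro t
        obtain ⟨t', rfl⟩ := hgsurj t
        show f (Pi.mulSingle l s) * f (Pi.mulSingle l₀ t') = f (Pi.mulSingle l₀ t') * f (Pi.mulSingle l s)
        rw [← map_mul, ← map_mul]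
        congr 1
        have hc : Commute (Pi.mulSingle l s : ι → T) (Pi.mulSingle l₀ t') :=
          Pi.mulSingle_commute (f := fun _ => T) hl s t'
        exact hc.eq
      have hfg : f = g.comp (Pi.evalMonoidHom (fun _ => T) l₀) := by
        apply MonoidHom.pi_ext
        intro l s
        show f (Pi.mulSingle l s) = g ((Pi.mulSingle l s : ι → T) l₀)
        by_cases hl : l = l₀
        · subst hl
          rw [Pi.mulSingle_eq_same]
          rfl
        · rw [hother l hl s, Pi.mulSingle_eq_of_ne (fun h => hl h.symm), map_one]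
      have hrel : ∃ ψ : T ≃* T, ∀ d ∈ D, d j = ψ (d l₀) := by
        refine ⟨MulEquiv.ofBijective g ⟨hginj, hgsurj⟩, fun d hd => ?_⟩
        rw [← hfD d hd, hfg]
        rfl
      have := hJ l₀ (Finset.mem_insert_of_mem hl₀) j (Finset.mem_insert_self j J') hrel
      exact hj (this ▸ hl₀)
    · intro y
      obtain ⟨d₁, hd₁, h1⟩ := ih y
      have hmem : (d₁ j)⁻¹ * y j ∈ M := by rw [hM]; exact Subgroup.mem_top _
      obtain ⟨d₂, hd₂, h2, h2j⟩ := hmem
      refine ⟨d₁ * d₂, D.mul_mem hd₁ hd₂, ?_⟩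
      intro l hl
      rcases Finset.mem_insert.mp hl with rfl | hl
      · simp [h2j]
      · simp [h1 l hl, h2 l hl]

section core

variable {G : Type*} [Group G]

theorem le_or_eq_of_normalized (N K : Subgroup G)
    (hmin : ∀ M : Subgroup G, M.Normal → M ≤ N → M = ⊥ ∨ M = N)
    (hK : IsCoatom K) (L : Subgroup G) (hLN : L ≤ N)
    (hLK : ∀ g ∈ K, ∀ x ∈ L, g * x * g⁻¹ ∈ L) : L ≤ K ∨ L = N := by
  by_cases hle : L ≤ K
  · exact Or.inl hle
  · right
    have h1 : K ⊔ L = ⊤ :=
      hK.2 _ (lt_of_le_of_ne le_sup_left (fun h => hle (by rw [h]; exact le_sup_right)))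
    have h2 : K ⊔ L ≤ Subgroup.normalizer (L : Set G) :=
      sup_le (Subgroup.le_normalizer_iff.mpr hLK) Subgroup.le_normalizer
    have h3 : Subgroup.normalizer (L : Set G) = ⊤ := top_le_iff.mp (h1 ▸ h2)
    have h4 : L.Normal := Subgroup.normalizer_eq_top_iff.mp h3
    rcases hmin L h4 hLN with h | h
    · exfalso; exact hle (by rw [h]; exact bot_le)
    · exact h

theorem eq_bot_or_eq_of_normalized (N K : Subgroup G)
    (hmin : ∀ M : Subgroup G, M.Normal → M ≤ N → M = ⊥ ∨ M = N)
    (hK : IsCoatom K) (hNK : ¬ N ≤ K) (L : Subgroup G) (hLN : L ≤ N)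
    (hLK : ∀ g ∈ K, ∀ x ∈ L, g * x * g⁻¹ ∈ L) (hLNn : ∀ g ∈ N, ∀ x ∈ L, g * x * g⁻¹ ∈ L) :
    L = ⊥ ∨ L = N := by
  have h1 : K ⊔ N = ⊤ :=
    hK.2 _ (lt_of_le_of_ne le_sup_left (fun h => hNK (by rw [h]; exact le_sup_right)))
  have h2 : K ⊔ N ≤ Subgroup.normalizer (L : Set G) :=
    sup_le (Subgroup.le_normalizer_iff.mpr hLK) (Subgroup.le_normalizer_iff.mpr hLNn)
  have h3 : Subgroup.normalizer (L : Set G) = ⊤ := top_le_iff.mp (h1 ▸ h2)
  exact hmin L (Subgroup.normalizer_eq_top_iff.mp h3) hLN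

end core

/-- Core of O'Nan–Scott: a maximal subgroup `K` not containing the nonabelian minimal normal
subgroup `N ≃* T^m` meets `N` in a product of proper subgroups or in a product of full diagonal
subgroups (after adjusting the coordinates). -/
theorem core {G : Type*} [Group G] (N K : Subgroup G) [hNn : N.Normal]
    (hmin : ∀ M : Subgroup G, M.Normal → M ≤ N → M = ⊥ ∨ M = N)
    (hK : IsCoatom K) (hNK : ¬ N ≤ K) {T : Type*} [Group T] [IsSimpleGroup T]
    (hT : ¬ ∀ a b : T, a * b = b * a) (m : ℕ) (e₁ : N ≃* (Fin m → T)) :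
    ∃ e : N ≃* (Fin m → T),
      ((∃ R : Fin m → Subgroup T, (∀ i, R i ≠ ⊤) ∧ ∀ n : N, (n : G) ∈ K ↔ ∀ i, e n i ∈ R i) ∨
       (∃ (k : ℕ) (c : Fin m → Fin m), 2 ≤ k ∧
          (∀ j : Fin m, Nat.card {i : Fin m // c i = j} = k ∨
            Nat.card {i : Fin m // c i = j} = 0) ∧
          ∀ n : N, (n : G) ∈ K ↔ ∀ i j : Fin m, c i = c j → e n i = e n j)) := by
  classical
  have hmono : ∀ g : G, ∃ (π : Equiv.Perm (Fin m)) (φ : Fin m → (T ≃* T)),
      ∀ (n : N) i, e₁ (MulAut.conjNormal g n) (π i) = φ i (e₁ n i) := by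
    intro g
    obtain ⟨π, φ, h⟩ := exists_monomial hT (e₁.symm.trans ((MulAut.conjNormal g).trans e₁))
    refine ⟨π, φ, fun n i => ?_⟩
    have h1 := h (e₁ n) i
    simpa using h1
  choose π φ hπφ using hmono
  have hconjK : ∀ g ∈ K, ∀ n : N, (n : G) ∈ K → ((MulAut.conjNormal g n : N) : G) ∈ K := by
    intro g hg n hn
    rw [MulAut.conjNormal_apply]
    exact K.mul_mem (K.mul_mem hg hn) (K.inv_mem hg)
  let LQ : (Fin m → Subgroup T) → Subgroup G := fun Q =>
    ((Subgroup.pi Set.univ Q).comap e₁.toMonoidHom).map N.subtype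
  have hLQ_mem : ∀ Q (n : N), (n : G) ∈ LQ Q ↔ ∀ i, e₁ n i ∈ Q i := by
    intro Q n
    constructor
    · rintro ⟨n', hn', h⟩
      have h1 : n' = n := Subtype.ext h
      subst h1
      intro i
      exact hn' i (Set.mem_univ i)
    · intro h
      exact ⟨n, fun i _ => h i, rfl⟩
  have hLQ_le : ∀ Q, LQ Q ≤ N := by
    rintro Q _ ⟨n, _, rfl⟩
    exact n.2
  have hLQ_K : ∀ Q : Fin m → Subgroup T, (∀ g ∈ K, ∀ i, ∀ t ∈ Q i, φ g i t ∈ Q (π g i)) →
      ∀ g ∈ K, ∀ x ∈ LQ Q, g * x * g⁻¹ ∈ LQ Q := by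
    intro Q hQ g hg x hx
    obtain ⟨n, hn, rfl⟩ := hx
    have hn' : ∀ i, e₁ n i ∈ Q i := fun i => hn i (Set.mem_univ i)
    have h1 : g * N.subtype n * g⁻¹ = ((MulAut.conjNormal g n : N) : G) :=
      (MulAut.conjNormal_apply g n).symm
    rw [h1, hLQ_mem]
    intro j
    obtain ⟨i, rfl⟩ := (π g).surjective j
    rw [hπφ]
    exact hQ g hg i _ (hn' i)
  have hLQ_N : ∀ Q : Fin m → Subgroup T, (∀ i, (Q i).Normal) →
      ∀ g ∈ N, ∀ x ∈ LQ Q, g * x * g⁻¹ ∈ LQ Q := by
    intro Q hQ g hg x hx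
    obtain ⟨n, hn, rfl⟩ := hx
    have hn' : ∀ i, e₁ n i ∈ Q i := fun i => hn i (Set.mem_univ i)
    have h1 : g * N.subtype n * g⁻¹ = (((⟨g, hg⟩ : N) * n * (⟨g, hg⟩ : N)⁻¹ : N) : G) := rfl
    rw [h1, hLQ_mem]
    intro i
    rw [map_mul, map_mul, map_inv]
    exact (hQ i).conj_mem _ (hn' i) _
  let R : Fin m → Subgroup T := fun i =>
    ((K.subgroupOf N).map e₁.toMonoidHom).map (Pi.evalMonoidHom (fun _ => T) i)
  have hR_mem : ∀ i t, t ∈ R i ↔ ∃ n : N, (n : G) ∈ K ∧ e₁ n i = t := by
    intro i t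
    constructor
    · rintro ⟨_, ⟨n, hn, rfl⟩, rfl⟩
      exact ⟨n, hn, rfl⟩
    · rintro ⟨n, hn, rfl⟩
      exact ⟨_, ⟨n, hn, rfl⟩, rfl⟩
  have hRφ : ∀ g ∈ K, ∀ i, ∀ t ∈ R i, φ g i t ∈ R (π g i) := by
    intro g hg i t ht
    obtain ⟨n, hn, rfl⟩ := (hR_mem i t).mp ht
    rw [hR_mem]
    exact ⟨MulAut.conjNormal g n, hconjK g hg n hn, hπφ g n i⟩
  have hsingle_ne : ∀ (i : Fin m) (t : T), t ≠ 1 → ((e₁.symm (Pi.mulSingle i t) : N) : G) ≠ 1 := by
    intro i t ht h
    have h2 : e₁.symm (Pi.mulSingle i t) = 1 := Subtype.ext h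
    have h3 : (Pi.mulSingle i t : Fin m → T) = 1 := by
      have h4 := congrArg e₁ h2
      rwa [MulEquiv.apply_symm_apply, map_one] at h4
    exact ht (mulSingle_injective' i t h3)
  by_cases hall : ∀ i, R i = ⊤
  · have hsurjR : ∀ i t, ∃ n : N, (n : G) ∈ K ∧ e₁ n i = t := fun i t =>
      (hR_mem i t).mp (by rw [hall i]; exact Subgroup.mem_top _)
    let D : Subgroup (Fin m → T) := (K.subgroupOf N).map e₁.toMonoidHom
    have hD_mem : ∀ n : N, e₁ n ∈ D ↔ (n : G) ∈ K := by
      intro n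
      constructor
      · rintro ⟨n', hn', h⟩
        have h1 : n' = n := e₁.injective h
        rw [← h1]; exact hn'
      · intro h; exact ⟨n, h, rfl⟩
    have hD_surj : ∀ i t, ∃ d ∈ D, d i = t := by
      intro i t
      obtain ⟨n, hn, rfl⟩ := hsurjR i t
      exact ⟨e₁ n, (hD_mem n).mpr hn, rfl⟩
    let rel : Fin m → Fin m → Prop := fun i j => ∃ ψ : T ≃* T, ∀ d ∈ D, d j = ψ (d i)
    have rel_refl : ∀ i, rel i i := fun i => ⟨MulEquiv.refl T, fun d _ => rfl⟩
    have rel_symm : ∀ i j, rel i j → rel j i := by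
      rintro i j ⟨ψ, h⟩
      exact ⟨ψ.symm, fun d hd => by rw [h d hd, MulEquiv.symm_apply_apply]⟩
    have rel_trans : ∀ i j l, rel i j → rel j l → rel i l := by
      rintro i j l ⟨ψ, h⟩ ⟨ψ', h'⟩
      exact ⟨ψ.trans ψ', fun d hd => by rw [h' d hd, h d hd]; rfl⟩
    let S : Setoid (Fin m) :=
      ⟨rel, ⟨rel_refl, fun {i j} => rel_symm i j, fun {i j l} => rel_trans i j l⟩⟩
    let c : Fin m → Fin m := fun i => (Quotient.mk S i).out
    have hc1 : ∀ i, rel (c i) i := fun i => Quotient.mk_out (s := S) i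
    have hc2 : ∀ i j, c i = c j ↔ rel i j := by
      intro i j
      constructor
      · intro h
        have h1 := hc1 j
        rw [← h] at h1
        exact rel_trans _ _ _ (rel_symm _ _ (hc1 i)) h1
      · intro h
        show (Quotient.mk S i).out = (Quotient.mk S j).out
        have h1 : Quotient.mk S i = Quotient.mk S j := Quotient.sound h
        rw [h1]
    have hcc : ∀ i, c (c i) = c i := fun i => (hc2 _ _).mpr (hc1 i)
    choose ψ hψ using hc1
    let e : N ≃* (Fin m → T) := e₁.trans (MulEquiv.piCongrRight (fun i => (ψ i).symm))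
    have he : ∀ n i, e n i = (ψ i).symm (e₁ n i) := fun n i => rfl
    have heK : ∀ n : N, (n : G) ∈ K → ∀ i, e n i = e₁ n (c i) := by
      intro n hn i
      rw [he, hψ i (e₁ n) ((hD_mem n).mpr hn), MulEquiv.symm_apply_apply]
    have hψrep : ∀ i, ∀ t, ψ (c i) t = t := by
      intro i t
      obtain ⟨d', hd', rfl⟩ := hD_surj (c (c i)) t
      have h1 := hψ (c i) d' hd'
      rw [← h1, hcc]
    let size : Fin m → ℕ := fun i => (Finset.univ.filter (fun j => c j = c i)).card
    have hrel_back : ∀ g ∈ K, ∀ i j, rel (π g i) (π g j) → rel i j := by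
      rintro g hg i j ⟨ψ', h⟩
      refine ⟨((φ g i).trans ψ').trans (φ g j).symm, ?_⟩
      intro d hd
      obtain ⟨n, rfl⟩ := e₁.surjective d
      have hn : (n : G) ∈ K := (hD_mem n).mp hd
      have h1 := h _ ((hD_mem _).mpr (hconjK g hg n hn))
      rw [hπφ, hπφ] at h1
      show e₁ n j = (φ g j).symm (ψ' (φ g i (e₁ n i)))
      rw [← h1, MulEquiv.symm_apply_apply]
    have hsize_le : ∀ g ∈ K, ∀ i, size (π g i) ≤ size i := by
      intro g hg i
      apply Finset.card_le_card_of_injOn (fun j => (π g).symm j)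
      · intro j hj
        have hj' : c j = c (π g i) := (Finset.mem_filter.mp (Finset.mem_coe.mp hj)).2
        apply Finset.mem_coe.mpr
        apply Finset.mem_filter.mpr
        refine ⟨Finset.mem_univ _, ?_⟩
        rw [hc2] at hj' ⊢
        apply hrel_back g hg
        rw [Equiv.apply_symm_apply]
        exact hj'
      · intro j _ j' _ h
        exact (π g).symm.injective h
    have hne : Nonempty (Fin m) := by
      by_contra hemp
      rw [not_nonempty_iff] at hemp
      apply hNK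
      intro x hx
      have h1 : (⟨x, hx⟩ : N) = 1 := e₁.injective (Subsingleton.elim _ _)
      have h2 : x = 1 := congrArg Subtype.val h1
      rw [h2]; exact K.one_mem
    obtain ⟨i₁⟩ := hne
    obtain ⟨i₀, -, hi₀⟩ := Finset.exists_min_image Finset.univ size ⟨i₁, Finset.mem_univ _⟩
    obtain ⟨t₀, ht₀⟩ := exists_ne (1 : T)
    have hsize_all : ∀ i, size i = size i₀ := by
      let Q : Fin m → Subgroup T := fun j => if size i₀ < size j then ⊥ else ⊤
      have hQn : ∀ i, (Q i).Normal := by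
        intro i
        dsimp only [Q]
        split_ifs <;> infer_instance
      have hQφ : ∀ g ∈ K, ∀ i, ∀ t ∈ Q i, φ g i t ∈ Q (π g i) := by
        intro g hg i t ht
        by_cases hi : size i₀ < size i
        · have h2 : Q i = ⊥ := if_pos hi
          rw [h2, Subgroup.mem_bot] at ht
          rw [ht, map_one]; exact Subgroup.one_mem _
        · have h1 : ¬ size i₀ < size (π g i) := by
            have := hsize_le g hg i
            omega
          have h2 : Q (π g i) = ⊤ := if_neg h1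
          rw [h2]; exact Subgroup.mem_top _
      have h1 := eq_bot_or_eq_of_normalized N K hmin hK hNK (LQ Q) (hLQ_le Q) (hLQ_K Q hQφ)
        (hLQ_N Q hQn)
      have hmem : ((e₁.symm (Pi.mulSingle i₀ t₀) : N) : G) ∈ LQ Q := by
        rw [hLQ_mem]
        intro i
        rw [MulEquiv.apply_symm_apply]
        by_cases hi : i = i₀
        · subst hi
          have h2 : Q i = ⊤ := if_neg (lt_irrefl _)
          rw [h2]; exact Subgroup.mem_top _
        · rw [Pi.mulSingle_eq_of_ne hi]; exact Subgroup.one_mem _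
      have hLN : LQ Q = N := by
        rcases h1 with h | h
        · exfalso
          rw [h, Subgroup.mem_bot] at hmem
          exact hsingle_ne i₀ t₀ ht₀ hmem
        · exact h
      intro i
      by_contra hne
      have hlt : size i₀ < size i := lt_of_le_of_ne (hi₀ i (Finset.mem_univ i)) (Ne.symm hne)
      have hmem2 : ((e₁.symm (Pi.mulSingle i t₀) : N) : G) ∈ LQ Q := by
        rw [hLN]; exact (e₁.symm _).2
      have h3 := (hLQ_mem Q _).mp hmem2 i
      rw [MulEquiv.apply_symm_apply, Pi.mulSingle_eq_same] at h3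
      have h2 : Q i = ⊥ := if_pos hlt
      rw [h2, Subgroup.mem_bot] at h3
      exact ht₀ h3
    have hs₀ : 2 ≤ size i₀ := by
      by_contra hlt
      have hinj : ∀ i j, rel i j → i = j := by
        intro i j hij
        have h1 : size i ≤ 1 := by rw [hsize_all]; omega
        have hi : i ∈ Finset.univ.filter (fun j' => c j' = c i) := by simp
        have hj : j ∈ Finset.univ.filter (fun j' => c j' = c i) := by
          simp [(hc2 i j).mpr hij]
        exact Finset.card_le_one.mp h1 i hi j hj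
      apply hNK
      intro x hx
      obtain ⟨d, hd, hdx⟩ := subdirect_surj hT D hD_surj Finset.univ
        (fun i _ j _ h => hinj i j h) (e₁ ⟨x, hx⟩)
      have h2 : d = e₁ ⟨x, hx⟩ := funext (fun j => hdx j (Finset.mem_univ j))
      rw [h2] at hd
      exact (hD_mem ⟨x, hx⟩).mp hd
    have hfib : ∀ j : Fin m, Nat.card {i : Fin m // c i = j} = size i₀ ∨
        Nat.card {i : Fin m // c i = j} = 0 := by
      intro j
      by_cases hj : ∃ i, c i = j
      · obtain ⟨i, rfl⟩ := hj
        left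
        rw [Nat.card_eq_fintype_card, Fintype.card_subtype]
        exact hsize_all i
      · right
        have : IsEmpty {i : Fin m // c i = j} := ⟨fun ⟨i, hi⟩ => hj ⟨i, hi⟩⟩
        simp
    have hmemK : ∀ n : N, (n : G) ∈ K ↔ ∀ i j : Fin m, c i = c j → e n i = e n j := by
      intro n
      constructor
      · intro hn i j hij
        rw [heK n hn i, heK n hn j, hij]
      · intro h
        have hJ : ∀ i ∈ Finset.univ.image c, ∀ j ∈ Finset.univ.image c, rel i j → i = j := by
          intro i hi j hj hij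
          obtain ⟨i', -, rfl⟩ := Finset.mem_image.mp hi
          obtain ⟨j', -, rfl⟩ := Finset.mem_image.mp hj
          have h1 := (hc2 _ _).mpr hij
          rwa [hcc, hcc] at h1
        obtain ⟨d, hd, hdx⟩ := subdirect_surj hT D hD_surj (Finset.univ.image c) hJ (e₁ n)
        obtain ⟨n', rfl⟩ := e₁.surjective d
        have hn' : (n' : G) ∈ K := (hD_mem n').mp hd
        have h1 : e n' = e n := by
          funext i
          rw [heK n' hn' i, hdx (c i) (Finset.mem_image_of_mem c (Finset.mem_univ i))]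
          have h2 : e n i = e n (c i) := h i (c i) (hcc i).symm
          rw [h2, he, eq_comm, MulEquiv.symm_apply_eq, hψrep]
        have h2 : n' = n := e.injective h1
        rw [← h2]; exact hn'
    exact ⟨e, Or.inr ⟨size i₀, c, hs₀, hfib, hmemK⟩⟩
  · have hLR := le_or_eq_of_normalized N K hmin hK (LQ R) (hLQ_le R) (hLQ_K R hRφ)
    have hLRK : LQ R ≤ K := by
      rcases hLR with h | h
      · exact h
      · exfalso
        apply hall
        intro i
        rw [eq_top_iff]
        intro t _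
        have hmem : ((e₁.symm (Pi.mulSingle i t) : N) : G) ∈ LQ R := by
          rw [h]; exact (e₁.symm _).2
        have h1 := (hLQ_mem R _).mp hmem i
        rwa [MulEquiv.apply_symm_apply, Pi.mulSingle_eq_same] at h1
    have hRne : ∀ i, R i ≠ ⊤ := by
      intro i₂ hi₂
      let Q : Fin m → Subgroup T := fun i => if R i = ⊤ then ⊤ else ⊥
      have hQn : ∀ i, (Q i).Normal := by
        intro i
        dsimp only [Q]
        split_ifs <;> infer_instance
      have hQφ : ∀ g ∈ K, ∀ i, ∀ t ∈ Q i, φ g i t ∈ Q (π g i) := by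
        intro g hg i t ht
        by_cases hi : R i = ⊤
        · have h1 : R (π g i) = ⊤ := by
            rw [eq_top_iff]
            intro s _
            obtain ⟨s', rfl⟩ := (φ g i).surjective s
            exact hRφ g hg i s' (by rw [hi]; exact Subgroup.mem_top _)
          have h2 : Q (π g i) = ⊤ := if_pos h1
          rw [h2]; exact Subgroup.mem_top _
        · have h2 : Q i = ⊥ := if_neg hi
          rw [h2, Subgroup.mem_bot] at ht
          rw [ht, map_one]; exact Subgroup.one_mem _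
      have h1 := eq_bot_or_eq_of_normalized N K hmin hK hNK (LQ Q) (hLQ_le Q) (hLQ_K Q hQφ)
        (hLQ_N Q hQn)
      have hQR : LQ Q ≤ LQ R := by
        rintro _ ⟨n, hn, rfl⟩
        show (n : G) ∈ LQ R
        rw [hLQ_mem]
        intro i
        have h2 := hn i (Set.mem_univ i)
        by_cases hi : R i = ⊤
        · rw [hi]; exact Subgroup.mem_top _
        · have h3 : Q i = ⊥ := if_neg hi
          have h4 : e₁ n i ∈ Q i := h2
          rw [h3, Subgroup.mem_bot] at h4
          rw [h4]; exact Subgroup.one_mem _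
      obtain ⟨t, ht⟩ := exists_ne (1 : T)
      have hmem : ((e₁.symm (Pi.mulSingle i₂ t) : N) : G) ∈ LQ Q := by
        rw [hLQ_mem]
        intro i
        rw [MulEquiv.apply_symm_apply]
        by_cases hi : i = i₂
        · subst hi
          have h2 : Q i = ⊤ := if_pos hi₂
          rw [h2]; exact Subgroup.mem_top _
        · rw [Pi.mulSingle_eq_of_ne hi]; exact Subgroup.one_mem _
      rcases h1 with h | h
      · rw [h, Subgroup.mem_bot] at hmem
        exact hsingle_ne i₂ t ht hmem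
      · exact hNK (by rw [← h]; exact hQR.trans hLRK)
    exact ⟨e₁, Or.inl ⟨R, hRne, fun n => ⟨fun hn i => (hR_mem i _).mpr ⟨n, hn, rfl⟩,
      fun h => hLRK ((hLQ_mem R n).mpr h)⟩⟩⟩

end Cfsg.Agent.Lib.Helper95.OnanScott
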