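import Mathlib
import Cfsg.Agent.Lib.Helper42.ReeAutStmt

set_option autoImplicit false

/-!
helper95: common computations with the parametrization `APar` of `Cfsg.Agent.Lib.Helper42.ReeAutStmt`
(used by the pieces RIGA, RIGB, RIGC, TORUS of S2127).
-/

namespace Cfsg.Agent.Lib.Helper95.ReeAutCommon

open Cfsg.Agent.Lib.Helper42.ReeAutStmt

universe u v

variable {G : Type u} [Group G] {K : Type v} [Field K] [Fintype K] {φ : K →+* K}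
  {x : K → K → K → G} {e : Kˣ → G}

theorem dec (hP : APar G K φ x e) (t u v : K) : x t u v = x t 0 0 * x 0 u v := by
  rw [hP.x_mul]
  congr 1 <;> simp

theorem decA (hP : APar G K φ x e) (u v : K) : x 0 u v = x 0 u 0 * x 0 0 v := by
  rw [hP.x_mul]
  congr 1 <;> simp

theorem x_zero (hP : APar G K φ x e) : x 0 0 0 = 1 := by
  have h := hP.x_mul 0 0 0 0 0 0
  have h1 : x (0 + 0) (0 + 0 - 0 * φ 0 ^ 3) (0 + 0 - 0 * 0 - 0 ^ 2 * φ 0 ^ 3 + 0 * 0 * φ 0 ^ 3)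
      = x 0 0 0 := by
    congr 1 <;> simp
  rw [h1] at h
  exact mul_eq_left.mp h

theorem cube (hP : APar G K φ x e) (t u v : K) :
    (x t u v) ^ 3 = x 0 0 (-(t ^ 2 * φ t ^ 3)) := by
  rw [pow_succ, pow_two, hP.x_mul, hP.x_mul]
  have h3 := hP.three
  congr 1
  · linear_combination t * h3
  · linear_combination (u - t * φ t ^ 3) * h3
  · linear_combination (v - u * t) * h3

/-- `λ₁` is onto: `λ₁ (r² T r) = r`. -/
theorem lam1 (hP : APar G K φ x e) (r : K) (hr : r ≠ 0) :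
    ∃ s : Kˣ, (s : K) = r ^ 2 * φ r ^ 3 ∧ (s : K) ^ 2 / φ (s : K) ^ 3 = r := by
  have hφr : φ r ≠ 0 := (map_ne_zero φ).mpr hr
  have hs0 : r ^ 2 * φ r ^ 3 ≠ 0 := mul_ne_zero (pow_ne_zero 2 hr) (pow_ne_zero 3 hφr)
  refine ⟨Units.mk0 _ hs0, Units.val_mk0 hs0, ?_⟩
  rw [Units.val_mk0, map_mul, map_pow, map_pow]
  have e1 : (φ r ^ 2 * φ (φ r) ^ 3) ^ 3 = φ r ^ 6 * r ^ 3 := by
    rw [mul_pow, hP.h3 r]
    ring
  rw [e1]
  field_simp

/-- `λ₂ (r T r) = r²`. -/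
theorem lam2 (hP : APar G K φ x e) (r : K) (hr : r ≠ 0) :
    ∃ s : Kˣ, (s : K) = r * φ r ^ 3 ∧ φ (s : K) ^ 3 / (s : K) = r ^ 2 := by
  have hφr : φ r ≠ 0 := (map_ne_zero φ).mpr hr
  have hs0 : r * φ r ^ 3 ≠ 0 := mul_ne_zero hr (pow_ne_zero 3 hφr)
  refine ⟨Units.mk0 _ hs0, Units.val_mk0 hs0, ?_⟩
  rw [Units.val_mk0, map_mul, map_pow]
  have e1 : (φ r * φ (φ r) ^ 3) ^ 3 = φ r ^ 3 * r ^ 3 := by
    rw [mul_pow, hP.h3 r]
  rw [e1]
  field_simp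

end Cfsg.Agent.Lib.Helper95.ReeAutCommon
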