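import Mathlib
import Cfsg.Agent.Lib.Helper42.ReeAutStmt
import Cfsg.Agent.Lib.Helper95.ReeAutCommon

set_option autoImplicit false

/-!
helper95: piece RIGA of S2127 (interface `Cfsg.Agent.Lib.Helper42.ReeAutStmt.RigAP`).
-/

namespace Cfsg.Agent.Lib.Helper95.ReeAutRIGA

open Cfsg.Agent.Lib.Helper42.ReeAutStmt Cfsg.Agent.Lib.Helper95.ReeAutCommon

universe u v

theorem main : RigAP.{u, v} := by
  intro G _ _ K _ _ φ x e hP γ hU hE hZ
  have h3 := hP.three
  choose a1 a2 a3 ha using hU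
  -- `γ` maps `A = {x 0 u v}` (the elements of order dividing 3) to itself
  have hA1 : ∀ u v, a1 0 u v = 0 := by
    intro u v
    have hc := congrArg γ (cube hP 0 u v)
    rw [map_pow, ha, cube hP, hZ] at hc
    obtain ⟨-, -, h4⟩ := hP.x_inj _ _ _ _ _ _ hc
    have h5 : a1 0 u v ^ 2 * φ (a1 0 u v) ^ 3 = 0 := by
      rw [map_zero] at h4
      linear_combination -h4
    rcases mul_eq_zero.mp h5 with h | h
    · exact (pow_eq_zero_iff (by norm_num)).mp h
    · exact (map_eq_zero φ).mp ((pow_eq_zero_iff (by norm_num)).mp h)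
  have hfirst : ∀ t u v, a1 t u v = a1 t 0 0 := by
    intro t u v
    have h := congrArg γ (dec hP t u v)
    rw [map_mul, ha t u v, ha t 0 0, ha 0 u v, hA1, hP.x_mul] at h
    obtain ⟨h1, -, -⟩ := hP.x_inj _ _ _ _ _ _ h
    rw [h1, add_zero]
  have hadd : ∀ t t', a1 (t + t') 0 0 = a1 t 0 0 + a1 t' 0 0 := by
    intro t t'
    have h := congrArg γ (hP.x_mul t 0 0 t' 0 0)
    rw [map_mul, ha t 0 0, ha t' 0 0, ha (t + t'), hP.x_mul, hfirst (t + t')] at h
    obtain ⟨h1, -, -⟩ := hP.x_inj _ _ _ _ _ _ h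
    exact h1.symm
  have heq : ∀ (s : Kˣ) (t : K),
      a1 ((s : K) ^ 2 / φ (s : K) ^ 3 * t) 0 0 = (s : K) ^ 2 / φ (s : K) ^ 3 * a1 t 0 0 := by
    intro s t
    have h := congrArg γ (hP.e_x s t 0 0)
    rw [map_mul, map_mul, hE, ha t 0 0, hP.e_x, ha ((s : K) ^ 2 / φ (s : K) ^ 3 * t)] at h
    have h' := mul_right_cancel h
    obtain ⟨h1, -, -⟩ := hP.x_inj _ _ _ _ _ _ h'
    have h2 := hfirst ((s : K) ^ 2 / φ (s : K) ^ 3 * t) (φ (s : K) ^ 3 / (s : K) * 0) ((s : K) * 0)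
    rw [h2] at h1
    exact h1.symm
  have hlin : ∀ r, a1 r 0 0 = a1 1 0 0 * r := by
    intro r
    by_cases hr : r = 0
    · rw [hr, mul_zero]
      have h0 := hadd 0 0
      rw [add_zero] at h0
      linear_combination -h0
    · obtain ⟨s, hs, hl⟩ := lam1 hP r hr
      have h := heq s 1
      rw [hl, mul_one] at h
      rw [h]; ring
  -- the action on `A`
  have hAform : ∀ u v, γ (x 0 u v) = x 0 (a2 0 u 0) (a3 0 u 0 + v) := by
    intro u v
    rw [decA hP u v, map_mul, ha 0 u 0, hA1, hZ, hP.x_mul]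
    congr 1 <;> simp
  have hgk_add : ∀ u u', a2 0 (u + u') 0 = a2 0 u 0 + a2 0 u' 0 ∧
      a3 0 (u + u') 0 = a3 0 u 0 + a3 0 u' 0 := by
    intro u u'
    have hm : x 0 u 0 * x 0 u' 0 = x 0 (u + u') 0 := by
      rw [hP.x_mul]
      congr 1 <;> simp
    have h := congrArg γ hm
    rw [map_mul, hAform u 0, hAform u' 0, hAform (u + u') 0, hP.x_mul] at h
    obtain ⟨-, h2, h4⟩ := hP.x_inj _ _ _ _ _ _ h
    constructor
    · linear_combination -h2
    · linear_combination -h4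
  have hgk_eq : ∀ (s : Kˣ) (u : K),
      a2 0 (φ (s : K) ^ 3 / (s : K) * u) 0 = φ (s : K) ^ 3 / (s : K) * a2 0 u 0 ∧
      a3 0 (φ (s : K) ^ 3 / (s : K) * u) 0 = (s : K) * a3 0 u 0 := by
    intro s u
    have hex := hP.e_x s 0 u 0
    rw [mul_zero, mul_zero] at hex
    have h := congrArg γ hex
    rw [map_mul, map_mul, hE, hAform u 0, hAform (φ (s : K) ^ 3 / (s : K) * u) 0, hP.e_x] at h
    have h' := mul_right_cancel h
    obtain ⟨-, h2, h4⟩ := hP.x_inj _ _ _ _ _ _ h'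
    constructor
    · exact h2.symm
    · linear_combination -h4
  have hg0 : a2 0 0 0 = 0 := by
    have h0 := (hgk_add 0 0).1
    rw [add_zero] at h0
    linear_combination -h0
  have hk0 : ∀ u, a3 0 u 0 = 0 := by
    intro u
    have h := (hgk_eq (-1) u).2
    have hm : ((-1 : Kˣ) : K) = -1 := by simp
    rw [hm] at h
    have hφm : φ (-1) = -1 := by simp
    rw [hφm] at h
    have e2 : ((-1 : K)) ^ 3 / (-1) = 1 := by norm_num
    rw [e2, one_mul] at h
    linear_combination (a3 0 u 0) * h3 - h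
  have hsq : ∀ r u, a2 0 (r ^ 2 * u) 0 = r ^ 2 * a2 0 u 0 := by
    intro r u
    by_cases hr : r = 0
    · rw [hr]
      simp [hg0]
    · obtain ⟨s, hs, hl⟩ := lam2 hP r hr
      have h := (hgk_eq s u).1
      rw [hl] at h
      exact h
  have hneg : ∀ w, a2 0 (-w) 0 = -a2 0 w 0 := by
    intro w
    have h := (hgk_add w (-w)).1
    rw [add_neg_cancel, hg0] at h
    linear_combination -h
  have hglin : ∀ c, a2 0 c 0 = a2 0 1 0 * c := by
    intro c
    have hc : c = (-c + 1) ^ 2 * 1 + (-((-c) ^ 2 * 1) + (-1)) := by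
      linear_combination c * h3
    conv_lhs => rw [hc]
    rw [(hgk_add _ _).1, (hgk_add _ _).1, hsq, hneg, hsq, hneg]
    linear_combination (-(a2 0 1 0) * c) * h3
  refine ⟨a1 1 0 0, a2 0 1 0, ?_, ?_⟩
  · intro t u v
    refine ⟨a2 t u v, a3 t u v, ?_⟩
    rw [ha, hfirst, hlin]
  · intro u v
    rw [hAform, hglin, hk0, zero_add]

end Cfsg.Agent.Lib.Helper95.ReeAutRIGA
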