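import Mathlib
import Cfsg.Agent.Lib.Helper42.ReeAutStmt
import Cfsg.Agent.Lib.Helper95.ReeAutCommon

set_option autoImplicit false

/-!
helper95: piece RIGB of S2127 (interface `Cfsg.Agent.Lib.Helper42.ReeAutStmt.RigBP`).
-/

namespace Cfsg.Agent.Lib.Helper95.ReeAutRIGB

open Cfsg.Agent.Lib.Helper42.ReeAutStmt Cfsg.Agent.Lib.Helper95.ReeAutCommon

universe u v

theorem main : RigBP.{u, v} := by
  intro G _ _ K _ _ φ x e hP γ hZ b d hb hd
  obtain ⟨u₁, v₁, h1⟩ := hb 1 0 0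
  have h0 := hd 1 0
  -- the commutator relation
  have rel : x 0 1 0 * x 1 0 0 = x 1 0 0 * x 0 1 0 * x 0 0 (-1) := by
    rw [hP.x_mul, hP.x_mul, hP.x_mul]
    congr 1 <;> simp
  have hrel := congrArg γ rel
  rw [map_mul, map_mul, map_mul, h0, h1, hZ, hP.x_mul, hP.x_mul, hP.x_mul] at hrel
  obtain ⟨-, -, h3⟩ := hP.x_inj _ _ _ _ _ _ hrel
  have hbd : d * b = 1 := by
    simp only [map_zero, mul_one, mul_zero, zero_mul, add_zero, zero_add, sub_zero] at h3
    linear_combination -h3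
  -- the cube relation
  have hc := congrArg γ (cube hP 1 0 0)
  rw [map_pow, h1, cube hP, hZ] at hc
  obtain ⟨-, -, h4⟩ := hP.x_inj _ _ _ _ _ _ hc
  have hb2 : b ^ 2 * φ b ^ 3 = 1 := by
    simp only [map_one, mul_one, one_pow] at h4
    linear_combination -h4
  -- apply T
  have hT : (φ b ^ 3) ^ 2 * b ^ 3 = 1 := by
    have h5 := congrArg (fun y => φ y ^ 3) hb2
    simp only [map_mul, map_pow, map_one, one_pow] at h5
    have hb3 : b ^ 3 = (φ (φ b) ^ 3) ^ 3 := by rw [hP.h3 b]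
    rw [hb3]
    rw [← h5]
    ring
  have hb1 : b = 1 := by
    calc b = b * ((φ b ^ 3) ^ 2 * b ^ 3) := by rw [hT, mul_one]
      _ = (b ^ 2 * φ b ^ 3) ^ 2 := by ring
      _ = 1 := by rw [hb2, one_pow]
  refine ⟨hb1, ?_⟩
  rw [hb1, mul_one] at hbd
  exact hbd

end Cfsg.Agent.Lib.Helper95.ReeAutRIGB
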