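import Mathlib
import Cfsg.Agent.Lib.Helper42.ReeAutStmt
import Cfsg.Agent.Lib.Helper95.ReeAutCommon

set_option autoImplicit false

/-!
helper95: piece RIGC of S2127 (interface `Cfsg.Agent.Lib.Helper42.ReeAutStmt.RigCP`).
-/

namespace Cfsg.Agent.Lib.Helper95.ReeAutRIGC

open Cfsg.Agent.Lib.Helper42.ReeAutStmt Cfsg.Agent.Lib.Helper95.ReeAutCommon

universe u v

theorem main : RigCP.{u, v} := by
  intro G _ _ K _ _ φ x e hP γ hE hA hU
  have h3 := hP.three
  choose k1 k2 hk using fun t => hU t 0 0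
  have hgen : ∀ t u v, γ (x t u v) = x t (k1 t + u) (k2 t + v) := by
    intro t u v
    rw [dec hP t u v, map_mul, hk, hA, hP.x_mul]
    congr 1 <;> simp
  have hadd : ∀ t t', k1 (t + t') = k1 t + k1 t' ∧
      k2 (t + t') = k2 t + k2 t' - k1 t * t' := by
    intro t t'
    have h := congrArg γ (hP.x_mul t 0 0 t' 0 0)
    rw [map_mul, hk, hk, hgen, hP.x_mul] at h
    obtain ⟨-, h2, h4⟩ := hP.x_inj _ _ _ _ _ _ h
    constructor
    · linear_combination -h2
    · linear_combination -h4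
  have heq : ∀ (s : Kˣ) (t : K),
      k1 ((s : K) ^ 2 / φ (s : K) ^ 3 * t) = φ (s : K) ^ 3 / (s : K) * k1 t ∧
      k2 ((s : K) ^ 2 / φ (s : K) ^ 3 * t) = (s : K) * k2 t := by
    intro s t
    have h := congrArg γ (hP.e_x s t 0 0)
    rw [map_mul, map_mul, hE, hk, hP.e_x, hgen] at h
    have h' := mul_right_cancel h
    obtain ⟨-, h2, h4⟩ := hP.x_inj _ _ _ _ _ _ h'
    constructor
    · linear_combination -h2
    · linear_combination -h4
  have hk10 : k1 0 = 0 := by
    have h0 := (hadd 0 0).1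
    rw [add_zero] at h0
    linear_combination -h0
  have hk1 : ∀ t, k1 t = 0 := by
    intro t
    have h1 := (heq (-1) t).1
    have hm : ((-1 : Kˣ) : K) = -1 := by simp
    rw [hm] at h1
    have hφm : φ (-1) = -1 := by simp
    rw [hφm] at h1
    have e1 : ((-1 : K)) ^ 2 / (-1) ^ 3 * t = -t := by
      have : ((-1 : K)) ^ 2 / (-1) ^ 3 = -1 := by norm_num
      rw [this]; ring
    have e2 : ((-1 : K)) ^ 3 / (-1) = 1 := by norm_num
    rw [e1, e2, one_mul] at h1
    have h2 := (hadd t (-t)).1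
    rw [add_neg_cancel, hk10, h1] at h2
    linear_combination (k1 t) * h3 + h2
  have hk2add : ∀ t t', k2 (t + t') = k2 t + k2 t' := by
    intro t t'
    have h := (hadd t t').2
    rw [hk1, zero_mul, sub_zero] at h
    exact h
  have hk20 : k2 0 = 0 := by
    have h0 := hk2add 0 0
    rw [add_zero] at h0
    linear_combination -h0
  have hk2f : ∀ r, k2 r = r ^ 2 * φ r ^ 3 * k2 1 := by
    intro r
    by_cases hr : r = 0
    · rw [hr, hk20]; simp
    · obtain ⟨s, hs, hl⟩ := lam1 hP r hr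
      have h := (heq s 1).2
      rw [hl, mul_one, hs] at h
      exact h
  obtain ⟨ζ, hζ⟩ := hP.hζ
  have hc : k2 1 = 0 := by
    have h1 := hk2add ζ 1
    rw [hk2f (ζ + 1), hk2f ζ, map_add, map_one] at h1
    have h2 : (ζ - 1) * (ζ - φ ζ ^ 3) * k2 1 = 0 := by
      linear_combination h1 - ((ζ + 1) ^ 2 * (φ ζ ^ 2 + φ ζ) * k2 1
        + ζ * (φ ζ ^ 3 + 1) * k2 1) * h3
    rcases mul_eq_zero.mp h2 with h | h
    · rcases mul_eq_zero.mp h with h | h
      · exfalso
        apply hζ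
        rw [sub_eq_zero.mp h]
        simp
      · exact absurd (sub_eq_zero.mp h).symm hζ
    · exact h
  intro t u v
  rw [hgen, hk1, hk2f, hc, mul_zero, zero_add, zero_add]

end Cfsg.Agent.Lib.Helper95.ReeAutRIGC
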