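import Mathlib
import Cfsg.Agent.Lib.Helper42.ReeAutStmt
import Cfsg.Agent.Lib.Helper95.ReeAutCommon

set_option autoImplicit false

/-!
helper95: piece TORUS of S2127 (interface `Cfsg.Agent.Lib.Helper42.ReeAutStmt.TorusP`).
-/

namespace Cfsg.Agent.Lib.Helper95.ReeAutTORUS

open Cfsg.Agent.Lib.Helper42.ReeAutStmt Cfsg.Agent.Lib.Helper95.ReeAutCommon

universe u v

theorem main : TorusP.{u, v} := by
  intro G _ _ K _ _ φ x e hP β hU hH
  -- `β` maps `Z = {x 0 0 v}` (the cubes) to itself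
  have hZ : ∀ v, ∃ w, β (x 0 0 v) = x 0 0 w := by
    intro v
    obtain ⟨t, ht⟩ : ∃ t : K, -(t ^ 2 * φ t ^ 3) = v := by
      by_cases hv : v = 0
      · exact ⟨0, by rw [hv]; simp⟩
      · have hnv : -v ≠ 0 := neg_ne_zero.mpr hv
        have hφ : φ (-v) ≠ 0 := (map_ne_zero φ).mpr hnv
        refine ⟨(-v) ^ 2 / φ (-v) ^ 3, ?_⟩
        have key : ((-v) ^ 2 / φ (-v) ^ 3) ^ 2 * φ ((-v) ^ 2 / φ (-v) ^ 3) ^ 3 = -v := by
          rw [map_div₀, map_pow, map_pow]
          have e1 : φ (φ (-v)) ^ 3 = -v := hP.h3 (-v)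
          have e2 : (φ (-v) ^ 2 / φ (φ (-v)) ^ 3) ^ 3 = φ (-v) ^ 6 / (-v) ^ 3 := by
            rw [div_pow, e1]; ring
          rw [e2]
          field_simp
        rw [key, neg_neg]
    obtain ⟨t', u', v', h⟩ := hU t 0 0
    refine ⟨-(t' ^ 2 * φ t' ^ 3), ?_⟩
    rw [← ht, ← cube hP t 0 0, map_pow, h, cube hP]
  choose f hf using hZ
  have hfadd : ∀ v v', f (v + v') = f v + f v' := by
    intro v v'
    have hm : x 0 0 v * x 0 0 v' = x 0 0 (v + v') := by
      rw [hP.x_mul]
      congr 1 <;> simp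
    have h := congrArg β hm
    rw [map_mul, hf v, hf v', hf (v + v'), hP.x_mul] at h
    obtain ⟨-, -, h4⟩ := hP.x_inj _ _ _ _ _ _ h
    linear_combination -h4
  have hf0 : f 0 = 0 := by
    have h0 := hfadd 0 0
    rw [add_zero] at h0
    linear_combination -h0
  have hfinj : ∀ v, f v = 0 → v = 0 := by
    intro v hv
    have h1 := hf v
    have h0 := hf 0
    rw [hv] at h1
    rw [hf0] at h0
    exact (hP.x_inj _ _ _ _ _ _ (β.injective (h1.trans h0.symm))).2.2
  choose τ hτ using hH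
  have hrel : ∀ (s : Kˣ) (v : K), f ((s : K) * v) = (τ s : K) * f v := by
    intro s v
    have hex := hP.e_x s 0 0 v
    rw [mul_zero, mul_zero] at hex
    have h := congrArg β hex
    rw [map_mul, map_mul, hτ, hf v, hf ((s : K) * v), hP.e_x] at h
    have h' := mul_right_cancel h
    obtain ⟨-, -, h4⟩ := hP.x_inj _ _ _ _ _ _ h'
    exact h4.symm
  have hc : f 1 ≠ 0 := fun h => one_ne_zero (hfinj 1 h)
  have hmul : ∀ a b, f (a * b) * f 1 = f a * f b := by
    intro a b
    by_cases ha : a = 0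
    · rw [ha, zero_mul, hf0]; ring
    · have h1 := hrel (Units.mk0 a ha) b
      have h2 := hrel (Units.mk0 a ha) 1
      rw [Units.val_mk0] at h1 h2
      rw [mul_one] at h2
      rw [h1, h2]; ring
  let σ₀ : K →+* K :=
    { toFun := fun v => f v / f 1
      map_one' := div_self hc
      map_mul' := fun a b => by
        show f (a * b) / f 1 = f a / f 1 * (f b / f 1)
        rw [div_mul_div_comm, ← hmul a b, mul_div_mul_right _ _ hc]
      map_zero' := by
        show f 0 / f 1 = 0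
        rw [hf0, zero_div]
      map_add' := fun a b => by
        show f (a + b) / f 1 = f a / f 1 + f b / f 1
        rw [hfadd]; ring }
  have hσinj : Function.Injective σ₀ := σ₀.injective
  have hσbij : Function.Bijective σ₀ := ⟨hσinj, Finite.injective_iff_surjective.mp hσinj⟩
  have hσ : ∀ v, (RingEquiv.ofBijective σ₀ hσbij) v = f v / f 1 := fun v => rfl
  refine ⟨Units.mk0 (f 1) hc, RingEquiv.ofBijective σ₀ hσbij, ?_, ?_⟩
  · intro v
    rw [hf, Units.val_mk0, hσ]
    congr 1
    field_simp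
  · intro s s' hs
    rw [hτ]
    congr 1
    apply Units.ext
    rw [hs, hσ]
    have h2 := hrel s 1
    rw [mul_one] at h2
    rw [h2]
    field_simp

end Cfsg.Agent.Lib.Helper95.ReeAutTORUS
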