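import Mathlib
import Cfsg.Agent.Lib.Helper40.SFStmt
import Cfsg.Agent.Lib.Helper94.SympStd

/-!
helper95: S5664 piece TVBIG: for `2 ≤ n`, a product of four Siegel elements with the same `d`
is a transvection.
-/

set_option autoImplicit false

namespace Cfsg.Agent.Lib.Helper95.SFTVBIG

open Cfsg.Agent.Lib.Helper40.SFStmt Cfsg.Agent.Lib.Helper94.Basic

universe u

section

variable {F L : Type u} [Field F] [Field L] [Algebra F L] {n : ℕ}

theorem ff_zero_left (τ : L →ₗ[F] F) (y : W n L) : ff τ 0 y = 0 := by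
  have h := ff_smul_left τ (0 : F) (0 : W n L) y
  rw [zero_smul, zero_mul] at h
  exact h

theorem ff_zero_right (τ : L →ₗ[F] F) (x : W n L) : ff τ x 0 = 0 := by
  have h := ff_smul_right τ (0 : F) x (0 : W n L)
  rw [zero_smul, zero_mul] at h
  exact h

theorem ff_neg_left (τ : L →ₗ[F] F) (x y : W n L) : ff τ (-x) y = - ff τ x y := by
  have h := ff_add_left τ x (-x) y
  rw [add_neg_cancel, ff_zero_left] at h
  linear_combination -h

theorem ff_neg_right (τ : L →ₗ[F] F) (x y : W n L) : ff τ x (-y) = - ff τ x y := by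
  have h := ff_add_right τ x y (-y)
  rw [add_neg_cancel, ff_zero_right] at h
  linear_combination -h

/-- composition of Siegel elements with the same `d` -/
theorem siegel_mul (τ : L →ₗ[F] F) (e₁ e₂ : W n L ≃ₗ[F] W n L) (d w₁ w₂ : W n L) (c₁ c₂ : F)
    (h₁ : IsSiegel τ e₁ d w₁ c₁) (h₂ : IsSiegel τ e₂ d w₂ c₂)
    (hw₁ : ff τ w₁ d = 0) (hw₂ : ff τ w₂ d = 0) :
    IsSiegel τ (e₁ * e₂) d (w₁ + w₂) (c₁ + c₂ + ff τ w₂ w₁) := by
  intro x
  have hdw₁ : ff τ d w₁ = 0 := by rw [ff_skew, hw₁, neg_zero]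
  have e1 : ff τ (e₂ x) d = ff τ x d := by
    rw [h₂ x]
    simp only [ff_add_left, ff_smul_left, ff_self, hw₂, mul_zero, add_zero]
  have e2 : ff τ (e₂ x) w₁ = ff τ x w₁ + ff τ x d * ff τ w₂ w₁ := by
    rw [h₂ x]
    simp only [ff_add_left, ff_smul_left, hdw₁, mul_zero, add_zero]
  rw [LinearEquiv.mul_apply, h₁ (e₂ x), e1, e2, h₂ x, ff_add_right]
  module

/-- inverse of a Siegel element -/
theorem siegel_inv (τ : L →ₗ[F] F) (e : W n L ≃ₗ[F] W n L) (d w : W n L) (c₀ : F)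
    (h : IsSiegel τ e d w c₀) (hw : ff τ w d = 0) : IsSiegel τ e⁻¹ d (-w) (-c₀) := by
  intro x
  have hdw : ff τ d w = 0 := by rw [ff_skew, hw, neg_zero]
  have key : e (x + ff τ x (-w) • d + ff τ x d • (-w) + (-c₀ * ff τ x d) • d) = x := by
    have e1 : ff τ (x + ff τ x (-w) • d + ff τ x d • (-w) + (-c₀ * ff τ x d) • d) d =
        ff τ x d := by
      simp only [ff_add_left, ff_smul_left, ff_neg_left, ff_self, hw, mul_zero, add_zero,
        neg_zero]
    have e2 : ff τ (x + ff τ x (-w) • d + ff τ x d • (-w) + (-c₀ * ff τ x d) • d) w =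
        ff τ x w := by
      simp only [ff_add_left, ff_smul_left, ff_neg_left, ff_self, hdw, mul_zero, add_zero,
        neg_zero]
    rw [h, e1, e2, ff_neg_right]
    module
  have h2 : e⁻¹ (e (x + ff τ x (-w) • d + ff τ x d • (-w) + (-c₀ * ff τ x d) • d)) =
      x + ff τ x (-w) • d + ff τ x d • (-w) + (-c₀ * ff τ x d) • d := by
    rw [← LinearEquiv.mul_apply, inv_mul_cancel]
    rfl
  rw [key] at h2
  exact h2

/-- a Siegel element with `w = 0` is a transvection -/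
theorem siegel_tv (τ : L →ₗ[F] F) (k : W n L ≃ₗ[F] W n L) (d w : W n L) (c s : F)
    (hk : IsSiegel τ k d w c) (hw : w = 0) (hc : c = s) : IsTv τ k d s := by
  intro x
  rw [hk x, hw, hc, ff_zero_right, zero_smul, smul_zero, add_zero, add_zero]

end

theorem main (h : Orbit.{u}) : TvBig.{u} := by
  intro F L _ _ _ n c hn e he d w c₀ hS hd hwd hB
  obtain ⟨y1, y2, hy1, hy2, hy12⟩ := Cfsg.Agent.Lib.Helper94.SympGen.exists_hyp_perp
    (Cfsg.Agent.Lib.Helper94.SympStd.sympForm_isSymplectic (F := L) (m := n))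
    (by rw [Fintype.card_sum, Fintype.card_fin]; omega) d
  obtain ⟨b, hb⟩ : ∃ b, c.τ b ≠ 0 := by
    by_contra hcon
    push Not at hcon
    exact c.hτ (LinearMap.ext hcon)
  obtain ⟨y3, hy3, hf⟩ : ∃ y3 : W n L, Cfsg.sympForm n L y3 d = 0 ∧ ff c.τ y3 y2 ≠ 0 := by
    refine ⟨(b / Cfsg.sympForm n L y1 y2) • y1, ?_, ?_⟩
    · rw [sympForm_smul_left, hy1, mul_zero]
    · rw [ff_lsmul_left, div_mul_cancel₀ _ hy12]
      exact hb
  obtain ⟨e1, he1, hS1⟩ := h F L n c e he d w c₀ hS hB y2 hy2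
  obtain ⟨e2, he2, hS2⟩ := h F L n c e he d w c₀ hS hB y3 hy3
  have hy23 : Cfsg.sympForm n L (y2 + y3) d = 0 := by
    rw [sympForm_add_left, hy2, hy3, add_zero]
  obtain ⟨e3, he3, hS3⟩ := h F L n c e he d w c₀ hS hB (y2 + y3) hy23
  have fu : ff c.τ y2 d = 0 := by unfold ff; rw [hy2, map_zero]
  have fu' : ff c.τ y3 d = 0 := by unfold ff; rw [hy3, map_zero]
  have f1 : ff c.τ (w + y2) d = 0 := by rw [ff_add_left, hwd, fu, add_zero]
  have f2 : ff c.τ (w + y3) d = 0 := by rw [ff_add_left, hwd, fu', add_zero]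
  have f3 : ff c.τ (w + (y2 + y3)) d = 0 := by
    rw [ff_add_left, ff_add_left, hwd, fu, fu', add_zero, add_zero]
  have fn : ff c.τ (-w) d = 0 := by rw [ff_neg_left, hwd, neg_zero]
  have fn3 : ff c.τ (-(w + (y2 + y3))) d = 0 := by rw [ff_neg_left, f3, neg_zero]
  have A1 := siegel_mul c.τ e1 e⁻¹ d _ _ _ _ hS1 (siegel_inv c.τ e d w c₀ hS hwd) f1 fn
  have f12 : ff c.τ (w + y2 + -w) d = 0 := by rw [ff_add_left, f1, fn, add_zero]
  have A2 := siegel_mul c.τ (e1 * e⁻¹) e2 d _ _ _ _ A1 hS2 f12 f2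
  have f123 : ff c.τ (w + y2 + -w + (w + y3)) d = 0 := by rw [ff_add_left, f12, f2, add_zero]
  have A3 := siegel_mul c.τ (e1 * e⁻¹ * e2) e3⁻¹ d _ _ _ _ A2
    (siegel_inv c.τ e3 d _ c₀ hS3 f3) f123 fn3
  refine ⟨e1 * e⁻¹ * e2 * e3⁻¹, ?_, d, ff c.τ y3 y2, hd, hf, ?_⟩
  · exact c.M.mul_mem (c.M.mul_mem (c.M.mul_mem he1 (c.M.inv_mem he)) he2) (c.M.inv_mem he3)
  · refine siegel_tv c.τ _ d _ _ _ A3 ?_ ?_
    · abel
    · have h1 := ff_skew c.τ y2 w
      have h2 := ff_skew c.τ y3 w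
      have h3 := ff_skew c.τ y2 y3
      simp only [ff_add_left, ff_add_right, ff_neg_left, ff_neg_right, ff_self]
      linear_combination (-1 : F) * h1 + (-1 : F) * h2 + (-1 : F) * h3

end Cfsg.Agent.Lib.Helper95.SFTVBIG
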