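import Mathlib
import Cfsg.Agent.Lib.Helper52.SpStmt

set_option autoImplicit false

namespace Cfsg.Agent.Lib.Helper95.SpSS

open Matrix Cfsg.Agent.Lib.Helper52.SpStmt

universe u
variable {m : ℕ} {F : Type u} [Field F]

/-- basis vector -/
abbrev ev (k : Fin m) : Fin m → F := Pi.single k 1

theorem congr_vmv (A : Matrix (Fin m) (Fin m) F) (u v : Fin m → F) :
    A * vecMulVec u v * Aᵀ = vecMulVec (A *ᵥ u) (A *ᵥ v) := by
  rw [Matrix.mul_vecMulVec, Matrix.vecMulVec_mul, Matrix.vecMul_transpose]

theorem single_eq (i j : Fin m) (b : F) :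
    Matrix.single i j b = b • vecMulVec (ev i) (ev j : Fin m → F) := by
  rw [← Matrix.single_eq_single_vecMulVec_single, Matrix.smul_single, smul_eq_mul, mul_one]

theorem zmat_eq (i0 i1 : Fin m) (a c : F) :
    zmat i0 i1 a c = a • vecMulVec (ev i0) (ev i0 : Fin m → F) +
      c • (vecMulVec (ev i0) (ev i1 : Fin m → F) + vecMulVec (ev i1) (ev i0 : Fin m → F)) := by
  unfold zmat
  rw [single_eq, single_eq, single_eq, smul_add]

theorem altm_eq (i j : Fin m) (b : F) :
    altm i j b = b • (vecMulVec (ev i) (ev j : Fin m → F) + vecMulVec (ev j) (ev i : Fin m → F)) := by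
  unfold altm
  rw [single_eq, single_eq, smul_add]

theorem perm_mulVec (σ : Equiv.Perm (Fin m)) (k : Fin m) :
    σ.permMatrix F *ᵥ (ev k : Fin m → F) = ev (σ.symm k) := by
  rw [Matrix.permMatrix_mulVec]
  funext r
  simp only [Function.comp_apply, ev, Pi.single_apply]
  by_cases h : σ r = k
  · rw [if_pos h, if_pos]; rw [← h]; simp
  · rw [if_neg h, if_neg]; intro h'; apply h; rw [h']; simp

theorem perm_det_isUnit (σ : Equiv.Perm (Fin m)) : IsUnit (σ.permMatrix F).det := by
  rw [Matrix.det_permutation]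
  rcases Int.units_eq_one_or (Equiv.Perm.sign σ) with h | h
  · rw [h]; simp
  · rw [h]; simp

theorem diag_mulVec (d : Fin m → F) (k : Fin m) :
    Matrix.diagonal d *ᵥ (ev k : Fin m → F) = d k • ev k := by
  rw [Matrix.diagonal_mulVec_single]
  funext r
  simp [Pi.single_apply]

theorem transv_mulVec_same (k l : Fin m) (c : F) :
    (1 + Matrix.single k l c) *ᵥ (ev l : Fin m → F) = ev l + c • ev k := by
  rw [Matrix.add_mulVec, Matrix.one_mulVec, Matrix.single_mulVec]
  funext r
  simp [Function.update_apply, Pi.single_apply]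

theorem transv_mulVec_ne (k l r : Fin m) (hr : r ≠ l) (c : F) :
    (1 + Matrix.single k l c) *ᵥ (ev r : Fin m → F) = ev r := by
  rw [Matrix.add_mulVec, Matrix.one_mulVec, Matrix.single_mulVec]
  funext s
  simp [Pi.single_apply, Ne.symm hr]

theorem transv_det_isUnit (k l : Fin m) (hkl : k ≠ l) (c : F) :
    IsUnit (1 + Matrix.single k l c : Matrix (Fin m) (Fin m) F).det := by
  have : (1 + Matrix.single k l c : Matrix (Fin m) (Fin m) F) = Matrix.transvection k l c := rfl
  rw [this, Matrix.det_transvection_of_ne k l hkl]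
  exact isUnit_one

theorem exists_perm {k l i j : Fin m} (hkl : k ≠ l) (hij : i ≠ j) :
    ∃ τ : Equiv.Perm (Fin m), τ k = i ∧ τ l = j := by
  refine ⟨Equiv.swap (Equiv.swap k i l) j * Equiv.swap k i, ?_, ?_⟩
  · rw [Equiv.Perm.mul_apply, Equiv.swap_apply_left]
    apply Equiv.swap_apply_of_ne_of_ne
    · intro h
      have : Equiv.swap k i k = Equiv.swap k i l := by rw [Equiv.swap_apply_left]; exact h
      exact hkl ((Equiv.swap k i).injective this)
    · exact hij
  · rw [Equiv.Perm.mul_apply, Equiv.swap_apply_left]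

section main

variable (T0 : AddSubgroup (Matrix (Fin m) (Fin m) F))
  (hcong : ∀ A : Matrix (Fin m) (Fin m) F, IsUnit A.det → ∀ M ∈ T0, A * M * Aᵀ ∈ T0)

include hcong

theorem congr_R (A : Matrix (Fin m) (Fin m) F) (hA : IsUnit A.det) (x : F) (u : Fin m → F)
    (h : x • vecMulVec u u ∈ T0) : x • vecMulVec (A *ᵥ u) (A *ᵥ u) ∈ T0 := by
  have h1 := hcong A hA _ h
  rw [Matrix.mul_smul, Matrix.smul_mul, congr_vmv] at h1
  exact h1

theorem congr_Pl (A : Matrix (Fin m) (Fin m) F) (hA : IsUnit A.det) (x : F) (u v : Fin m → F)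
    (h : x • (vecMulVec u v + vecMulVec v u) ∈ T0) :
    x • (vecMulVec (A *ᵥ u) (A *ᵥ v) + vecMulVec (A *ᵥ v) (A *ᵥ u)) ∈ T0 := by
  have h1 := hcong A hA _ h
  rw [Matrix.mul_smul, Matrix.smul_mul, Matrix.mul_add, Matrix.add_mul, congr_vmv, congr_vmv] at h1
  exact h1

theorem scale_mem (x : F) (M : Matrix (Fin m) (Fin m) F) (hM : M ∈ T0) : (x * x) • M ∈ T0 := by
  by_cases hx : x = 0
  · rw [hx, mul_zero, zero_smul]; exact T0.zero_mem
  · have hA : IsUnit (x • (1 : Matrix (Fin m) (Fin m) F)).det := by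
      rw [Matrix.det_smul, Matrix.det_one, mul_one]
      exact (pow_ne_zero _ hx).isUnit
    have h1 := hcong _ hA M hM
    rw [Matrix.transpose_smul, Matrix.transpose_one, Matrix.smul_mul, Matrix.one_mul,
      Matrix.mul_smul, Matrix.mul_one, smul_smul] at h1
    exact h1

theorem lemD [Fintype F] (k : Fin m) (a' : F) (ha' : a' ≠ 0)
    (h : a' • vecMulVec (ev k) (ev k : Fin m → F) ∈ T0) :
    (∀ i : Fin m, ∀ d : F, Matrix.single i i d ∈ T0) ∧
    (∀ i j : Fin m, i ≠ j → ∀ b : F, altm i j b ∈ T0) := by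
  -- step 1
  have h1 : ∀ i : Fin m, a' • vecMulVec (ev i) (ev i : Fin m → F) ∈ T0 := by
    intro i
    have := congr_R T0 hcong (Equiv.Perm.permMatrix F (Equiv.swap k i).symm) (perm_det_isUnit _) a' _ h
    rw [perm_mulVec, Equiv.symm_symm, Equiv.swap_apply_left] at this
    exact this
  -- step 3
  have h3 : ∀ i : Fin m, ∀ d : F, d • vecMulVec (ev i) (ev i : Fin m → F) ∈ T0 := by
    intro i d
    by_cases h2 : (2 : F) = 0
    · have hch : ringChar F = 2 := CharP.ringChar_of_prime_eq_zero Nat.prime_two (by exact_mod_cast h2)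
      obtain ⟨y, hy⟩ := FiniteField.isSquare_of_char_two hch (d / a')
      have := scale_mem T0 hcong y _ (h1 i)
      rw [smul_smul, ← hy, div_mul_cancel₀ d ha'] at this
      exact this
    · have hy := scale_mem T0 hcong ((d / a' + 1) / 2) _ (h1 i)
      have hz := scale_mem T0 hcong ((d / a' - 1) / 2) _ (h1 i)
      have := T0.sub_mem hy hz
      rw [← sub_smul, smul_smul] at this
      have e : ((d / a' + 1) / 2 * ((d / a' + 1) / 2) - (d / a' - 1) / 2 * ((d / a' - 1) / 2)) * a'
          = d := by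
        field_simp
        ring
      rw [e] at this
      exact this
  refine ⟨fun i d => by rw [single_eq]; exact h3 i d, ?_⟩
  intro i j hij b
  have hb : a' * (b / a') = b := mul_div_cancel₀ b ha'
  generalize b / a' = β at hb
  have ht := congr_R T0 hcong (1 + Matrix.single j i β) (transv_det_isUnit j i hij.symm _)
    a' _ (h1 i)
  rw [transv_mulVec_same] at ht
  rw [Matrix.add_vecMulVec, Matrix.vecMulVec_add, Matrix.vecMulVec_add, Matrix.smul_vecMulVec,
    Matrix.smul_vecMulVec, Matrix.vecMulVec_smul, Matrix.vecMulVec_smul] at ht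
  have h5 := T0.sub_mem (T0.sub_mem ht (h1 i)) (h3 j (a' * β * β))
  rw [altm_eq, ← hb]
  have e : a' • (vecMulVec (ev i) (ev i : Fin m → F) + β • vecMulVec (ev i) (ev j : Fin m → F) +
        (β • vecMulVec (ev j) (ev i : Fin m → F) +
          β • β • vecMulVec (ev j) (ev j : Fin m → F))) -
      a' • vecMulVec (ev i) (ev i : Fin m → F) -
      (a' * β * β) • vecMulVec (ev j) (ev j : Fin m → F) =
      (a' * β) • (vecMulVec (ev i) (ev j : Fin m → F) + vecMulVec (ev j) (ev i : Fin m → F)) := by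
    module
  rw [← e]
  exact h5

theorem lemP (k l : Fin m) (hkl : k ≠ l) (c' : F) (hc' : c' ≠ 0)
    (h : c' • (vecMulVec (ev k) (ev l : Fin m → F) + vecMulVec (ev l) (ev k : Fin m → F)) ∈ T0) :
    ∀ i j : Fin m, i ≠ j → ∀ b : F, altm i j b ∈ T0 := by
  intro i j hij b
  rw [altm_eq]
  by_cases hb : b = 0
  · rw [hb, zero_smul]; exact T0.zero_mem
  classical
  have hA : IsUnit (Matrix.diagonal (fun r : Fin m => if r = k then b / c' else 1)).det := by
    rw [Matrix.det_diagonal]
    apply IsUnit.mk0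
    rw [Finset.prod_ne_zero_iff]
    intro r _
    split_ifs
    · exact div_ne_zero hb hc'
    · exact one_ne_zero
  have h1 := congr_Pl T0 hcong _ hA c' _ _ h
  rw [diag_mulVec, diag_mulVec, if_pos rfl, if_neg hkl.symm, one_smul, Matrix.smul_vecMulVec,
    Matrix.vecMulVec_smul, ← smul_add, smul_smul, mul_div_cancel₀ b hc'] at h1
  obtain ⟨τ, hτk, hτl⟩ := exists_perm hkl hij
  have h2 := congr_Pl T0 hcong (Equiv.Perm.permMatrix F τ.symm) (perm_det_isUnit _) b _ _ h1
  rw [perm_mulVec, perm_mulVec, Equiv.symm_symm, hτk, hτl] at h2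
  exact h2

omit hcong in
theorem sym_mem (hd : ∀ i : Fin m, ∀ d : F, Matrix.single i i d ∈ T0)
    (ha : ∀ i j : Fin m, i ≠ j → ∀ b : F, altm i j b ∈ T0)
    (M : Matrix (Fin m) (Fin m) F) (hM : M.IsSymm) : M ∈ T0 := by
  -- N + Nᵀ ∈ T0 for every N
  have hN : ∀ N : Matrix (Fin m) (Fin m) F, N + Nᵀ ∈ T0 := by
    intro N
    have e : N + Nᵀ = ∑ i : Fin m, ∑ j : Fin m,
        (Matrix.single i j (N i j) + Matrix.single j i (N i j)) := by
      have h1 := Matrix.matrix_eq_sum_single N
      have h2 : Nᵀ = ∑ i : Fin m, ∑ j : Fin m, Matrix.single j i (N i j) := by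
        conv_lhs => rw [h1]
        rw [Matrix.transpose_sum]
        refine Finset.sum_congr rfl fun i _ => ?_
        rw [Matrix.transpose_sum]
        refine Finset.sum_congr rfl fun j _ => ?_
        rw [Matrix.transpose_single]
      conv_lhs => rw [h2]
      conv_lhs => lhs; rw [h1]
      rw [← Finset.sum_add_distrib]
      refine Finset.sum_congr rfl fun i _ => ?_
      rw [← Finset.sum_add_distrib]
    rw [e]
    refine T0.sum_mem fun i _ => T0.sum_mem fun j _ => ?_
    by_cases hij : i = j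
    · subst hij
      rw [← Matrix.single_add]
      exact hd i _
    · exact ha i j hij _
  -- diagonal matrices
  have hD : ∀ d : Fin m → F, Matrix.diagonal d ∈ T0 := by
    intro d
    rw [Matrix.matrix_eq_sum_single (Matrix.diagonal d)]
    refine T0.sum_mem fun i _ => T0.sum_mem fun j _ => ?_
    by_cases hij : i = j
    · subst hij
      exact hd i _
    · rw [Matrix.diagonal_apply_ne _ hij, Matrix.single_zero]
      exact T0.zero_mem
  have e : M = Matrix.diagonal (fun i => M i i) +
      ((Matrix.of fun i j : Fin m => if i < j then M i j else 0) +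
        (Matrix.of fun i j : Fin m => if i < j then M i j else 0)ᵀ) := by
    ext r s
    simp only [Matrix.add_apply, Matrix.transpose_apply, Matrix.of_apply, Matrix.diagonal_apply]
    rcases lt_trichotomy r s with h | h | h
    · rw [if_neg (ne_of_lt h), if_pos h, if_neg (not_lt.2 (le_of_lt h))]; simp
    · subst h; simp
    · rw [if_neg (ne_of_gt h), if_neg (not_lt.2 (le_of_lt h)), if_pos h]
      have := congrFun (congrFun hM s) r
      rw [Matrix.transpose_apply] at this
      rw [this]; simp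
  rw [e]
  exact T0.add_mem (hD _) (hN _)

end main

theorem main : SymSpan.{u} := by
  intro m F _ _ hm hq T0 hcong i0 i1 hi0 hi1 a c hne hc hZ
  classical
  have h01 : i0 ≠ i1 := by
    intro h
    rw [h] at hi0
    omega
  rw [zmat_eq] at hZ
  -- general congruence of Z
  have hZA : ∀ A : Matrix (Fin m) (Fin m) F, IsUnit A.det →
      a • vecMulVec (A *ᵥ (ev i0 : Fin m → F)) (A *ᵥ (ev i0 : Fin m → F)) +
      c • (vecMulVec (A *ᵥ (ev i0 : Fin m → F)) (A *ᵥ (ev i1 : Fin m → F)) +
        vecMulVec (A *ᵥ (ev i1 : Fin m → F)) (A *ᵥ (ev i0 : Fin m → F))) ∈ T0 := by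
    intro A hA
    have h1 := hcong A hA _ hZ
    rw [Matrix.mul_add, Matrix.add_mul, Matrix.mul_smul, Matrix.smul_mul, Matrix.mul_smul,
      Matrix.smul_mul, Matrix.mul_add, Matrix.add_mul, congr_vmv, congr_vmv, congr_vmv] at h1
    exact h1
  -- from a rank-one element everything follows
  have fromD : ∀ a' : F, a' ≠ 0 → a' • vecMulVec (ev i0) (ev i0 : Fin m → F) ∈ T0 →
      (∀ i j : Fin m, i ≠ j → ∀ b : F, altm i j b ∈ T0) ∧
      (((2 : F) ≠ 0 ∨ a ≠ 0) → ∀ M : Matrix (Fin m) (Fin m) F, M.IsSymm → M ∈ T0) := by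
    intro a' ha' h
    obtain ⟨hd, ha⟩ := lemD T0 hcong i0 a' ha' h
    exact ⟨ha, fun _ M hM => sym_mem T0 hd ha M hM⟩
  by_cases hc0 : c = 0
  · have ha0 : a ≠ 0 := by
      rcases hne with h | h
      · exact h
      · exact absurd hc0 h
    rw [hc0, zero_smul, add_zero] at hZ
    exact fromD a ha0 hZ
  have h2 : (2 : F) = 0 := by
    rcases hc with h | h
    · exact absurd h hc0
    · exact h
  by_cases ha0 : a = 0
  · rw [ha0, zero_smul, zero_add] at hZ
    refine ⟨lemP T0 hcong i0 i1 h01 c hc0 hZ, ?_⟩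
    rintro (h | h)
    · exact absurd h2 h
    · exact absurd ha0 h
  -- a ≠ 0, c ≠ 0, char 2
  by_cases hcard : 3 ≤ Fintype.card F
  · -- pick μ ∉ {0, 1}
    have hμ : ∃ μ : F, μ ≠ 0 ∧ μ ≠ 1 := by
      by_contra hcon
      push Not at hcon
      have hsub : (Finset.univ : Finset F) ⊆ {0, 1} := by
        intro x _
        by_cases hx : x = 0
        · simp [hx]
        · simp [hcon x hx]
      have := Finset.card_le_card hsub
      have h3 : (({0, 1} : Finset F)).card ≤ 2 := Finset.card_insert_le _ _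
      rw [Finset.card_univ] at this
      omega
    obtain ⟨μ, hμ0, hμ1⟩ := hμ
    have hA : IsUnit (Matrix.diagonal (fun r : Fin m => if r = i0 then μ else
        if r = i1 then μ⁻¹ else 1)).det := by
      rw [Matrix.det_diagonal]
      apply IsUnit.mk0
      rw [Finset.prod_ne_zero_iff]
      intro r _
      split_ifs
      · exact hμ0
      · exact inv_ne_zero hμ0
      · exact one_ne_zero
    have h1 := hZA _ hA
    rw [diag_mulVec, diag_mulVec, if_pos rfl, if_neg h01.symm, if_pos rfl] at h1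
    have key : a • vecMulVec (μ • (ev i0 : Fin m → F)) (μ • (ev i0 : Fin m → F)) +
        c • (vecMulVec (μ • (ev i0 : Fin m → F)) (μ⁻¹ • (ev i1 : Fin m → F)) +
          vecMulVec (μ⁻¹ • (ev i1 : Fin m → F)) (μ • (ev i0 : Fin m → F))) =
        (a * (μ * μ)) • vecMulVec (ev i0) (ev i0 : Fin m → F) +
        c • (vecMulVec (ev i0) (ev i1 : Fin m → F) + vecMulVec (ev i1) (ev i0 : Fin m → F)) := by
      simp only [Matrix.smul_vecMulVec, Matrix.vecMulVec_smul, smul_smul, mul_inv_cancel₀ hμ0,
        inv_mul_cancel₀ hμ0, one_smul]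
    rw [key] at h1
    have h3 := T0.sub_mem h1 hZ
    rw [add_sub_add_right_eq_sub, ← sub_smul] at h3
    have hne' : a * (μ * μ) - a ≠ 0 := by
      have e : a * (μ * μ) - a = a * ((μ - 1) * (μ - 1)) := by
        linear_combination (a * (μ - 1)) * h2
      rw [e]
      exact mul_ne_zero ha0 (mul_ne_zero (sub_ne_zero.2 hμ1) (sub_ne_zero.2 hμ1))
    exact fromD _ hne' h3
  · -- card F ≤ 2, so m ≥ 3
    have hm3 : 3 ≤ m := by
      by_contra hcon
      have : m = 2 := by omega
      exact hcard (hq this)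
    let i2 : Fin m := ⟨2, by omega⟩
    have h02 : i0 ≠ i2 := by
      intro h
      have := congrArg Fin.val h
      simp only [i2] at this
      omega
    have h12 : i1 ≠ i2 := by
      intro h
      have := congrArg Fin.val h
      simp only [i2] at this
      omega
    have h1 := hZA _ (transv_det_isUnit i2 i1 h12.symm 1)
    rw [transv_mulVec_same, transv_mulVec_ne i2 i1 i0 h01] at h1
    rw [one_smul, Matrix.vecMulVec_add, Matrix.add_vecMulVec] at h1
    have h3 := T0.sub_mem h1 hZ
    have e : a • vecMulVec (ev i0) (ev i0 : Fin m → F) +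
        c • (vecMulVec (ev i0) (ev i1 : Fin m → F) + vecMulVec (ev i0) (ev i2 : Fin m → F) +
          (vecMulVec (ev i1) (ev i0 : Fin m → F) + vecMulVec (ev i2) (ev i0 : Fin m → F))) -
        (a • vecMulVec (ev i0) (ev i0 : Fin m → F) +
          c • (vecMulVec (ev i0) (ev i1 : Fin m → F) + vecMulVec (ev i1) (ev i0 : Fin m → F))) =
        c • (vecMulVec (ev i0) (ev i2 : Fin m → F) + vecMulVec (ev i2) (ev i0 : Fin m → F)) := by
      simp only [smul_add]
      abel
    rw [e] at h3
    have hP := lemP T0 hcong i0 i2 h02 c hc0 h3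
    have h4 := hP i0 i1 h01 c
    rw [altm_eq] at h4
    have h5 := T0.sub_mem hZ h4
    rw [add_sub_cancel_right] at h5
    exact fromD a ha0 h5

end Cfsg.Agent.Lib.Helper95.SpSS
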