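import Mathlib
import Cfsg.Agent.Lib.Helper37.SpTStmt

set_option autoImplicit false

namespace Cfsg.Agent.Lib.Helper95.SpTORTHRANK

open scoped Matrix

universe u

theorem pow_isom {F : Type u} [Field F] {n : ℕ} (G B : Matrix (Fin n) (Fin n) F)
    (hB : Bᵀ * G * B = G) (j : ℕ) : (B ^ j)ᵀ * G * B ^ j = G := by
  induction j with
  | zero => simp
  | succ j ih =>
    rw [pow_succ, Matrix.transpose_mul]
    calc Bᵀ * (B ^ j)ᵀ * G * (B ^ j * B) = Bᵀ * ((B ^ j)ᵀ * G * B ^ j) * B := by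
          simp only [Matrix.mul_assoc]
      _ = G := by rw [ih, hB]

theorem main : Cfsg.Agent.Lib.Helper37.SpTStmt.SkewRank.{u} →
    Cfsg.Agent.Lib.Helper37.SpTStmt.OrthRank.{u} := by
  intro hskew F _ h2 r hr n G B hG hGdet hB hBr
  obtain ⟨k, hk⟩ := hr
  obtain ⟨C, hC⟩ : ∃ C : Matrix (Fin n) (Fin n) F, C = B ^ (k + 1) := ⟨_, rfl⟩
  obtain ⟨Ci, hCi⟩ : ∃ Ci : Matrix (Fin n) (Fin n) F, Ci = B ^ k := ⟨_, rfl⟩
  have hCC : C * C = B := by
    rw [hC, ← pow_add]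
    have : k + 1 + (k + 1) = r + 1 := by omega
    rw [this, pow_succ, hBr, one_mul]
  have hCCi : C * Ci = 1 := by
    rw [hC, hCi, ← pow_add]
    have : k + 1 + k = r := by omega
    rw [this, hBr]
  have hCisom : Cᵀ * G * C = G := by rw [hC]; exact pow_isom G B hB (k + 1)
  have hCdet : IsUnit C.det := Matrix.isUnit_det_of_right_inverse hCCi
  have e1 : Cᵀ * G = G * Ci := by
    calc Cᵀ * G = Cᵀ * G * (C * Ci) := by rw [hCCi, Matrix.mul_one]
      _ = (Cᵀ * G * C) * Ci := by simp only [Matrix.mul_assoc]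
      _ = G * Ci := by rw [hCisom]
  have e2 : Ciᵀ * G = G * C := by
    calc Ciᵀ * G = Ciᵀ * (Cᵀ * G * C) := by rw [hCisom]
      _ = (C * Ci)ᵀ * G * C := by rw [Matrix.transpose_mul]; simp only [Matrix.mul_assoc]
      _ = G * C := by rw [hCCi, Matrix.transpose_one, Matrix.one_mul]
  have hK : (G * (C - Ci))ᵀ = -(G * (C - Ci)) := by
    rw [Matrix.transpose_mul, Matrix.transpose_sub, hG, Matrix.sub_mul, e1, e2, Matrix.mul_sub]
    abel
  have hB1 : B - 1 = C * (C - Ci) := by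
    rw [Matrix.mul_sub, hCC, hCCi]
  have hev := hskew F h2 n (G * (C - Ci)) hK
  rw [hB1, Matrix.rank_mul_eq_right_of_isUnit_det _ _ hCdet]
  rw [Matrix.rank_mul_eq_right_of_isUnit_det _ _ (isUnit_iff_ne_zero.mpr hGdet)] at hev
  exact hev

end Cfsg.Agent.Lib.Helper95.SpTORTHRANK

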