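import Mathlib
import Cfsg.Agent.Lib.Helper37.SpTStmt
import Cfsg.Agent.Lib.Helper40.AltRank

set_option autoImplicit false

namespace Cfsg.Agent.Lib.Helper95.SpTSKEWRANK

open scoped Matrix

universe u

theorem main : Cfsg.Agent.Lib.Helper37.SpTStmt.SkewRank.{u} := by
  intro F _ h2 n M hM
  apply Cfsg.Agent.Lib.Helper40.AltRank.even_rank_of_alt
  intro v
  have h1 : v ⬝ᵥ (M *ᵥ v) = -(v ⬝ᵥ (M *ᵥ v)) := by
    calc v ⬝ᵥ (M *ᵥ v) = (v ᵥ* M) ⬝ᵥ v := Matrix.dotProduct_mulVec v M v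
      _ = (Mᵀ *ᵥ v) ⬝ᵥ v := by rw [Matrix.mulVec_transpose]
      _ = ((-M) *ᵥ v) ⬝ᵥ v := by rw [hM]
      _ = -((M *ᵥ v) ⬝ᵥ v) := by rw [Matrix.neg_mulVec, neg_dotProduct]
      _ = -(v ⬝ᵥ (M *ᵥ v)) := by rw [dotProduct_comm]
  have h3 : (2 : F) * (v ⬝ᵥ (M *ᵥ v)) = 0 := by linear_combination h1
  exact (mul_eq_zero.mp h3).resolve_left h2

end Cfsg.Agent.Lib.Helper95.SpTSKEWRANK

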