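import Mathlib
import Cfsg.Agent.Lib.Helper37.SpTStmt

set_option autoImplicit false

namespace Cfsg.Agent.Lib.Helper95.SpTTRANK

open scoped Matrix MatrixGroups
open Cfsg.Agent.Lib.Helper37.SpTStmt

universe u

theorem main : Cfsg.Agent.Lib.Helper37.SpTStmt.TRank.{u} := by
  intro F _ ι _ _ a b e P X μ
  have hcoe : ((toKron e P X : GL (Fin a × Fin b) F) : Matrix (Fin a × Fin b) (Fin a × Fin b) F)
      = Matrix.reindex e e (((P⁻¹ : GL ι F) : Matrix ι ι F) * (X : Matrix ι ι F)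
          * (P : Matrix ι ι F)) := by
    show ((Cfsg.Geo.glReindex e (MulAut.conj P⁻¹ X) : GL (Fin a × Fin b) F) :
      Matrix (Fin a × Fin b) (Fin a × Fin b) F) = _
    rw [MulAut.conj_apply, inv_inv]
    rfl
  have hPdet : IsUnit (P : Matrix ι ι F).det := (Matrix.isUnit_iff_isUnit_det _).mp P.isUnit
  have hPidet : IsUnit ((P⁻¹ : GL ι F) : Matrix ι ι F).det :=
    (Matrix.isUnit_iff_isUnit_det _).mp (P⁻¹).isUnit
  have h2 : ((P⁻¹ : GL ι F) : Matrix ι ι F) * ((X : Matrix ι ι F) - μ • 1) * (P : Matrix ι ι F)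
      = ((P⁻¹ : GL ι F) : Matrix ι ι F) * (X : Matrix ι ι F) * (P : Matrix ι ι F) - μ • 1 := by
    have h3 : ((P⁻¹ : GL ι F) : Matrix ι ι F) * (P : Matrix ι ι F) = 1 := by
      rw [← Units.val_mul, inv_mul_cancel, Units.val_one]
    rw [Matrix.mul_sub, Matrix.sub_mul, Matrix.mul_smul, Matrix.mul_one, Matrix.smul_mul, h3]
  have h1 : Matrix.reindex e e (((P⁻¹ : GL ι F) : Matrix ι ι F) * (X : Matrix ι ι F)
          * (P : Matrix ι ι F)) - μ • (1 : Matrix (Fin a × Fin b) (Fin a × Fin b) F)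
      = Matrix.reindex e e (((P⁻¹ : GL ι F) : Matrix ι ι F) * ((X : Matrix ι ι F) - μ • 1)
          * (P : Matrix ι ι F)) := by
    rw [h2]
    ext i j
    simp [Matrix.reindex_apply, Matrix.submatrix_apply, Matrix.one_apply]
  rw [hcoe, h1, Matrix.rank_reindex, Matrix.rank_mul_eq_left_of_isUnit_det _ _ hPdet,
    Matrix.rank_mul_eq_right_of_isUnit_det _ _ hPidet]

end Cfsg.Agent.Lib.Helper95.SpTTRANK

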