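import Mathlib
import Cfsg.Agent.Lib.Helper52.SpStmt
import Cfsg.Agent.Lib.Helper97.PslAux

set_option autoImplicit false

namespace Cfsg.Agent.Lib.Helper95.SpUG

open Matrix Cfsg.Agent.Lib.Helper43.SpBasic Cfsg.Agent.Lib.Helper43.SpSylow
open Cfsg.Agent.Lib.Helper52.SpStmt
open Cfsg.Agent.Lib.Helper43.PSLnUT (IsUT isUT_one)

universe u

variable {m : ℕ} {F : Type u} [Field F] [Fintype F]

theorem mk_congr {a a' : Matrix (Fin m) (Fin m) F} (h : a = a') (ha : IsUT a) (ha' : IsUT a') :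
    mk a 0 ha Matrix.isSymm_zero = mk a' 0 ha' Matrix.isSymm_zero := by
  subst h; rfl

theorem mk_zero_mul (a a' : Matrix (Fin m) (Fin m) F) (ha : IsUT a) (ha' : IsUT a') :
    mk a 0 ha Matrix.isSymm_zero * mk a' 0 ha' Matrix.isSymm_zero =
      mk (a * a') 0 (ha.mul ha') Matrix.isSymm_zero := by
  have h2 : ((0 : Matrix (Fin m) (Fin m) F) + a * 0 * aᵀ).IsSymm := by
    rw [Matrix.mul_zero, Matrix.zero_mul, add_zero]; exact Matrix.isSymm_zero
  rw [mk_mul a 0 a' 0 ha Matrix.isSymm_zero ha' Matrix.isSymm_zero (ha.mul ha') h2]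
  apply Subtype.ext
  show mkMat _ _ = mkMat _ _
  rw [Matrix.mul_zero, Matrix.zero_mul, add_zero]

theorem main : UGen.{u} := by
  intro m F _ _ A hA
  obtain ⟨a, s, ha, hs, rfl⟩ := exists_mk hA
  refine ⟨s, hs, mk a 0 ha Matrix.isSymm_zero, ?_, mk_eq_mul a s ha hs⟩
  have key : ∀ x ∈ Subgroup.closure (Cfsg.Agent.Lib.Helper97.PslAux.X0 m F),
      ∃ h : IsUT (x : Matrix (Fin m) (Fin m) F),
        mk (x : Matrix (Fin m) (Fin m) F) 0 h Matrix.isSymm_zero ∈
          Subgroup.closure {x : Matrix.symplecticGroup (Fin m) F |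
            ∃ (i j : Fin m) (_ : i < j) (b : F) (hu : IsUT (1 + Matrix.single i j b))
              (hz : (0 : Matrix (Fin m) (Fin m) F).IsSymm),
              x = mk (1 + Matrix.single i j b) 0 hu hz} := by
    intro x hx
    induction hx using Subgroup.closure_induction with
    | mem x hx =>
      obtain ⟨i, j, h, c, -, rfl⟩ := hx
      exact ⟨isUT_one_add_single h c,
        Subgroup.subset_closure ⟨i, j, h, c, isUT_one_add_single h c, Matrix.isSymm_zero, rfl⟩⟩
    | one =>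
      refine ⟨isUT_one, ?_⟩
      have : mk ((1 : SpecialLinearGroup (Fin m) F) : Matrix (Fin m) (Fin m) F) 0 isUT_one
          Matrix.isSymm_zero = 1 := mk_one_zero
      rw [this]
      exact one_mem _
    | mul x y _ _ hx hy =>
      obtain ⟨h1, h1'⟩ := hx
      obtain ⟨h2, h2'⟩ := hy
      have h3 : IsUT ((x * y : SpecialLinearGroup (Fin m) F) : Matrix (Fin m) (Fin m) F) := by
        rw [Matrix.SpecialLinearGroup.coe_mul]; exact h1.mul h2
      refine ⟨h3, ?_⟩
      have e := mk_zero_mul (x : Matrix (Fin m) (Fin m) F) (y : Matrix (Fin m) (Fin m) F) h1 h2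
      rw [mk_congr (Matrix.SpecialLinearGroup.coe_mul x y) h3 (h1.mul h2), ← e]
      exact mul_mem h1' h2'
    | inv x hxc hx =>
      obtain ⟨h1, h1'⟩ := hx
      have hxi : x⁻¹ ∈ Cfsg.Agent.H84.PslDefs.Uni m F := by
        rw [← Cfsg.Agent.Lib.Helper97.PslAux.closure_X0]
        exact inv_mem hxc
      have h3 : IsUT ((x⁻¹ : SpecialLinearGroup (Fin m) F) : Matrix (Fin m) (Fin m) F) :=
        (Cfsg.Agent.H84.PslDefs.mem_Uni m F x⁻¹).mp hxi
      refine ⟨h3, ?_⟩
      have e := mk_zero_mul ((x⁻¹ : SpecialLinearGroup (Fin m) F) : Matrix (Fin m) (Fin m) F)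
        (x : Matrix (Fin m) (Fin m) F) h3 h1
      have h4 : ((x⁻¹ : SpecialLinearGroup (Fin m) F) : Matrix (Fin m) (Fin m) F) *
          (x : Matrix (Fin m) (Fin m) F) = 1 := by
        rw [← Matrix.SpecialLinearGroup.coe_mul, inv_mul_cancel]; rfl
      rw [mk_congr h4 (h3.mul h1) isUT_one, mk_one_zero] at e
      rw [eq_inv_of_mul_eq_one_left e]
      exact inv_mem h1'
  have hg : (⟨a, ha.det⟩ : SpecialLinearGroup (Fin m) F) ∈
      Subgroup.closure (Cfsg.Agent.Lib.Helper97.PslAux.X0 m F) := by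
    rw [Cfsg.Agent.Lib.Helper97.PslAux.closure_X0]
    exact (Cfsg.Agent.H84.PslDefs.mem_Uni m F _).mpr ha
  obtain ⟨h, hmem⟩ := key _ hg
  exact hmem

end Cfsg.Agent.Lib.Helper95.SpUG
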