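import Mathlib
import Cfsg.Prelude.Def_LinearParabolics
import Cfsg.Prelude.Def_Characters
import Cfsg.Agent.Lib.Helper95.FlagF

set_option autoImplicit false

namespace Cfsg.Agent.Lib.Helper95.StA

open scoped MatrixGroups ComplexConjugate
open MulAction

/-- Burnside along a homomorphism: if `S` (via `ι`) has the same orbits on `X` as `G`, the average
numbers of fixed points agree. -/
theorem sum_fixed_hom {G S : Type*} [Group G] [Group S] [Fintype G] [Fintype S]
    (ι : S →* G) (X : Type*) [MulAction G X] [Finite X]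
    (h : ∀ (x : X) (g : G), ∃ s : S, ι s • x = g • x) :
    (∑ s : S, Nat.card (fixedBy X (ι s))) * Nat.card G =
      (∑ g : G, Nat.card (fixedBy X g)) * Nat.card S := by
  classical
  have : Fintype X := Fintype.ofFinite X
  let act : MulAction S X := MulAction.compHom X ι
  have hB1 := MulAction.sum_card_fixedBy_eq_card_orbits_mul_card_group G X
  have hB2 := MulAction.sum_card_fixedBy_eq_card_orbits_mul_card_group S X
  have e : Quotient (orbitRel S X) ≃ Quotient (orbitRel G X) := by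
    refine Quotient.congr (Equiv.refl X) ?_
    intro a b
    change a ∈ orbit S b ↔ a ∈ orbit G b
    constructor
    · rintro ⟨s, hs⟩
      exact ⟨ι s, hs⟩
    · rintro ⟨g, hg⟩
      obtain ⟨s, hs⟩ := h b g
      exact ⟨s, hs.trans hg⟩
  have h1 : ∑ s : S, Nat.card (fixedBy X (ι s)) = Fintype.card (Quotient (orbitRel S X)) * Fintype.card S := by
    rw [← hB2]
    refine Finset.sum_congr rfl fun s _ => ?_
    rw [Nat.card_eq_fintype_card]
    rfl
  have h2 : ∑ g : G, Nat.card (fixedBy X g) = Fintype.card (Quotient (orbitRel G X)) * Fintype.card G := by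
    rw [← hB1]
    refine Finset.sum_congr rfl fun s _ => ?_
    rw [Nat.card_eq_fintype_card]
  rw [h1, h2, Nat.card_eq_fintype_card, Nat.card_eq_fintype_card, Fintype.card_congr e]
  ring

theorem inner_fpc_hom {G S : Type*} [Group G] [Group S] [Fintype G] [Fintype S]
    (ι : S →* G) (H K : Subgroup G)
    (h : ∀ (x : (G ⧸ H) × (G ⧸ K)) (g : G), ∃ s : S, ι s • x = g • x) :
    (Nat.card S : ℂ)⁻¹ * ∑ s : S, Cfsg.fixedPointCharacter H (ι s) * Cfsg.fixedPointCharacter K (ι s) =
    (Nat.card G : ℂ)⁻¹ * ∑ g : G, Cfsg.fixedPointCharacter H g * Cfsg.fixedPointCharacter K g := by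
  have key := sum_fixed_hom ι ((G ⧸ H) × (G ⧸ K)) h
  have e1 : ∀ g : G, Cfsg.fixedPointCharacter H g * Cfsg.fixedPointCharacter K g =
      ((Nat.card (fixedBy ((G ⧸ H) × (G ⧸ K)) g) : ℕ) : ℂ) := by
    intro g
    rw [Cfsg.Agent.Lib.Helper95.FlagA.card_fixedBy_prod]
    push_cast
    rfl
  rw [Finset.sum_congr rfl (fun s _ => e1 (ι s)), Finset.sum_congr rfl (fun g _ => e1 g)]
  have hG : (Nat.card G : ℂ) ≠ 0 := by
    exact_mod_cast Nat.card_pos.ne'
  have hS : (Nat.card S : ℂ) ≠ 0 := by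
    exact_mod_cast Nat.card_pos.ne'
  have key' : ((∑ s : S, Nat.card (fixedBy ((G ⧸ H) × (G ⧸ K)) (ι s)) : ℕ) : ℂ) * (Nat.card G : ℂ) =
      ((∑ g : G, Nat.card (fixedBy ((G ⧸ H) × (G ⧸ K)) g) : ℕ) : ℂ) * (Nat.card S : ℂ) := by
    exact_mod_cast key
  push_cast at key'
  field_simp
  linear_combination key'

variable {F : Type*} [Field F] {n : ℕ}

open Cfsg.Agent.Lib.Helper95.FlagB

/-- Diagonal matrices in `GL`. -/
def dg (c : Fin n → Fˣ) : GL (Fin n) F :=
  ⟨Matrix.diagonal (fun i => (c i : F)), Matrix.diagonal (fun i => ((c i)⁻¹ : Fˣ)),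
    by rw [Matrix.diagonal_mul_diagonal]; simp, by rw [Matrix.diagonal_mul_diagonal]; simp⟩

theorem dg_mem (c : Fin n → Fˣ) : dg c ∈ Cfsg.upperTriangularGL n F := by
  change (Matrix.diagonal (fun i => (c i : F))).BlockTriangular id
  exact Matrix.blockTriangular_diagonal _

theorem det_dg (c : Fin n → Fˣ) : Matrix.GeneralLinearGroup.det (dg c) = ∏ i, c i := by
  apply Units.ext
  rw [Matrix.GeneralLinearGroup.val_det_apply]
  change (Matrix.diagonal (fun i => (c i : F))).det = _
  rw [Matrix.det_diagonal]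
  simp

theorem dg_mul_pm (w : Equiv.Perm (Fin n)) (c : Fin n → Fˣ) :
    dg c * pm F n w = pm F n w * dg (c ∘ w) := by
  apply Units.ext
  ext i j
  rw [Units.val_mul, Units.val_mul]
  change (Matrix.diagonal (fun i => (c i : F)) * (pm F n w : Matrix (Fin n) (Fin n) F)) i j =
    ((pm F n w : Matrix (Fin n) (Fin n) F) * Matrix.diagonal (fun i => ((c ∘ w) i : F))) i j
  rw [Matrix.diagonal_mul, Matrix.mul_diagonal, pm_apply]
  by_cases h : i = w j
  · rw [if_pos h, h]
    simp
  · rw [if_neg h]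
    simp

theorem exists_sl (hn : 0 < n) [Finite F] (H K : Subgroup (GL (Fin n) F))
    (hH : Cfsg.upperTriangularGL n F ≤ H) (hK : Cfsg.upperTriangularGL n F ≤ K)
    (x : (GL (Fin n) F ⧸ H) × (GL (Fin n) F ⧸ K)) (g : GL (Fin n) F) :
    ∃ s : Matrix.SpecialLinearGroup (Fin n) F, Matrix.SpecialLinearGroup.toGL s • x = g • x := by
  classical
  obtain ⟨u, v⟩ := x
  induction u using QuotientGroup.induction_on with | _ a => ?_
  induction v using QuotientGroup.induction_on with | _ b => ?_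
  obtain ⟨β, hβ, w, u', hu', hab⟩ := bruhat (a⁻¹ * b)
  set d : Fˣ := Matrix.GeneralLinearGroup.det g with hd
  set c : Fin n → Fˣ := Function.update 1 ⟨0, hn⟩ d with hc
  set t : GL (Fin n) F := a * β * dg c * β⁻¹ * a⁻¹ with ht
  have hdett : Matrix.GeneralLinearGroup.det t = d := by
    rw [ht]
    simp only [map_mul, map_inv]
    rw [det_dg, hc, Finset.prod_update_of_mem (Finset.mem_univ _)]
    have h1 : ∏ x ∈ Finset.univ \ {(⟨0, hn⟩ : Fin n)}, (1 : Fin n → Fˣ) x = 1 := by simp
    rw [h1, mul_one]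
    generalize Matrix.GeneralLinearGroup.det a = A
    generalize Matrix.GeneralLinearGroup.det β = B
    have key : A * B * d * B⁻¹ * A⁻¹ = d * (A * B * B⁻¹ * A⁻¹) := by
      rw [mul_comm (A * B) d]
      simp only [mul_assoc]
    rw [key]
    have : A * B * B⁻¹ * A⁻¹ = 1 := by group
    rw [this, mul_one]
  have hdet1 : ((g * t⁻¹ : GL (Fin n) F) : Matrix (Fin n) (Fin n) F).det = 1 := by
    rw [← Matrix.GeneralLinearGroup.val_det_apply, map_mul, map_inv, hdett, ← hd]
    simp
  refine ⟨⟨((g * t⁻¹ : GL (Fin n) F) : Matrix (Fin n) (Fin n) F), hdet1⟩, ?_⟩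
  have hs : Matrix.SpecialLinearGroup.toGL
      (⟨((g * t⁻¹ : GL (Fin n) F) : Matrix (Fin n) (Fin n) F), hdet1⟩ :
        Matrix.SpecialLinearGroup (Fin n) F) = g * t⁻¹ := Units.ext rfl
  rw [hs]
  have h1 : t⁻¹ • ((a : GL (Fin n) F) : GL (Fin n) F ⧸ H) = (a : GL (Fin n) F ⧸ H) := by
    rw [MulAction.Quotient.smul_mk, QuotientGroup.eq]
    have : (t⁻¹ • a)⁻¹ * a = a⁻¹ * t * a := by
      simp [smul_eq_mul, mul_assoc]
    rw [this, ht]
    have : a⁻¹ * (a * β * dg c * β⁻¹ * a⁻¹) * a = β * dg c * β⁻¹ := by group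
    rw [this]
    exact hH (Subgroup.mul_mem _ (Subgroup.mul_mem _ hβ (dg_mem c)) (Subgroup.inv_mem _ hβ))
  have h2 : t⁻¹ • ((b : GL (Fin n) F) : GL (Fin n) F ⧸ K) = (b : GL (Fin n) F ⧸ K) := by
    rw [MulAction.Quotient.smul_mk, QuotientGroup.eq]
    have hb : b = a * (β * pm F n w * u') := by rw [← hab]; group
    have : (t⁻¹ • b)⁻¹ * b = b⁻¹ * t * b := by
      simp [smul_eq_mul, mul_assoc]
    rw [this, ht]
    have e2 : b⁻¹ * (a * β * dg c * β⁻¹ * a⁻¹) * b = u'⁻¹ * ((pm F n w)⁻¹ * (dg c * pm F n w)) * u' := by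
      rw [hb]; group
    rw [e2, dg_mul_pm, inv_mul_cancel_left]
    exact hK (Subgroup.mul_mem _ (Subgroup.mul_mem _ (Subgroup.inv_mem _ hu') (dg_mem _)) hu')
  change ((g * t⁻¹) • ((a : GL (Fin n) F) : GL (Fin n) F ⧸ H),
    (g * t⁻¹) • ((b : GL (Fin n) F) : GL (Fin n) F ⧸ K)) = (g • _, g • _)
  rw [mul_smul, mul_smul, h1, h2]

open Cfsg.Agent.Lib.Helper95.FlagF

theorem inner_term_sl [Fintype F] [Fintype (GL (Fin n) F)]
    [Fintype (Matrix.SpecialLinearGroup (Fin n) F)] (hn : 0 < n) (ν ν' : Fin n → ℕ)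
    (κ κ' : Equiv.Perm (Fin n)) :
    (Nat.card (Matrix.SpecialLinearGroup (Fin n) F) : ℂ)⁻¹ *
      ∑ s : Matrix.SpecialLinearGroup (Fin n) F,
        term F ν κ (Matrix.SpecialLinearGroup.toGL s) * term F ν' κ' (Matrix.SpecialLinearGroup.toGL s) =
    (Nat.card (GL (Fin n) F) : ℂ)⁻¹ * ∑ g : GL (Fin n) F, term F ν κ g * term F ν' κ' g := by
  by_cases h : ∀ i : Fin n, (κ i).val ≤ ν i + i.val
  · by_cases h' : ∀ i : Fin n, (κ' i).val ≤ ν' i + i.val
    · have e1 : ∀ g : GL (Fin n) F, term F ν κ g * term F ν' κ' g =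
          (((Equiv.Perm.sign κ : ℤ) : ℂ) * ((Equiv.Perm.sign κ' : ℤ) : ℂ)) *
            (Cfsg.fixedPointCharacter (Cfsg.parabolicGL n F fun i => ν i + i.val - (κ i).val) g *
             Cfsg.fixedPointCharacter (Cfsg.parabolicGL n F fun i => ν' i + i.val - (κ' i).val) g) := by
        intro g
        unfold term
        rw [if_pos h, if_pos h']
        ring
      rw [Finset.sum_congr rfl (fun g _ => e1 g), Finset.sum_congr rfl (fun s _ => e1 _),
        ← Finset.mul_sum, ← Finset.mul_sum, mul_left_comm,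
        inner_fpc_hom Matrix.SpecialLinearGroup.toGL _ _
          (exists_sl hn _ _ (Cfsg.Agent.Lib.Helper95.FlagC.upper_le_parabolic _)
            (Cfsg.Agent.Lib.Helper95.FlagC.upper_le_parabolic _))]
      ring
    · have e1 : ∀ g : GL (Fin n) F, term F ν κ g * term F ν' κ' g = 0 := by
        intro g
        unfold term
        rw [if_neg h', mul_zero]
      rw [Finset.sum_congr rfl (fun g _ => e1 g), Finset.sum_congr rfl (fun s _ => e1 _)]
      simp
  · have e1 : ∀ g : GL (Fin n) F, term F ν κ g * term F ν' κ' g = 0 := by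
      intro g
      unfold term
      rw [if_neg h, zero_mul]
    rw [Finset.sum_congr rfl (fun g _ => e1 g), Finset.sum_congr rfl (fun s _ => e1 _)]
    simp

/-- Restriction to `SL_n` preserves inner products of the alternating-sum class functions. -/
theorem classInner_sl [Fintype F] [Fintype (GL (Fin n) F)]
    [Fintype (Matrix.SpecialLinearGroup (Fin n) F)] (hn : 0 < n) (ν ν' : Fin n → ℕ) :
    Cfsg.classInner (fun s : Matrix.SpecialLinearGroup (Fin n) F =>
        Cfsg.unipotentCharacterGL n F ν (Matrix.SpecialLinearGroup.toGL s))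
      (fun s : Matrix.SpecialLinearGroup (Fin n) F =>
        Cfsg.unipotentCharacterGL n F ν' (Matrix.SpecialLinearGroup.toGL s)) =
    Cfsg.classInner (Cfsg.unipotentCharacterGL n F ν) (Cfsg.unipotentCharacterGL n F ν') := by
  unfold Cfsg.classInner
  have h1 : ∀ g : GL (Fin n) F, Cfsg.unipotentCharacterGL n F ν g *
      conj (Cfsg.unipotentCharacterGL n F ν' g) =
      ∑ κ : Equiv.Perm (Fin n), ∑ κ' : Equiv.Perm (Fin n), term F ν κ g * term F ν' κ' g := by
    intro g
    rw [unip_eq, unip_eq, map_sum, Finset.sum_mul_sum]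
    simp only [conj_term]
  rw [Finset.sum_congr rfl (fun g _ => h1 g), Finset.sum_congr rfl (fun s _ => h1 _),
    Finset.sum_comm, Finset.sum_comm (s := (Finset.univ : Finset (GL (Fin n) F))),
    Finset.mul_sum, Finset.mul_sum]
  refine Finset.sum_congr rfl fun κ _ => ?_
  rw [Finset.sum_comm, Finset.sum_comm (s := (Finset.univ : Finset (GL (Fin n) F))),
    Finset.mul_sum, Finset.mul_sum]
  exact Finset.sum_congr rfl fun κ' _ => inner_term_sl hn ν ν' κ κ'

theorem fpc_central {G : Type*} [Group G] (H : Subgroup G) (z : G) (hz : ∀ x, z * x = x * z)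
    (hzH : z ∈ H) : Cfsg.fixedPointCharacter H z = Cfsg.fixedPointCharacter H 1 := by
  unfold Cfsg.fixedPointCharacter
  have h1 : MulAction.fixedBy (G ⧸ H) z = MulAction.fixedBy (G ⧸ H) (1 : G) := by
    ext q
    simp only [MulAction.mem_fixedBy, one_smul, iff_true]
    induction q using QuotientGroup.induction_on with | _ x => ?_
    rw [MulAction.Quotient.smul_mk, QuotientGroup.eq, smul_eq_mul, hz x]
    simpa using hzH
  rw [h1]

/-- The alternating-sum class functions are constant on the centre of `SL_n`. -/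
theorem unip_central (ν : Fin n → ℕ) (z : Matrix.SpecialLinearGroup (Fin n) F)
    (hz : z ∈ Subgroup.center (Matrix.SpecialLinearGroup (Fin n) F)) :
    Cfsg.unipotentCharacterGL n F ν (Matrix.SpecialLinearGroup.toGL z) =
      Cfsg.unipotentCharacterGL n F ν 1 := by
  obtain ⟨r, -, hr⟩ := Matrix.SpecialLinearGroup.mem_center_iff.mp hz
  have hval : ((Matrix.SpecialLinearGroup.toGL z : GL (Fin n) F) : Matrix (Fin n) (Fin n) F) =
      Matrix.scalar (Fin n) r := hr.symm
  have hcomm : ∀ x : GL (Fin n) F, Matrix.SpecialLinearGroup.toGL z * x =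
      x * Matrix.SpecialLinearGroup.toGL z := by
    intro x
    apply Units.ext
    rw [Units.val_mul, Units.val_mul, hval]
    exact (Matrix.scalar_commute r (fun r' => Commute.all r r') _).eq
  have hmem : ∀ μ : Fin n → ℕ, Matrix.SpecialLinearGroup.toGL z ∈ Cfsg.parabolicGL n F μ := by
    intro μ
    change ((Matrix.SpecialLinearGroup.toGL z : GL (Fin n) F) :
      Matrix (Fin n) (Fin n) F).BlockTriangular (Cfsg.compLabel μ)
    rw [hval]
    exact Matrix.blockTriangular_diagonal _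
  unfold Cfsg.unipotentCharacterGL
  refine Finset.sum_congr rfl fun κ _ => ?_
  split_ifs
  · rw [fpc_central _ _ hcomm (hmem _)]
  · rfl

end Cfsg.Agent.Lib.Helper95.StA
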