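import Mathlib
import Cfsg.Prelude.Def_LinearParabolics
import Cfsg.Prelude.Def_Characters
import Cfsg.Agent.S2424

set_option autoImplicit false

namespace Cfsg.Agent.Lib.Helper95.StB

open scoped MatrixGroups ComplexConjugate
open Cfsg.Agent.S2424 (Qn Qc)

theorem exp_succ (n : ℕ) :
    (n + 1) * (n + 1 - 1) * (n + 1 - 2) / 6 + (n + 1) * (n + 1 - 1) / 2 =
      n * (n - 1) * (n - 2) / 6 + n * (n - 1) / 2 + (n + n * (n - 1) / 2) := by
  have h1 := Cfsg.Agent.S2424.sum_choose (n + 1)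
  have h2 := Cfsg.Agent.S2424.sum_choose n
  rw [Finset.sum_range_succ, h2] at h1
  have h3 := Nat.triangle_succ n
  omega

theorem Qc_ne_zero (q j : ℕ) : Qc q (j + 1) ≠ 0 := by
  unfold Qc Qn
  rw [Finset.sum_range_succ']
  have : 0 < ∑ k ∈ Finset.range j, q ^ (k + 1) + q ^ 0 := by
    simp
  exact_mod_cast this.ne'

theorem col_prod (q n : ℕ) :
    ∏ i ∈ Finset.range n, (Qc q (1 + n) - Qc q (1 + i)) =
      (q : ℂ) ^ (n + n * (n - 1) / 2) * ∏ j ∈ Finset.range n, Qc q (j + 1) := by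
  have h1 : ∀ i ∈ Finset.range n, Qc q (1 + n) - Qc q (1 + i) =
      (q : ℂ) ^ (1 + i) * Qc q (n - 1 - i + 1) := by
    intro i hi
    rw [Finset.mem_range] at hi
    rw [← Cfsg.Agent.S2424.Qc_sub q (1 + i) (1 + n) (by omega)]
    congr 2
    omega
  rw [Finset.prod_congr rfl h1, Finset.prod_mul_distrib, Finset.prod_pow_eq_pow_sum,
    Finset.prod_range_reflect (fun j => Qc q (j + 1)) n, Finset.sum_add_distrib,
    Finset.sum_range_id]
  simp

theorem steinberg_prod (q : ℕ) (n : ℕ) :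
    (q : ℂ) ^ (n * (n - 1) * (n - 2) / 6 + n * (n - 1) / 2) *
      ∏ i ∈ Finset.range n, ∏ j ∈ Finset.range (1 + i), Qc q (j + 1) =
    (∏ j ∈ Finset.range n, Qc q (j + 1)) *
      ∏ i ∈ Finset.range n, ∏ j ∈ (Finset.range n).filter (fun j => i < j),
        (Qc q (1 + j) - Qc q (1 + i)) := by
  induction n with
  | zero => simp
  | succ n ih =>
    have hC : ∏ i ∈ Finset.range (n + 1), ∏ j ∈ (Finset.range (n + 1)).filter (fun j => i < j),
        (Qc q (1 + j) - Qc q (1 + i)) =
        (∏ i ∈ Finset.range n, ∏ j ∈ (Finset.range n).filter (fun j => i < j),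
          (Qc q (1 + j) - Qc q (1 + i))) *
        ∏ i ∈ Finset.range n, (Qc q (1 + n) - Qc q (1 + i)) := by
      rw [Finset.prod_range_succ]
      have e1 : (Finset.range (n + 1)).filter (fun j => n < j) = ∅ := by
        ext j
        simp only [Finset.mem_filter, Finset.mem_range, Finset.notMem_empty, iff_false]
        omega
      rw [e1, Finset.prod_empty, mul_one, ← Finset.prod_mul_distrib]
      refine Finset.prod_congr rfl fun i hi => ?_
      rw [Finset.mem_range] at hi
      rw [Finset.range_add_one, Finset.filter_insert, if_pos hi, Finset.prod_insert]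
      · rw [mul_comm]
      · simp
    rw [hC, col_prod, Finset.prod_range_succ (fun i => ∏ j ∈ Finset.range (1 + i), Qc q (j + 1)),
      exp_succ, pow_add, Nat.add_comm 1 n]
    linear_combination ((q : ℂ) ^ (n + n * (n - 1) / 2) *
      ∏ j ∈ Finset.range (n + 1), Qc q (j + 1)) * ih

theorem prod_fin_filter (n : ℕ) (i : Fin n) (g : ℕ → ℂ) :
    ∏ j ∈ Finset.univ.filter (fun j : Fin n => i < j), g j.val =
      ∏ j ∈ (Finset.range n).filter (fun j => i.val < j), g j := by
  rw [Finset.prod_filter, Finset.prod_filter,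
    ← Fin.prod_univ_eq_prod_range (fun j => if i.val < j then g j else 1) n]
  rfl

/-- The Steinberg character of `GL_n(q)` has degree `q^(n(n-1)/2)`. -/
theorem steinberg_degree {F : Type*} [Field F] [Fintype F] (n : ℕ) :
    Cfsg.unipotentCharacterGL n F (fun _ => 1) 1 = ((Fintype.card F ^ (n * (n - 1) / 2) : ℕ) : ℂ) := by
  set q := Fintype.card F with hq
  have h := Cfsg.Agent.S2424.result (F := F) hq.symm (n := n) (fun _ => 1) (fun _ _ _ => le_rfl)
    (by simp)
  have hQc : ∀ r : ℕ, ((∑ l ∈ Finset.range r, q ^ l : ℕ) : ℂ) = Qc q r := fun r => rfl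
  simp only [hQc] at h
  have e1 : ∏ i : Fin n, ∏ j ∈ Finset.range (1 + i.val), Qc q (j + 1) =
      ∏ i ∈ Finset.range n, ∏ j ∈ Finset.range (1 + i), Qc q (j + 1) :=
    Fin.prod_univ_eq_prod_range (fun i => ∏ j ∈ Finset.range (1 + i), Qc q (j + 1)) n
  have e2 : ∏ i : Fin n, ∏ j ∈ Finset.univ.filter (fun j : Fin n => i < j),
      (Qc q (1 + j.val) - Qc q (1 + i.val)) =
      ∏ i ∈ Finset.range n, ∏ j ∈ (Finset.range n).filter (fun j => i < j),
        (Qc q (1 + j) - Qc q (1 + i)) := by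
    rw [← Fin.prod_univ_eq_prod_range (fun i => ∏ j ∈ (Finset.range n).filter (fun j => i < j),
        (Qc q (1 + j) - Qc q (1 + i))) n]
    refine Finset.prod_congr rfl fun i _ => ?_
    exact prod_fin_filter n i (fun j => Qc q (1 + j) - Qc q (1 + i.val))
  rw [e1, e2, ← steinberg_prod, pow_add] at h
  have hq0 : (q : ℂ) ≠ 0 := by
    have : 0 < q := Fintype.card_pos
    exact_mod_cast this.ne'
  have hA : ∏ i ∈ Finset.range n, ∏ j ∈ Finset.range (1 + i), Qc q (j + 1) ≠ 0 := by
    apply Finset.prod_ne_zero_iff.mpr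
    intro i _
    apply Finset.prod_ne_zero_iff.mpr
    intro j _
    exact Qc_ne_zero q j
  have hne : (q : ℂ) ^ (n * (n - 1) * (n - 2) / 6) *
      ∏ i ∈ Finset.range n, ∏ j ∈ Finset.range (1 + i), Qc q (j + 1) ≠ 0 :=
    mul_ne_zero (pow_ne_zero _ hq0) hA
  apply mul_right_cancel₀ hne
  push_cast
  linear_combination h

end Cfsg.Agent.Lib.Helper95.StB
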