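import Mathlib
import Cfsg.Agent.Lib.Helper95.FlagG

set_option autoImplicit false
open scoped MatrixGroups

namespace Cfsg.Agent.Lib.Helper95.StC

open Classical
open Cfsg.Agent.Lib.Helper95.HallA Cfsg.Agent.Lib.Helper95.HessA Cfsg.Agent.Lib.Helper95.HessB
open Cfsg.Agent.Lib.Helper95.FlagG

noncomputable section

variable {F : Type*} [Field F] {n : ℕ}

/-- The dimension function. -/
def dm (X : Submodule F (Fin n → F)) : ℕ := Module.finrank F X

theorem fpc_eq [Fintype F] (κ : Equiv.Perm (Fin n)) (hκ : Hess κ) (x : GL (Fin n) F) :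
    Nat.card (MulAction.fixedBy (GL (Fin n) F ⧸ Cfsg.parabolicGL n F (muK κ)) x) =
      ((fs (fun C : Finset (Submodule F (Fin n → F)) => IsCh (lin x) C)).filter
        (fun C => C.image dm = (Ends κ).image (fun b => b.val + 1))).card := by
  rw [card_fixedBy_quotient (Cfsg.parabolicGL n F (muK κ)) act act_one act_mul
    (stdChain F (Ends κ)) (mem_parabolic_iff_act κ hκ) x, ← card_fs]
  congr 1
  ext C
  rw [mem_fs, Finset.mem_filter, mem_fs, orbit_iff]
  constructor
  · rintro ⟨⟨htot, hdim⟩, hx⟩
    refine ⟨⟨fun X hX => ⟨?_, ?_⟩, htot⟩, hdim⟩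
    · have h1 : X.map (lin x) ∈ C := by
        have : X.map (lin x) ∈ act x C := Finset.mem_image_of_mem _ hX
        rwa [hx] at this
      have h2 : X.map (lin x) = X := by
        rcases htot _ h1 X hX with h | h
        · exact Submodule.eq_of_le_of_finrank_eq h (finrank_map x X)
        · exact (Submodule.eq_of_le_of_finrank_eq h (finrank_map x X).symm).symm
      exact (map_eq_iff x X).mp h2
    · rintro rfl
      have h1 : Module.finrank F (⊥ : Submodule F (Fin n → F)) ∈
          (Ends κ).image (fun b => b.val + 1) := by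
        rw [← hdim]
        exact Finset.mem_image_of_mem
          (fun X : Submodule F (Fin n → F) => Module.finrank F X) hX
      rw [finrank_bot] at h1
      obtain ⟨b, -, hb⟩ := Finset.mem_image.mp h1
      omega
  · rintro ⟨⟨hinv, htot⟩, hdim⟩
    refine ⟨⟨htot, hdim⟩, ?_⟩
    apply act_eq_self
    intro X hX
    exact (map_eq_iff x X).mpr (hinv X hX).1

/-- The set of ends attached to a chain. -/
def EC (C : Finset (Submodule F (Fin n → F))) : Finset (Fin n) :=
  Finset.univ.filter (fun b : Fin n => b.val + 1 ∈ C.image dm)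

theorem mem_EC (C : Finset (Submodule F (Fin n → F))) (b : Fin n) :
    b ∈ EC C ↔ b.val + 1 ∈ C.image dm := by
  unfold EC
  simp

theorem dm_le (X : Submodule F (Fin n → F)) : dm X ≤ n := by
  have := Submodule.finrank_le X
  rwa [Module.finrank_fintype_fun_eq_card, Fintype.card_fin] at this

theorem image_EC (φ : (Fin n → F) →ₗ[F] (Fin n → F)) (C : Finset (Submodule F (Fin n → F)))
    (hC : IsCh φ C) : (EC C).image (fun b => b.val + 1) = C.image dm := by
  ext d
  constructor
  · intro hd
    obtain ⟨b, hb, rfl⟩ := Finset.mem_image.mp hd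
    exact (mem_EC C b).mp hb
  · intro hd
    obtain ⟨X, hX, rfl⟩ := Finset.mem_image.mp hd
    have h1 : 1 ≤ dm X := by
      unfold dm
      rw [Submodule.one_le_finrank_iff]
      exact (hC.1 X hX).2
    have h2 := dm_le X
    refine Finset.mem_image.mpr ⟨⟨dm X - 1, by omega⟩, ?_, by simp only; omega⟩
    rw [mem_EC]
    have : (dm X - 1) + 1 = dm X := by omega
    simp only [this]
    exact Finset.mem_image_of_mem _ hX

theorem dims_eq_iff (φ : (Fin n → F) →ₗ[F] (Fin n → F)) (C : Finset (Submodule F (Fin n → F)))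
    (hC : IsCh φ C) (E : Finset (Fin n)) :
    C.image dm = E.image (fun b => b.val + 1) ↔ E = EC C := by
  constructor
  · intro h
    ext b
    rw [mem_EC, h]
    constructor
    · intro hb
      exact Finset.mem_image_of_mem _ hb
    · intro hb
      obtain ⟨b', hb', h1⟩ := Finset.mem_image.mp hb
      have : b' = b := Fin.ext (by omega)
      rw [← this]
      exact hb'
  · rintro rfl
    exact (image_EC φ C hC).symm

theorem card_EC (φ : (Fin n → F) →ₗ[F] (Fin n → F)) (C : Finset (Submodule F (Fin n → F)))
    (hC : IsCh φ C) : (EC C).card = C.card := by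
  have h1 : ((EC C).image (fun b => b.val + 1)).card = (EC C).card := by
    apply Finset.card_image_of_injective
    intro b b' h
    exact Fin.ext (by simpa using h)
  have h2 : (C.image dm).card = C.card := by
    apply Finset.card_image_of_injOn
    intro X hX Y hY h
    rcases hC.2 X hX Y hY with hle | hle
    · exact Submodule.eq_of_le_of_finrank_eq hle h
    · exact (Submodule.eq_of_le_of_finrank_eq hle h.symm).symm
  rw [← h1, image_EC φ C hC, h2]

theorem top_iff (φ : (Fin n → F) →ₗ[F] (Fin n → F)) (C : Finset (Submodule F (Fin n → F)))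
    (hC : IsCh φ C) : (∀ b : Fin n, b.val + 1 = n → b ∈ EC C) ↔ C.sup id = ⊤ := by
  have hfr : Module.finrank F (Fin n → F) = n := by
    rw [Module.finrank_fintype_fun_eq_card, Fintype.card_fin]
  constructor
  · intro h
    rcases Nat.eq_zero_or_pos n with hn | hn
    · have : Module.finrank F (C.sup id : Submodule F (Fin n → F)) = Module.finrank F (Fin n → F) := by
        have h1 := Submodule.finrank_le (C.sup id : Submodule F (Fin n → F))
        rw [hfr] at h1 ⊢
        omega
      exact Submodule.eq_top_of_finrank_eq this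
    · have hb := h ⟨n - 1, by omega⟩ (by simp only; omega)
      rw [mem_EC] at hb
      obtain ⟨X, hX, hXd⟩ := Finset.mem_image.mp hb
      have hXn : Module.finrank F X = Module.finrank F (Fin n → F) := by
        rw [hfr]
        simp only at hXd
        unfold dm at hXd
        omega
      have hXt : X = ⊤ := Submodule.eq_top_of_finrank_eq hXn
      rw [eq_top_iff, ← hXt]
      exact Finset.le_sup (f := id) hX
  · intro h b hb
    have hne : C.Nonempty := by
      rw [Finset.nonempty_iff_ne_empty]
      rintro rfl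
      rw [Finset.sup_empty] at h
      have h1 : Module.finrank F (⊥ : Submodule F (Fin n → F)) = Module.finrank F (⊤ : Submodule F (Fin n → F)) := by
        rw [h]
      rw [finrank_bot, finrank_top, hfr] at h1
      omega
    have hmem := sup_mem_of_total C hne hC.2
    rw [h] at hmem
    rw [mem_EC]
    have : b.val + 1 = dm (⊤ : Submodule F (Fin n → F)) := by
      unfold dm
      rw [finrank_top, hfr, hb]
    rw [this]
    exact Finset.mem_image_of_mem _ hmem

theorem steinberg_int [Fintype F] (x : GL (Fin n) F) :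
    Cfsg.unipotentCharacterGL n F (fun _ => 1) x =
      ((∑ κ : Equiv.Perm (Fin n), (if Hess κ then ((Equiv.Perm.sign κ : ℤ)) *
        (((fs (fun C : Finset (Submodule F (Fin n → F)) => IsCh (lin x) C)).filter
          (fun C => C.image dm = (Ends κ).image (fun b => b.val + 1))).card : ℤ) else 0) : ℤ) : ℂ) := by
  unfold Cfsg.unipotentCharacterGL
  rw [Int.cast_sum]
  refine Finset.sum_congr rfl fun κ _ => ?_
  by_cases hκ : Hess κ
  · have hκ' : ∀ i : Fin n, (κ i).val ≤ (fun _ : Fin n => 1) i + i.val := hκ
    rw [if_pos hκ, if_pos hκ']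
    unfold Cfsg.fixedPointCharacter
    have h1 := fpc_eq κ hκ x
    have h2 : (fun i : Fin n => (fun _ : Fin n => 1) i + i.val - (κ i).val) = muK κ := rfl
    rw [h2, h1]
    push_cast
    rfl
  · have hκ' : ¬ ∀ i : Fin n, (κ i).val ≤ (fun _ : Fin n => 1) i + i.val := hκ
    rw [if_neg hκ, if_neg hκ']
    simp

theorem steinberg_A [Fintype F] (x : GL (Fin n) F) :
    ∑ κ : Equiv.Perm (Fin n), (if Hess κ then ((Equiv.Perm.sign κ : ℤ)) *
        (((fs (fun C : Finset (Submodule F (Fin n → F)) => IsCh (lin x) C)).filter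
          (fun C => C.image dm = (Ends κ).image (fun b => b.val + 1))).card : ℤ) else 0) =
      (-1) ^ n * A (lin x) ⊤ := by
  have h1 : ∀ κ : Equiv.Perm (Fin n), (if Hess κ then ((Equiv.Perm.sign κ : ℤ)) *
        (((fs (fun C : Finset (Submodule F (Fin n → F)) => IsCh (lin x) C)).filter
          (fun C => C.image dm = (Ends κ).image (fun b => b.val + 1))).card : ℤ) else 0) =
      ∑ C ∈ fs (fun C : Finset (Submodule F (Fin n → F)) => IsCh (lin x) C),
        (if Hess κ ∧ Ends κ = EC C then ((Equiv.Perm.sign κ : ℤ)) else 0) := by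
    intro κ
    by_cases hκ : Hess κ
    · rw [if_pos hκ, Finset.card_filter, Nat.cast_sum, Finset.mul_sum]
      refine Finset.sum_congr rfl fun C hC => ?_
      rw [mem_fs] at hC
      have := dims_eq_iff (lin x) C hC (Ends κ)
      by_cases hd : C.image dm = (Ends κ).image (fun b => b.val + 1)
      · rw [if_pos hd, if_pos ⟨hκ, this.mp hd⟩]
        simp
      · rw [if_neg hd, if_neg (fun h => hd (this.mpr h.2))]
        simp
    · rw [if_neg hκ]
      symm
      apply Finset.sum_eq_zero
      intro C _
      rw [if_neg (fun h => hκ h.1)]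
  simp_rw [h1]
  rw [Finset.sum_comm]
  simp_rw [hess_sum]
  unfold A
  rw [Finset.mul_sum]
  have h2 : fs (fun C : Finset (Submodule F (Fin n → F)) => IsCh (lin x) C ∧ C.sup id = ⊤) =
      (fs (fun C : Finset (Submodule F (Fin n → F)) => IsCh (lin x) C)).filter
        (fun C => C.sup id = ⊤) := by
    ext C
    rw [mem_fs, Finset.mem_filter, mem_fs]
  rw [h2, Finset.sum_filter]
  refine Finset.sum_congr rfl fun C hC => ?_
  rw [mem_fs] at hC
  have ht := top_iff (lin x) C hC
  have hc := card_EC (lin x) C hC
  by_cases htop : C.sup id = ⊤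
  · rw [if_pos htop, if_pos (ht.mpr htop), hc]
    have hle : C.card ≤ n := by
      rw [← hc]
      have := Finset.card_le_univ (EC C)
      rwa [Fintype.card_fin] at this
    have h3 : (-1 : ℤ) ^ n = (-1) ^ (n - C.card) * (-1) ^ C.card := by
      rw [← pow_add, Nat.sub_add_cancel hle]
    have h4 : ((-1 : ℤ) ^ C.card) * (-1) ^ C.card = 1 := by
      rw [← pow_add, ← two_mul, pow_mul, neg_one_sq, one_pow]
    rw [h3, mul_assoc, h4, mul_one]
  · rw [if_neg htop, if_neg (fun h => htop (ht.mp h))]

end

end Cfsg.Agent.Lib.Helper95.StC
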