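import Mathlib
import Cfsg.Agent.Lib.Helper41.TMStmt

/-!
helper95: S5987 piece B2LOW (minus form; glue: `m < i`; BadB with `b = (d - 1 - j) / i` or twice
that, or BadA with `b = 2 (d - j) / i`).
-/

set_option autoImplicit false

namespace Cfsg.Agent.Lib.Helper95.TMB2LOW

open Cfsg.Agent.Lib.Helper41.TMStmt
open Cfsg.Agent.Lib.Helper37.HypStmt (cc IPos)

universe u

theorem main (hIPos : IPos.{u}) (hA : BadA.{u}) (hB : BadB.{u}) : B2Low.{u} := by
  intro F _ _ a₀ b₀ hab p _ _ d m hd3 hm1 hmd r _ hr2 hrp hmi hex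
  have hi := hIPos F p r hrp
  have hA' := hA F a₀ b₀ hab p d m hd3 r hr2 hrp
  have hB' := hB F a₀ b₀ hab p d m hd3 r hr2 hrp
  generalize orderOf ((Fintype.card F : ℕ) : ZMod r) = i at hmi hex hi hA' hB'
  have hs0 : ∀ s : ℕ, i * s ≤ m → i * s = 0 := by
    intro s hs
    rcases Nat.eq_zero_or_pos s with h | h
    · rw [h, mul_zero]
    · exfalso
      have h1 : i * 1 ≤ i * s := Nat.mul_le_mul_left i h
      omega
  obtain ⟨j, hjm, hcase | ⟨hev, hdvd, hndvd⟩⟩ := hex
  · obtain ⟨a, ha⟩ := hcase
    have ha1 : 1 ≤ a := by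
      rcases Nat.eq_zero_or_pos a with h | h
      · rw [h, mul_zero] at ha
        omega
      · exact h
    by_cases hpar : Even i
    · have hcc : cc i = i := by
        unfold cc
        rw [if_pos hpar]
      rw [hcc] at hB'
      have e : 2 * a * i = 2 * (i * a) := by ring
      apply hB' (2 * a) (by omega) (Or.inr (even_two_mul a))
      · rw [e, ← ha]
        omega
      · intro s hs
        rw [e, ← ha, hs0 s hs]
        omega
    · have hcc : cc i = 2 * i := by
        unfold cc
        rw [if_neg hpar]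
      rw [hcc] at hB'
      have e : a * (2 * i) = 2 * (i * a) := by ring
      apply hB' a ha1 (Or.inl (Nat.not_even_iff_odd.mp hpar))
      · rw [e, ← ha]
        omega
      · intro s hs
        rw [e, ← ha, hs0 s hs]
        omega
  · obtain ⟨b, hb⟩ := hdvd
    have hbodd : Odd b := by
      rw [← Nat.not_even_iff_odd]
      rintro ⟨b', hb'⟩
      apply hndvd
      refine ⟨b', ?_⟩
      rw [hb'] at hb
      have h1 : 2 * (d - j) = 2 * (i * b') := by
        rw [hb]
        ring
      omega
    have hcc : cc i = i := by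
      unfold cc
      rw [if_pos hev]
    rw [hcc] at hA'
    apply hA' b hbodd.pos
    · rw [mul_comm b i, ← hb]
      omega
    · intro _
      exact ⟨hev, hbodd⟩
    · intro s hs
      rw [mul_comm b i, ← hb, hs0 s hs]
      omega

end Cfsg.Agent.Lib.Helper95.TMB2LOW
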