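import Mathlib
import Cfsg.Agent.Lib.Helper44.TPStmt

/-!
helper95: S5973 piece B2ODD (glue: `i` odd, `i ≤ m`; BadA with `b = d / i`).
-/

set_option autoImplicit false

namespace Cfsg.Agent.Lib.Helper95.TPB2ODD

open Cfsg.Agent.Lib.Helper44.TPStmt
open Cfsg.Agent.Lib.Helper37.HypStmt (cc IPos)

universe u

theorem main (hIPos : IPos.{u}) (hA : BadA.{u}) : B2Odd.{u} := by
  intro F _ _ p _ _ d m hd3 hm1 hmd r _ hr2 hrp hodd him hlt
  have hi := hIPos F p r hrp
  have hA' := hA F p d m hd3 r hr2 hrp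
  generalize orderOf ((Fintype.card F : ℕ) : ZMod r) = i at hodd him hlt hi hA'
  have hcc : cc i = 2 * i := by
    unfold cc
    rw [if_neg (Nat.not_even_iff_odd.mpr hodd)]
  rw [hcc] at hA'
  have hdm := Nat.div_add_mod d i
  have hmm := Nat.div_add_mod m i
  have h2 : (2 * d) % (2 * i) = 2 * (d % i) := Nat.mul_mod_mul_left 2 d i
  rw [h2] at hlt
  have hb1 : 1 ≤ d / i := (Nat.one_le_div_iff hi).mpr (by omega)
  have e1 : d / i * (2 * i) = 2 * (i * (d / i)) := by ring
  apply hA' (d / i) hb1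
  · rw [e1]
    omega
  · intro _
    exact Or.inl hodd
  · intro s hs
    have hsm : s ≤ m / i := (Nat.le_div_iff_mul_le hi).mpr (by rw [mul_comm]; exact hs)
    have hsm' : i * s ≤ i * (m / i) := Nat.mul_le_mul_left i hsm
    rw [e1]
    omega

end Cfsg.Agent.Lib.Helper95.TPB2ODD
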