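import Mathlib
import Cfsg.Prelude.Def_JordanBlocks
import Cfsg.Agent.Lib.Helper95.JType

set_option autoImplicit false

namespace Cfsg.Agent.Lib.Helper95.UCent

open Module Matrix Cfsg.Agent.Lib.Helper95.NilJordan Cfsg.Agent.Lib.Helper95.JType

variable {F : Type*} [Field F]

section abstract

variable {V : Type*} [AddCommGroup V] [Module F V] {N : Module.End F V} {ι : Type*}
  {k : ι → ℕ} {v : ι → V}

/-- the Jordan basis -/
noncomputable def jbasis (h : IsJordan N k v) : Basis (Σ i, Fin (k i)) F V :=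
  Basis.mk h.li h.span

theorem jbasis_apply (h : IsJordan N k v) (x : Σ i, Fin (k i)) :
    jbasis h x = (N ^ (x.2 : ℕ)) (v x.1) := by
  rw [jbasis, Basis.mk_apply]
  rfl

/-- the endomorphism determined by the images of the generators -/
noncomputable def ofGens (h : IsJordan N k v) (w : ι → V) : Module.End F V :=
  (jbasis h).constr F (fun x => (N ^ (x.2 : ℕ)) (w x.1))

theorem ofGens_jbasis (h : IsJordan N k v) (w : ι → V) (x : Σ i, Fin (k i)) :
    ofGens h w (jbasis h x) = (N ^ (x.2 : ℕ)) (w x.1) := by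
  rw [ofGens, Basis.constr_basis]

theorem ofGens_comm (h : IsJordan N k v) (w : ι → V) (hw : ∀ i, (N ^ (k i)) (w i) = 0) :
    ofGens h w ∘ₗ N = N ∘ₗ ofGens h w := by
  apply (jbasis h).ext
  intro x
  rw [LinearMap.comp_apply, LinearMap.comp_apply, ofGens_jbasis, jbasis_apply]
  by_cases hx : (x.2 : ℕ) + 1 < k x.1
  · have h1 : N ((N ^ (x.2 : ℕ)) (v x.1)) = jbasis h ⟨x.1, ⟨(x.2 : ℕ) + 1, hx⟩⟩ := by
      rw [jbasis_apply]
      show _ = (N ^ ((x.2 : ℕ) + 1)) (v x.1)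
      rw [pow_succ']
      rfl
    rw [h1, ofGens_jbasis]
    show (N ^ ((x.2 : ℕ) + 1)) (w x.1) = _
    rw [pow_succ']
    rfl
  · have hx' : (x.2 : ℕ) + 1 = k x.1 := by have := x.2.2; omega
    have h1 : N ((N ^ (x.2 : ℕ)) (v x.1)) = 0 := by
      rw [← Module.End.mul_apply, ← pow_succ', hx', h.top]
    rw [h1, map_zero, ← Module.End.mul_apply, ← pow_succ', hx', hw]

theorem ofGens_gen (h : IsJordan N k v) (hk : ∀ i, 0 < k i) (w : ι → V) (i : ι) :
    ofGens h w (v i) = w i := by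
  have h1 : v i = jbasis h ⟨i, ⟨0, hk i⟩⟩ := by
    rw [jbasis_apply]
    simp
  rw [h1, ofGens_jbasis]
  simp

theorem pow_comm_apply (φ : Module.End F V) (hφ : φ ∘ₗ N = N ∘ₗ φ) (j : ℕ) (y : V) :
    φ ((N ^ j) y) = (N ^ j) (φ y) := by
  have hc : Commute φ N := hφ
  have h1 := (hc.pow_right j).eq
  calc φ ((N ^ j) y) = (φ * N ^ j) y := rfl
    _ = (N ^ j * φ) y := by rw [h1]
    _ = (N ^ j) (φ y) := rfl

theorem ofGens_eq (h : IsJordan N k v) (φ : Module.End F V) (hφ : φ ∘ₗ N = N ∘ₗ φ) :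
    ofGens h (fun i => φ (v i)) = φ := by
  apply (jbasis h).ext
  intro x
  rw [ofGens_jbasis, jbasis_apply, pow_comm_apply φ hφ]

theorem injective_of_socle (φ : Module.End F V) (hN : IsNilpotent N) (hφ : φ ∘ₗ N = N ∘ₗ φ)
    (h : ∀ u, N u = 0 → φ u = 0 → u = 0) : Function.Injective φ := by
  classical
  rw [injective_iff_map_eq_zero]
  intro x hx
  by_contra hne
  obtain ⟨c, hc⟩ := hN
  have hex : ∃ j, (N ^ j) x = 0 := ⟨c, by rw [hc]; rfl⟩
  have hj₀ : (N ^ (Nat.find hex)) x = 0 := Nat.find_spec hex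
  have hpos : Nat.find hex ≠ 0 := by
    intro h0
    rw [h0, pow_zero] at hj₀
    exact hne hj₀
  obtain ⟨j, hj⟩ := Nat.exists_eq_succ_of_ne_zero hpos
  have hmin : (N ^ j) x ≠ 0 := Nat.find_min hex (by omega : j < Nat.find hex)
  apply hmin
  apply h
  · rw [← Module.End.mul_apply, ← pow_succ', ← Nat.succ_eq_add_one, ← hj]
    exact hj₀
  · rw [pow_comm_apply φ hφ, hx, map_zero]

end abstract

end Cfsg.Agent.Lib.Helper95.UCent
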