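import Mathlib
import Cfsg.Prelude.Def_JordanBlocks
import Cfsg.Agent.Lib.Helper95.JType
import Cfsg.Agent.Lib.Helper95.UCentA

set_option autoImplicit false

namespace Cfsg.Agent.Lib.Helper95.UCent

open Module Matrix Cfsg.Agent.Lib.Helper95.NilJordan Cfsg.Agent.Lib.Helper95.JType

variable {F : Type*} [Field F]

section concrete

variable {t : ℕ} (d : Fin t → ℕ)

/-- the index type of the Jordan type matrix -/
abbrev Idx (d : Fin t → ℕ) : Type := (k : Fin t) × Fin (d k)

/-- the nilpotent part of the Jordan type matrix, as an endomorphism -/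
noncomputable def nilp (F : Type*) [Field F] (d : Fin t → ℕ) : Module.End F (Idx d → F) :=
  Matrix.toLin' (Cfsg.jordanTypeMatrix d F - 1)

theorem congr_idx (u : Idx d → F) (l : Fin t) (a b : ℕ) (ha : a < d l) (hb : b < d l)
    (hab : a = b) : u ⟨l, ⟨a, ha⟩⟩ = u ⟨l, ⟨b, hb⟩⟩ := by
  subst hab
  rfl

theorem nilp_apply (u : Idx d → F) (l : Fin t) (j : ℕ) (hj : j + 1 < d l) :
    nilp F d u ⟨l, ⟨j + 1, hj⟩⟩ = u ⟨l, ⟨j, by omega⟩⟩ := by
  show (Matrix.toLin' (Cfsg.jordanTypeMatrix d F - 1)) u _ = _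
  rw [Matrix.toLin'_apply, Matrix.mulVec, dotProduct]
  rw [Finset.sum_eq_single (⟨l, ⟨j, by omega⟩⟩ : Idx d)]
  · rw [jordanType_sub_one_apply, if_pos ⟨rfl, rfl⟩, one_mul]
  · rintro ⟨k, i⟩ - hne
    rw [jordanType_sub_one_apply, if_neg, zero_mul]
    rintro ⟨h1, h2⟩
    apply hne
    simp only at h1 h2
    subst h1
    have : i = ⟨j, by omega⟩ := Fin.ext (by simp only at h2 ⊢; omega)
    rw [this]
  · intro h
    exact absurd (Finset.mem_univ _) h

theorem nilp_apply_zero (u : Idx d → F) (l : Fin t) (h : 0 < d l) :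
    nilp F d u ⟨l, ⟨0, h⟩⟩ = 0 := by
  show (Matrix.toLin' (Cfsg.jordanTypeMatrix d F - 1)) u _ = _
  rw [Matrix.toLin'_apply, Matrix.mulVec, dotProduct]
  apply Finset.sum_eq_zero
  rintro ⟨k, i⟩ -
  rw [jordanType_sub_one_apply, if_neg, zero_mul]
  rintro ⟨-, h2⟩
  simp only at h2
  omega

theorem nilp_apply' (u : Idx d → F) (l : Fin t) (j : ℕ) (hj : j < d l) (hpos : 0 < j) :
    nilp F d u ⟨l, ⟨j, hj⟩⟩ = u ⟨l, ⟨j - 1, by omega⟩⟩ := by
  obtain ⟨j', rfl⟩ : ∃ j', j = j' + 1 := ⟨j - 1, by omega⟩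
  rw [nilp_apply]
  exact congr_idx d u l _ _ _ _ (by omega)

theorem nilp_pow_apply (i : ℕ) : ∀ (u : Idx d → F) (l : Fin t) (j : ℕ) (hj : j < d l)
    (_ : i ≤ j), ((nilp F d ^ i) u) ⟨l, ⟨j, hj⟩⟩ = u ⟨l, ⟨j - i, by omega⟩⟩ := by
  induction i with
  | zero =>
    intro u l j hj _
    rw [pow_zero]
    exact congr_idx d u l _ _ _ _ (by omega)
  | succ i ih =>
    intro u l j hj hij
    rw [pow_succ, Module.End.mul_apply, ih (nilp F d u) l j hj (by omega),
      nilp_apply' d u l _ _ (by omega)]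
    exact congr_idx d u l _ _ _ _ (by omega)

theorem nilp_pow_apply_lt (i : ℕ) : ∀ (u : Idx d → F) (l : Fin t) (j : ℕ) (hj : j < d l)
    (_ : j < i), ((nilp F d ^ i) u) ⟨l, ⟨j, hj⟩⟩ = 0 := by
  induction i with
  | zero =>
    intro u l j hj hij
    omega
  | succ i ih =>
    intro u l j hj hij
    rw [pow_succ, Module.End.mul_apply]
    by_cases h : j < i
    · exact ih _ l j hj h
    · have hji : j = i := by omega
      subst hji
      rw [nilp_pow_apply d j _ l j hj (le_refl _)]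
      have h0 : nilp F d u ⟨l, ⟨0, by omega⟩⟩ = 0 := nilp_apply_zero d u l (by omega)
      rw [← h0]
      exact congr_idx d _ l _ _ _ _ (by omega)

variable (hd : ∀ k, 0 < d k)

theorem isJordan_nilp (hd : ∀ k, 0 < d k) : IsJordan (nilp F d) d
    (fun k => Pi.single (⟨k, ⟨0, hd k⟩⟩ : Idx d) (1 : F)) :=
  isJordan_jordanType d hd

theorem isNilpotent_nilp (hd : ∀ k, 0 < d k) : IsNilpotent (nilp F d) :=
  isNilpotent_toLin' _ (isNilpotent_jordanType d hd)

theorem nilp_pow_single (hd : ∀ k, 0 < d k) (k : Fin t) (i : ℕ) (hi : i < d k) :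
    (nilp F d ^ i) (Pi.single (⟨k, ⟨0, hd k⟩⟩ : Idx d) (1 : F)) =
      Pi.single (⟨k, ⟨i, hi⟩⟩ : Idx d) (1 : F) := by
  induction i with
  | zero => simp
  | succ i ih =>
    rw [pow_succ', Module.End.mul_apply, ih (by omega)]
    show (Matrix.toLin' (Cfsg.jordanTypeMatrix d F - 1)) _ = _
    rw [Matrix.toLin'_apply, jordanType_mulVec_single, dif_pos (by exact hi)]

theorem jbasis_single (hd : ∀ k, 0 < d k) (x : Idx d) :
    jbasis (isJordan_nilp (F := F) d hd) x = Pi.single x (1 : F) := by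
  rw [jbasis_apply]
  exact nilp_pow_single d hd x.1 x.2 x.2.2

theorem ofGens_apply (hd : ∀ k, 0 < d k) (w : Fin t → Idx d → F) (u : Idx d → F) :
    ofGens (isJordan_nilp (F := F) d hd) w u =
      ∑ x : Idx d, u x • (nilp F d ^ (x.2 : ℕ)) (w x.1) := by
  classical
  have hu : u = ∑ x : Idx d, u x • Pi.single x (1 : F) := by
    funext y
    rw [Finset.sum_apply, Finset.sum_eq_single y]
    · simp
    · intro b _ hb
      simp [Pi.single_apply, hb.symm]
    · intro h
      exact absurd (Finset.mem_univ _) h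
  conv_lhs => rw [hu]
  rw [map_sum]
  apply Finset.sum_congr rfl
  intro x _
  rw [map_smul, ← jbasis_single d hd, ofGens_jbasis]

/-- the socle matrix: row = generator, column = target block -/
noncomputable def socP (hd : ∀ k, 0 < d k) (w : Fin t → Idx d → F) : Matrix (Fin t) (Fin t) F :=
  Matrix.of fun k l => if h : d k ≤ d l then
    w k ⟨l, ⟨d l - d k, by have := hd k; omega⟩⟩ else 0

theorem pow_pred_apply (a : ℕ) (ha : 0 < a) (x : Idx d → F) (hx : (nilp F d ^ a) x = 0)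
    (l : Fin t) (j : ℕ) (hj : j < d l) :
    ((nilp F d ^ (a - 1)) x) ⟨l, ⟨j, hj⟩⟩ =
      if h : j + 1 = d l ∧ a ≤ d l then x ⟨l, ⟨d l - a, by omega⟩⟩ else 0 := by
  by_cases h1 : a - 1 ≤ j
  · rw [nilp_pow_apply d _ x l j hj h1]
    by_cases h2 : j + 1 = d l
    · rw [dif_pos ⟨h2, by omega⟩]
      exact congr_idx d x l _ _ _ _ (by omega)
    · rw [dif_neg (fun h => h2 h.1)]
      have h3 : j + 1 < d l := by omega
      have h4 := congrFun hx ⟨l, ⟨j + 1, h3⟩⟩
      rw [nilp_pow_apply d _ x l (j + 1) h3 (by omega), Pi.zero_apply] at h4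
      exact (congr_idx d x l _ _ _ _ (by omega)).trans h4
  · rw [nilp_pow_apply_lt d _ x l j hj (by omega), dif_neg]
    rintro ⟨h2, h3⟩
    omega

theorem ofGens_socle (hd : ∀ k, 0 < d k) (w : Fin t → Idx d → F)
    (hw : ∀ k, (nilp F d ^ d k) (w k) = 0) (u : Idx d → F)
    (hu : ∀ x : Idx d, (x.2 : ℕ) + 1 < d x.1 → u x = 0) (l : Fin t) (j : ℕ) (hj : j < d l) :
    (ofGens (isJordan_nilp (F := F) d hd) w u) ⟨l, ⟨j, hj⟩⟩ =
      if j + 1 = d l then
        ((fun k => u ⟨k, ⟨d k - 1, by have := hd k; omega⟩⟩) ᵥ* socP d hd w) l else 0 := by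
  classical
  rw [ofGens_apply, Finset.sum_apply, Fintype.sum_sigma]
  have hinner : ∀ k : Fin t, ∑ i : Fin (d k), ((u ⟨k, i⟩ • (nilp F d ^ (i : ℕ)) (w k)) :
      Idx d → F) ⟨l, ⟨j, hj⟩⟩ =
      u ⟨k, ⟨d k - 1, by have := hd k; omega⟩⟩ *
        (if h : j + 1 = d l ∧ d k ≤ d l then
          w k ⟨l, ⟨d l - d k, by have := hd k; omega⟩⟩ else 0) := by
    intro k
    rw [Finset.sum_eq_single (⟨d k - 1, by have := hd k; omega⟩ : Fin (d k))]
    · rw [Pi.smul_apply, smul_eq_mul, pow_pred_apply d (d k) (hd k) (w k) (hw k) l j hj]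
    · intro i _ hi
      have hi' : (i : ℕ) + 1 < d k := by
        have := i.2
        have h3 : (i : ℕ) ≠ d k - 1 := fun h => hi (Fin.ext h)
        omega
      rw [Pi.smul_apply, hu ⟨k, i⟩ hi', zero_smul]
    · intro h
      exact absurd (Finset.mem_univ _) h
  rw [Finset.sum_congr rfl (fun k _ => hinner k)]
  split_ifs with h
  · rw [Matrix.vecMul, dotProduct]
    apply Finset.sum_congr rfl
    intro k _
    congr 1
    rw [socP, Matrix.of_apply]
    by_cases h2 : d k ≤ d l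
    · rw [dif_pos ⟨h, h2⟩, dif_pos h2]
    · rw [dif_neg (fun hh => h2 hh.2), dif_neg h2]
  · apply Finset.sum_eq_zero
    intro k _
    rw [dif_neg (fun hh => h hh.1), mul_zero]

theorem injective_iff (hd : ∀ k, 0 < d k) (w : Fin t → Idx d → F)
    (hw : ∀ k, (nilp F d ^ d k) (w k) = 0) :
    Function.Injective (ofGens (isJordan_nilp (F := F) d hd) w) ↔ (socP d hd w).det ≠ 0 := by
  classical
  constructor
  · intro hinj hdet
    obtain ⟨ū, hne, hū⟩ := Matrix.exists_vecMul_eq_zero_iff.mpr hdet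
    set u : Idx d → F := fun x => if (x.2 : ℕ) + 1 = d x.1 then ū x.1 else 0 with hu
    have hu0 : ∀ x : Idx d, (x.2 : ℕ) + 1 < d x.1 → u x = 0 := by
      intro x hx
      rw [hu]
      simp only
      rw [if_neg (by omega)]
    have hlast : (fun k => u ⟨k, ⟨d k - 1, by have := hd k; omega⟩⟩) = ū := by
      funext k
      rw [hu]
      simp only
      rw [if_pos (by have := hd k; omega)]
    have hφ : ofGens (isJordan_nilp (F := F) d hd) w u = 0 := by
      funext ⟨l, ⟨j, hj⟩⟩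
      rw [ofGens_socle d hd w hw u hu0 l j hj, hlast, hū]
      simp
    have hu1 : u = 0 := hinj (by rw [hφ, map_zero])
    apply hne
    funext k
    have := congrFun hlast k
    rw [← this, hu1]
    rfl
  · intro hdet
    apply injective_of_socle _ (isNilpotent_nilp d hd)
      (ofGens_comm (isJordan_nilp (F := F) d hd) w hw)
    intro u hNu hφu
    have hu0 : ∀ x : Idx d, (x.2 : ℕ) + 1 < d x.1 → u x = 0 := by
      rintro ⟨k, ⟨i, hi⟩⟩ hx
      have h1 := congrFun hNu ⟨k, ⟨i + 1, hx⟩⟩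
      rw [nilp_apply] at h1
      exact h1
    have hvm : (fun k => u ⟨k, ⟨d k - 1, by have := hd k; omega⟩⟩) ᵥ* socP d hd w = 0 := by
      funext l
      have h1 := ofGens_socle d hd w hw u hu0 l (d l - 1) (by have := hd l; omega)
      rw [if_pos (by have := hd l; omega), hφu] at h1
      exact h1.symm
    have hū := Matrix.eq_zero_of_vecMul_eq_zero hdet hvm
    funext ⟨k, ⟨i, hi⟩⟩
    by_cases hx : i + 1 < d k
    · exact hu0 ⟨k, ⟨i, hi⟩⟩ hx
    · have h1 := congrFun hū k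
      simp only [Pi.zero_apply] at h1 ⊢
      rw [← h1]
      exact congr_idx d u k _ _ _ _ (by omega)

end concrete

end Cfsg.Agent.Lib.Helper95.UCent
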