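import Mathlib
import Cfsg.Prelude.Def_JordanBlocks
import Cfsg.Agent.Lib.Helper95.JType
import Cfsg.Agent.Lib.Helper95.UCentB

set_option autoImplicit false

namespace Cfsg.Agent.Lib.Helper95.UCent

open Module Matrix Cfsg.Agent.Lib.Helper95.NilJordan Cfsg.Agent.Lib.Helper95.JType

variable {F : Type*} [Field F]

/-- fibre counting for an additive map with a section -/
theorem card_fiber_mul {W Y : Type*} [AddCommGroup W] [AddCommGroup Y]
    (π : W →+ Y) (σ : Y → W) (hσ : ∀ y, π (σ y) = y) (S : Set Y) :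
    Nat.card {w : W // π w ∈ S} * Nat.card Y = Nat.card W * Nat.card S := by
  rw [← Nat.card_prod, ← Nat.card_prod]
  apply Nat.card_congr
  refine
    { toFun := fun p => (p.1.1 - σ (π p.1.1) + σ p.2, ⟨π p.1.1, p.1.2⟩)
      invFun := fun p => (⟨p.1 - σ (π p.1) + σ p.2.1, by
        rw [map_add, map_sub, hσ, hσ, sub_self, zero_add]; exact p.2.2⟩, π p.1)
      left_inv := ?_
      right_inv := ?_ }
  · rintro ⟨⟨w, hw⟩, y⟩
    apply Prod.ext
    · apply Subtype.ext
      simp only [map_add, map_sub, hσ, sub_self, zero_add]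
      abel
    · simp only [map_add, map_sub, hσ, sub_self, zero_add]
  · rintro ⟨w, ⟨y, hy⟩⟩
    apply Prod.ext
    · simp only [map_add, map_sub, hσ, sub_self, zero_add]
      abel
    · apply Subtype.ext
      simp only [map_add, map_sub, hσ, sub_self, zero_add]

theorem card_det_ne_zero [Fintype F] (κ : Type) [Fintype κ] [DecidableEq κ] :
    Nat.card {M : Matrix κ κ F // M.det ≠ 0} =
      ∏ i : Fin (Fintype.card κ), (Fintype.card F ^ Fintype.card κ - Fintype.card F ^ (i : ℕ)) := by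
  rw [← Matrix.card_GL_field]
  apply Nat.card_congr
  let e := Fintype.equivFin κ
  have e1 : {M : Matrix κ κ F // M.det ≠ 0} ≃
      {M : Matrix (Fin (Fintype.card κ)) (Fin (Fintype.card κ)) F // M.det ≠ 0} :=
    (Matrix.reindex e e).subtypeEquiv (fun M => by rw [Matrix.det_reindex_self])
  refine e1.trans
    { toFun := fun M => Matrix.GeneralLinearGroup.mkOfDetNeZero M.1 M.2
      invFun := fun g => ⟨g.1, ((Matrix.isUnit_iff_isUnit_det _).mp g.isUnit).ne_zero⟩
      left_inv := fun M => Subtype.ext rfl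
      right_inv := fun g => Units.ext rfl }

section concrete

variable {t : ℕ} (d : Fin t → ℕ)

/-- tuples of images of the generators -/
def wsub (F : Type*) [Field F] (d : Fin t → ℕ) : Submodule F (Fin t → Idx d → F) where
  carrier := {w | ∀ k, (nilp F d ^ d k) (w k) = 0}
  add_mem' := by
    intro a b ha hb k
    show (nilp F d ^ d k) ((a + b) k) = 0
    rw [Pi.add_apply, map_add, ha k, hb k, add_zero]
  zero_mem' := by
    intro k
    show (nilp F d ^ d k) ((0 : Fin t → Idx d → F) k) = 0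
    rw [Pi.zero_apply, map_zero]
  smul_mem' := by
    intro c a ha k
    show (nilp F d ^ d k) ((c • a) k) = 0
    rw [Pi.smul_apply, map_smul, ha k, smul_zero]

theorem mem_wsub (w : Fin t → Idx d → F) :
    w ∈ wsub F d ↔ ∀ k, (nilp F d ^ d k) (w k) = 0 := Iff.rfl

theorem finrank_ker_nilp_pow (hd : ∀ k, 0 < d k) (j : ℕ) :
    finrank F (LinearMap.ker (nilp F d ^ j)) = ∑ l, min (d l) j := by
  have h1 := LinearMap.finrank_range_add_finrank_ker (nilp F d ^ j)
  rw [(isJordan_nilp (F := F) d hd).finrank_range_pow j, Module.finrank_fintype_fun_eq_card,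
    Fintype.card_sigma] at h1
  simp only [Fintype.card_fin] at h1
  have h2 : ∑ l, (d l - j) + ∑ l, min (d l) j = ∑ l, d l := by
    rw [← Finset.sum_add_distrib]
    apply Finset.sum_congr rfl
    intro l _
    omega
  omega

theorem card_wsub [Fintype F] (hd : ∀ k, 0 < d k) :
    Nat.card (wsub F d) = Fintype.card F ^ (∑ k, ∑ l, min (d l) (d k)) := by
  have e : ↥(wsub F d) ≃ ∀ k, ↥(LinearMap.ker (nilp F d ^ d k)) :=
    Equiv.subtypePiEquivPi (p := fun k b => (nilp F d ^ d k) b = 0)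
  rw [Nat.card_congr e, Nat.card_pi, ← Finset.prod_pow_eq_pow_sum]
  apply Finset.prod_congr rfl
  intro k _
  rw [Module.natCard_eq_pow_finrank (K := F), finrank_ker_nilp_pow d hd, Nat.card_eq_fintype_card]

variable (hd : ∀ k, 0 < d k)

/-- the target of the block projection -/
abbrev YT (F : Type*) [Field F] (d : Fin t → ℕ) (m : ℕ) : Type _ :=
  (s : Fin (m + 1)) → Matrix {k : Fin t // d k = (s : ℕ)} {k : Fin t // d k = (s : ℕ)} F

theorem socP_add (hd : ∀ k, 0 < d k) (w w' : Fin t → Idx d → F) :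
    socP d hd (w + w') = socP d hd w + socP d hd w' := by
  ext k l
  simp only [socP, Matrix.of_apply, Matrix.add_apply]
  split_ifs with h
  · rfl
  · simp

/-- the projection to the diagonal blocks -/
noncomputable def blockHom (hd : ∀ k, 0 < d k) (m : ℕ) : wsub F d →+ YT F d m :=
  AddMonoidHom.mk' (fun w s => (socP d hd w.1).toSquareBlock d (s : ℕ)) (by
    intro a b
    funext s
    ext i j
    simp only [Matrix.toSquareBlock_def, Matrix.of_apply, Submodule.coe_add, socP_add,
      Matrix.add_apply, Pi.add_apply])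

theorem blockHom_apply (hd : ∀ k, 0 < d k) (m : ℕ) (w : wsub F d) (s : Fin (m + 1))
    (i j : {k : Fin t // d k = (s : ℕ)}) :
    blockHom d hd m w s i j = socP d hd w.1 i.1 j.1 := rfl

/-- the section of the block projection -/
noncomputable def sect (m : ℕ) (hm : ∀ k, d k ≤ m) (y : YT F d m) : wsub F d :=
  ⟨fun k x => if h : d x.1 = d k ∧ (x.2 : ℕ) = 0 then
      y ⟨d k, Nat.lt_succ_of_le (hm k)⟩ ⟨k, rfl⟩ ⟨x.1, h.1⟩ else 0, by
    intro k
    funext ⟨l, ⟨j, hj⟩⟩
    rw [Pi.zero_apply]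
    by_cases h : d k ≤ j
    · rw [nilp_pow_apply d _ _ l j hj h]
      beta_reduce
      rw [dif_neg]
      rintro ⟨h1, h2⟩
      simp only at h1 h2
      omega
    · exact nilp_pow_apply_lt d _ _ l j hj (by omega)⟩

theorem blockHom_sect (hd : ∀ k, 0 < d k) (m : ℕ) (hm : ∀ k, d k ≤ m) (y : YT F d m) :
    blockHom d hd m (sect d m hm y) = y := by
  funext s
  ext ⟨k, hk⟩ ⟨l, hl⟩
  rw [blockHom_apply]
  obtain ⟨s, hs⟩ := s
  simp only at hk hl
  subst hk
  simp only [socP, Matrix.of_apply, sect]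
  rw [dif_pos (by omega), dif_pos ⟨hl, by omega⟩]

theorem socP_blockTriangular (hd : ∀ k, 0 < d k) (w : Fin t → Idx d → F) :
    (socP d hd w).BlockTriangular d := by
  intro i j hij
  simp only [socP, Matrix.of_apply]
  rw [dif_neg (by omega)]

theorem det_socP_ne_zero_iff (hd : ∀ k, 0 < d k) (m : ℕ) (hm : ∀ k, d k ≤ m) (w : wsub F d) :
    (socP d hd w.1).det ≠ 0 ↔ ∀ s : Fin (m + 1), (blockHom d hd m w s).det ≠ 0 := by
  classical
  rw [(socP_blockTriangular d hd w.1).det, Finset.prod_ne_zero_iff]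
  constructor
  · intro h s
    by_cases hs : (s : ℕ) ∈ Finset.univ.image d
    · exact h _ hs
    · haveI : IsEmpty {k : Fin t // d k = (s : ℕ)} :=
        ⟨fun ⟨k, hk⟩ => hs (Finset.mem_image.mpr ⟨k, Finset.mem_univ _, hk⟩)⟩
      rw [Matrix.det_isEmpty]
      exact one_ne_zero
  · intro h a ha
    obtain ⟨k, -, rfl⟩ := Finset.mem_image.mp ha
    exact h ⟨d k, Nat.lt_succ_of_le (hm k)⟩

theorem comm_iff (A : Matrix (Idx d) (Idx d) F) :
    A * Cfsg.jordanTypeMatrix d F = Cfsg.jordanTypeMatrix d F * A ↔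
      Matrix.toLin' A ∘ₗ nilp F d = nilp F d ∘ₗ Matrix.toLin' A := by
  have h1 : Matrix.toLin' A ∘ₗ nilp F d = Matrix.toLin' (A * (Cfsg.jordanTypeMatrix d F - 1)) := by
    rw [Matrix.toLin'_mul]; rfl
  have h2 : nilp F d ∘ₗ Matrix.toLin' A = Matrix.toLin' ((Cfsg.jordanTypeMatrix d F - 1) * A) := by
    rw [Matrix.toLin'_mul]; rfl
  rw [h1, h2, Matrix.toLin'.injective.eq_iff, mul_sub, sub_mul, mul_one, one_mul, sub_left_inj]

theorem card_centralizer (hd : ∀ k, 0 < d k) :
    Nat.card {g : GL (Idx d) F // (g : Matrix (Idx d) (Idx d) F) * Cfsg.jordanTypeMatrix d F =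
      Cfsg.jordanTypeMatrix d F * (g : Matrix (Idx d) (Idx d) F)} =
    Nat.card {w : wsub F d // (socP d hd w.1).det ≠ 0} := by
  classical
  have hJ := isJordan_nilp (F := F) d hd
  set e : Fin t → Idx d → F := fun k => Pi.single (⟨k, ⟨0, hd k⟩⟩ : Idx d) (1 : F) with he
  have hmem : ∀ A : Matrix (Idx d) (Idx d) F,
      A * Cfsg.jordanTypeMatrix d F = Cfsg.jordanTypeMatrix d F * A →
      (fun k => Matrix.toLin' A (e k)) ∈ wsub F d := by
    intro A hA k
    show (nilp F d ^ d k) (Matrix.toLin' A (e k)) = 0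
    rw [← pow_comm_apply _ ((comm_iff d A).mp hA), hJ.top, map_zero]
  have hof : ∀ A : Matrix (Idx d) (Idx d) F,
      A * Cfsg.jordanTypeMatrix d F = Cfsg.jordanTypeMatrix d F * A →
      ofGens hJ (fun k => Matrix.toLin' A (e k)) = Matrix.toLin' A :=
    fun A hA => ofGens_eq hJ _ ((comm_iff d A).mp hA)
  have hdet : ∀ (g : GL (Idx d) F) (h : (g : Matrix (Idx d) (Idx d) F) * Cfsg.jordanTypeMatrix d F =
      Cfsg.jordanTypeMatrix d F * (g : Matrix (Idx d) (Idx d) F)),
      (socP d hd (fun k => Matrix.toLin' (g : Matrix (Idx d) (Idx d) F) (e k))).det ≠ 0 := by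
    intro g h
    apply (injective_iff d hd _ (hmem _ h)).mp
    rw [hof _ h]
    exact Matrix.mulVec_injective_iff_isUnit.mpr g.isUnit
  apply Nat.card_congr
  refine Equiv.ofBijective (fun g => ⟨⟨fun k => Matrix.toLin' (g.1 : Matrix (Idx d) (Idx d) F) (e k),
    hmem _ g.2⟩, hdet g.1 g.2⟩) ⟨?_, ?_⟩
  · intro g g' h
    have h1 : (fun k => Matrix.toLin' (g.1 : Matrix (Idx d) (Idx d) F) (e k)) =
        (fun k => Matrix.toLin' (g'.1 : Matrix (Idx d) (Idx d) F) (e k)) :=
      congrArg (fun z => z.1.1) h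
    have h2 : Matrix.toLin' (g.1 : Matrix (Idx d) (Idx d) F) =
        Matrix.toLin' (g'.1 : Matrix (Idx d) (Idx d) F) := by
      rw [← hof _ g.2, ← hof _ g'.2, h1]
    exact Subtype.ext (Units.ext (Matrix.toLin'.injective h2))
  · rintro ⟨⟨w, hw⟩, hdetw⟩
    have hw' : ∀ k, (nilp F d ^ d k) (w k) = 0 := hw
    have hinj := (injective_iff d hd w hw').mpr hdetw
    have hA : IsUnit (LinearMap.toMatrix' (ofGens hJ w)) := by
      apply Matrix.mulVec_injective_iff_isUnit.mp
      have h3 : Matrix.toLin' (LinearMap.toMatrix' (ofGens hJ w)) = ofGens hJ w :=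
        Matrix.toLin'_toMatrix' _
      have h4 : Function.Injective (Matrix.toLin' (LinearMap.toMatrix' (ofGens hJ w))) := by
        rw [h3]; exact hinj
      exact h4
    have hcomm : LinearMap.toMatrix' (ofGens hJ w) * Cfsg.jordanTypeMatrix d F =
        Cfsg.jordanTypeMatrix d F * LinearMap.toMatrix' (ofGens hJ w) := by
      rw [comm_iff, Matrix.toLin'_toMatrix']
      exact ofGens_comm hJ w hw'
    refine ⟨⟨hA.unit, hcomm⟩, ?_⟩
    apply Subtype.ext
    apply Subtype.ext
    funext k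
    show Matrix.toLin' (LinearMap.toMatrix' (ofGens hJ w)) (e k) = w k
    rw [Matrix.toLin'_toMatrix']
    exact ofGens_gen hJ hd w k

theorem prod_fin_congr (q n a : ℕ) (h : n = a) :
    ∏ i : Fin n, (q ^ n - q ^ (i : ℕ)) = ∏ i : Fin a, (q ^ a - q ^ (i : ℕ)) := by
  subst h
  rfl

theorem card_centralizer_mul [Fintype F] (hd : ∀ k, 0 < d k) (m : ℕ) (hm : ∀ k, d k ≤ m) :
    Nat.card {g : GL (Idx d) F // (g : Matrix (Idx d) (Idx d) F) * Cfsg.jordanTypeMatrix d F =
      Cfsg.jordanTypeMatrix d F * (g : Matrix (Idx d) (Idx d) F)} *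
      Fintype.card F ^ (∑ s : Fin (m + 1),
        (Finset.univ.filter (fun k : Fin t => d k = (s : ℕ))).card *
        (Finset.univ.filter (fun k : Fin t => d k = (s : ℕ))).card) =
    Fintype.card F ^ (∑ k, ∑ l, min (d l) (d k)) *
      ∏ s : Fin (m + 1), ∏ j : Fin ((Finset.univ.filter (fun k : Fin t => d k = (s : ℕ))).card),
        (Fintype.card F ^ (Finset.univ.filter (fun k : Fin t => d k = (s : ℕ))).card -
          Fintype.card F ^ (j : ℕ)) := by
  classical
  rw [card_centralizer d hd]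
  have hcardfib : ∀ s : Fin (m + 1), Fintype.card {k : Fin t // d k = (s : ℕ)} =
      (Finset.univ.filter (fun k : Fin t => d k = (s : ℕ))).card := fun s =>
    Fintype.card_subtype _
  set S : Set (YT F d m) := {y | ∀ s, (y s).det ≠ 0} with hS
  have h1 : Nat.card {w : wsub F d // (socP d hd w.1).det ≠ 0} =
      Nat.card {w : wsub F d // blockHom d hd m w ∈ S} :=
    Nat.card_congr (Equiv.subtypeEquivRight (fun w => det_socP_ne_zero_iff d hd m hm w))
  have h2 := card_fiber_mul (blockHom (F := F) d hd m) (sect d m hm) (blockHom_sect d hd m hm) S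
  have h3 : Nat.card (YT F d m) = Fintype.card F ^ (∑ s : Fin (m + 1),
        (Finset.univ.filter (fun k : Fin t => d k = (s : ℕ))).card *
        (Finset.univ.filter (fun k : Fin t => d k = (s : ℕ))).card) := by
    rw [Nat.card_pi, ← Finset.prod_pow_eq_pow_sum]
    apply Finset.prod_congr rfl
    intro s _
    show Nat.card ({k : Fin t // d k = (s : ℕ)} → {k : Fin t // d k = (s : ℕ)} → F) = _
    rw [Nat.card_fun, Nat.card_fun, Nat.card_eq_fintype_card, Nat.card_eq_fintype_card,
      hcardfib, ← pow_mul]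
  have h4 : Nat.card S = ∏ s : Fin (m + 1),
      ∏ j : Fin ((Finset.univ.filter (fun k : Fin t => d k = (s : ℕ))).card),
        (Fintype.card F ^ (Finset.univ.filter (fun k : Fin t => d k = (s : ℕ))).card -
          Fintype.card F ^ (j : ℕ)) := by
    have e : ↥S ≃ ∀ s : Fin (m + 1),
        {M : Matrix {k : Fin t // d k = (s : ℕ)} {k : Fin t // d k = (s : ℕ)} F // M.det ≠ 0} :=
      Equiv.subtypePiEquivPi (p := fun s M => Matrix.det M ≠ 0)
    rw [Nat.card_congr e, Nat.card_pi]
    apply Finset.prod_congr rfl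
    intro s _
    rw [card_det_ne_zero]
    exact prod_fin_congr _ _ _ (hcardfib s)
  rw [h1, ← h3, h2, card_wsub d hd, h4]

end concrete

end Cfsg.Agent.Lib.Helper95.UCent
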