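import Mathlib
import Cfsg.Agent.Lib.Helper41.UnitStmt
import Cfsg.Agent.Lib.Helper40.RootPow
import Cfsg.Agent.Lib.Helper40.PrimeFix

set_option autoImplicit false

namespace Cfsg.Agent.Lib.Helper95.UnitBAD2

open Cfsg.Agent.Lib.Helper41.UnitStmt
open Cfsg.Agent.Lib.Helper40.HermAdj

universe u

/-- the key step: a matrix with `x * x = c • 1`, `c` a non-square, is not `GoodU` -/
theorem not_goodU {F : Type u} [Field F] [Fintype F] (q₀ : ℕ) (hq : Fintype.card F = q₀ ^ 2)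
    (φ : F →+* F) (hφ : ∀ x, φ x = x ^ q₀) (h2 : ringChar F ≠ 2) {n : ℕ} (hn : 1 ≤ n)
    (x : Matrix (Fin n) (Fin n) F) (c : F) (hc : ∀ d : F, d ^ 2 ≠ c)
    (hx : x ^ 2 = c • (1 : Matrix (Fin n) (Fin n) F)) : ¬ GoodU φ x := by
  rintro ⟨S, B, c', hS, hc', hB, hSx⟩
  have hc0 : c ≠ 0 := by
    intro h
    exact hc 0 (by rw [h]; norm_num)
  have hodd : Fintype.card F % 2 = 1 := FiniteField.odd_card_of_char_ne_two h2
  have hq0odd : q₀ % 2 = 1 := by
    rw [hq, Nat.pow_mod] at hodd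
    rcases Nat.mod_two_eq_zero_or_one q₀ with h | h
    · rw [h] at hodd; norm_num at hodd
    · exact h
  have hSS : S * S⁻¹ = 1 := Matrix.mul_nonsing_inv S hS
  have hSS' : S⁻¹ * S = 1 := Matrix.nonsing_inv_mul S hS
  -- `(c' • B) * (c' • B) = c • 1`
  have h1 : (c' • B) * (c' • B) = c • (1 : Matrix (Fin n) (Fin n) F) := by
    have e1 : c' • B = S * x * S⁻¹ := by
      rw [hSx, Matrix.mul_assoc, hSS, Matrix.mul_one]
    rw [e1]
    calc S * x * S⁻¹ * (S * x * S⁻¹) = S * x * (S⁻¹ * S) * x * S⁻¹ := by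
          simp only [Matrix.mul_assoc]
      _ = S * (x ^ 2) * S⁻¹ := by rw [hSS', Matrix.mul_one, sq]; simp only [Matrix.mul_assoc]
      _ = c • (1 : Matrix (Fin n) (Fin n) F) := by
          rw [hx, Matrix.mul_smul, Matrix.mul_one, Matrix.smul_mul, hSS]
  obtain ⟨w, hw⟩ : ∃ w : F, w = c / c' ^ 2 := ⟨_, rfl⟩
  have hBB : B * B = w • (1 : Matrix (Fin n) (Fin n) F) := by
    have e2 : (c' • B) * (c' • B) = c' ^ 2 • (B * B) := by
      rw [Matrix.smul_mul, Matrix.mul_smul, smul_smul, sq]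
    rw [e2] at h1
    have e3 : B * B = (c' ^ 2)⁻¹ • (c' ^ 2 • (B * B)) := by
      rw [smul_smul, inv_mul_cancel₀ (pow_ne_zero 2 hc'), one_smul]
    rw [e3, h1, smul_smul, hw, div_eq_inv_mul]
  have hw0 : w ≠ 0 := by
    rw [hw]
    exact div_ne_zero hc0 (pow_ne_zero 2 hc')
  -- `φ w * w = 1`
  have h3 : adj φ (B * B) * (B * B) = 1 := by
    rw [adj_mul]
    calc adj φ B * adj φ B * (B * B) = adj φ B * (adj φ B * B) * B := by
          simp only [Matrix.mul_assoc]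
      _ = 1 := by rw [hB, Matrix.mul_one, hB]
  have h4 : adj φ (w • (1 : Matrix (Fin n) (Fin n) F)) = φ w • (1 : Matrix (Fin n) (Fin n) F) := by
    ext i j
    rw [adj_apply, Matrix.smul_apply, Matrix.smul_apply, Matrix.one_apply, Matrix.one_apply]
    by_cases h : i = j
    · rw [if_pos h, if_pos h.symm, smul_eq_mul, mul_one, smul_eq_mul, mul_one]
    · have h' : ¬ j = i := fun h'' => h h''.symm
      rw [if_neg h, if_neg h', smul_zero, smul_zero, map_zero]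
  rw [hBB, h4, Matrix.smul_mul, Matrix.one_mul, smul_smul] at h3
  have h5 : φ w * w = 1 := by
    have h6 := congrFun (congrFun h3 ⟨0, hn⟩) ⟨0, hn⟩
    rw [Matrix.smul_apply, Matrix.one_apply_eq, smul_eq_mul, mul_one] at h6
    exact h6
  have h7 : w ^ (q₀ + 1) = 1 := by
    rw [pow_succ, ← hφ]
    exact h5
  -- `w` is a square
  have h8 : w ^ (Fintype.card F / 2) = 1 := by
    have e4 : Fintype.card F / 2 = (q₀ + 1) * ((q₀ - 1) / 2) := by
      rw [hq]
      obtain ⟨k, hk⟩ : ∃ k, q₀ = 2 * k + 1 := ⟨q₀ / 2, by omega⟩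
      rw [hk]
      have e5 : (2 * k + 1 - 1) / 2 = k := by omega
      rw [e5]
      have e6 : (2 * k + 1) ^ 2 = 2 * ((2 * k + 1 + 1) * k) + 1 := by ring
      rw [e6]
      omega
    rw [e4, pow_mul, h7, one_pow]
  obtain ⟨u, hu⟩ := (FiniteField.isSquare_iff h2 hw0).mpr h8
  apply hc (u * c')
  rw [mul_pow, sq u, ← hu, hw, div_mul_cancel₀ _ (pow_ne_zero 2 hc')]

theorem main : Cfsg.Agent.Lib.Helper41.UnitStmt.Bad2.{u} := by
  intro F _ _ p _ _ q₀ hq φ hφ hp2 n hn hval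
  have hchar : ringChar F = p := ringChar.eq F p
  have h2 : ringChar F ≠ 2 := by rw [hchar]; exact hp2
  have hodd : Fintype.card F % 2 = 1 := FiniteField.odd_card_of_char_ne_two h2
  haveI : Fact (Nat.Prime 2) := ⟨Nat.prime_two⟩
  have hr1 : 2 ∣ Fintype.card F - 1 := by omega
  obtain ⟨c, A, hnA, hc, hdet⟩ := Cfsg.Agent.Lib.Helper40.RootPow.exists_nonpower (F := F) 2 hr1 n hn
    (fun h => hval h.1)
  have hc0 : c ≠ 0 := by
    intro h
    exact hc 0 (by rw [h]; norm_num)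
  subst hnA
  obtain ⟨x, hxdet, hx⟩ := Cfsg.Agent.Lib.Helper40.PrimeFix.exists_bad p 2 c A hc0 hdet
  refine ⟨x, hxdet, ⟨c, hx⟩, ?_, not_goodU q₀ hq φ hφ h2 hn x c hc hx⟩
  intro z hz
  apply hc z
  rw [hz] at hx
  have h6 := congrFun (congrFun hx ⟨0, hn⟩) ⟨0, hn⟩
  rw [sq, Matrix.smul_mul, Matrix.mul_smul, Matrix.one_mul, smul_smul, Matrix.smul_apply,
    Matrix.smul_apply, Matrix.one_apply_eq, smul_eq_mul, mul_one, smul_eq_mul, mul_one] at h6
  rw [sq]
  exact h6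

end Cfsg.Agent.Lib.Helper95.UnitBAD2

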