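import Mathlib
import Cfsg.Agent.Lib.Helper41.UnitStmt
import Cfsg.Agent.Lib.Helper40.GUReal
import Cfsg.Agent.Lib.Helper40.HPoly

set_option autoImplicit false

namespace Cfsg.Agent.Lib.Helper95.UnitDIAGBADU

open Polynomial Cfsg.Agent.Lib.Helper41.SubfStmt Cfsg.Agent.Lib.Helper41.UnitStmt
open Cfsg.Agent.Lib.Helper40.HermAdj Cfsg.Agent.Lib.Helper40.RecipPoly

universe u

theorem main : Cfsg.Agent.Lib.Helper41.UnitStmt.DiagBadU.{u} := by
  intro F _ _ q₀ hq φ hφ n r _ lam hord d hd e hgood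
  classical
  obtain ⟨S, B, c, hS, hc, hB, hSx⟩ := hgood
  have hr : r.Prime := Fact.out
  have : NeZero r := ⟨hr.ne_zero⟩
  -- basic facts on `lam`
  have hmod : ∀ m : ℕ, lam ^ (m % r) = lam ^ m := by
    intro m
    rw [← hord]; exact pow_mod_orderOf lam m
  have hlam0 : lam ≠ 0 := by
    rintro rfl
    have h1 : (0 : F) ^ r = 1 := by
      have h2 := pow_orderOf_eq_one (0 : F)
      rwa [hord] at h2
    rw [zero_pow hr.ne_zero] at h1
    exact zero_ne_one h1
  have hLadd : ∀ a b : ZMod r, lam ^ (a + b).val = lam ^ a.val * lam ^ b.val := by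
    intro a b
    rw [ZMod.val_add, hmod, pow_add]
  have hLinj : ∀ a b : ZMod r, lam ^ a.val = lam ^ b.val → a = b := by
    intro a b h
    have h1 : a.val ∈ Set.Iio (orderOf lam) := by rw [hord]; exact ZMod.val_lt a
    have h2 : b.val ∈ Set.Iio (orderOf lam) := by rw [hord]; exact ZMod.val_lt b
    exact ZMod.val_injective r (pow_injOn_Iio_orderOf h1 h2 h)
  have hLpow : ∀ a : ZMod r, (lam ^ a.val) ^ q₀ = lam ^ (((q₀ : ℕ) : ZMod r) * a).val := by
    intro a
    calc (lam ^ a.val) ^ q₀ = lam ^ (q₀ * a.val) := by rw [← pow_mul, mul_comm]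
      _ = (lam ^ q₀) ^ a.val := pow_mul _ _ _
      _ = (lam ^ (q₀ % r)) ^ a.val := by rw [hmod q₀]
      _ = lam ^ ((q₀ % r) * a.val) := (pow_mul _ _ _).symm
      _ = lam ^ ((q₀ % r) * a.val % r) := (hmod _).symm
      _ = _ := by rw [ZMod.val_mul, ZMod.val_natCast]
  have hLinv : ∀ a : ZMod r, (lam ^ a.val)⁻¹ = lam ^ (-a).val := by
    intro a
    apply inv_eq_of_mul_eq_one_right
    rw [← hLadd, add_neg_cancel, ZMod.val_zero, pow_zero]
  have hφ2 : ∀ x, φ (φ x) = x := by
    intro x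
    rw [hφ, hφ, ← pow_mul, ← sq, ← hq]
    exact FiniteField.pow_card x
  set t : F := c⁻¹ * d with ht
  have ht0 : t ≠ 0 := mul_ne_zero (inv_ne_zero hc) hd
  let b : Fin n → F := fun j => t * lam ^ (e j).val
  have hb0 : ∀ j, b j ≠ 0 := fun j => mul_ne_zero ht0 (pow_ne_zero _ hlam0)
  have hx' : S * Matrix.diagonal b = B * S := by
    have h1 : Matrix.diagonal b = c⁻¹ • (d • Matrix.diagonal (fun j => lam ^ (e j).val)) := by
      ext i j
      by_cases hij : i = j
      · subst hij; simp [b, ht, mul_assoc]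
      · simp [Matrix.diagonal_apply_ne _ hij]
    rw [h1, Matrix.mul_smul, hSx, Matrix.smul_mul, smul_smul, inv_mul_cancel₀ hc, one_smul]
  let Su : (Matrix (Fin n) (Fin n) F)ˣ :=
    ⟨S, S⁻¹, Matrix.mul_nonsing_inv S hS, Matrix.nonsing_inv_mul S hS⟩
  have hchar : (Matrix.diagonal b).charpoly = B.charpoly := by
    rw [← Matrix.charpoly_units_conj Su (Matrix.diagonal b)]
    congr 1
    change S * Matrix.diagonal b * S⁻¹ = _
    rw [hx', Matrix.mul_assoc, Matrix.mul_nonsing_inv S hS, Matrix.mul_one]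
  have hprod : (Matrix.diagonal b).charpoly =
      ((Finset.univ.val.map b).map (fun a => X - C a)).prod := by
    rw [Matrix.charpoly_diagonal, Finset.prod_eq_multiset_prod, Multiset.map_map]
    rfl
  have hstar : rstar φ (Matrix.diagonal b).charpoly = (Matrix.diagonal b).charpoly := by
    rw [hchar]
    exact Cfsg.Agent.Lib.Helper40.GUReal.rstar_charpoly_of_unitary φ hφ2 B hB
  have hR : (Finset.univ.val.map b).map (fun x => (x ^ q₀)⁻¹) = Finset.univ.val.map b := by
    have h1 : (((Finset.univ.val.map b).map (fun x => (x ^ q₀)⁻¹)).map (fun a => X - C a)).prod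
        = rstar φ (Matrix.diagonal b).charpoly := by
      rw [hprod, rstar_multiset_prod]
      congr 1
      simp only [Multiset.map_map]
      apply Multiset.map_congr rfl
      intro j _
      simp only [Function.comp]
      rw [Cfsg.Agent.Lib.Helper40.HPoly.rstar_X_sub_C φ (b j) (hb0 j), hφ]
    have h2 := congrArg Polynomial.roots h1
    rw [Polynomial.roots_multiset_prod_X_sub_C, hstar, hprod,
      Polynomial.roots_multiset_prod_X_sub_C] at h2
    exact h2
  have hψinj : Function.Injective (fun x : F => (x ^ q₀)⁻¹) := by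
    intro x y hxy
    have h0 : x ^ q₀ = y ^ q₀ := inv_injective hxy
    have h1 : φ x = φ y := by rw [hφ, hφ]; exact h0
    exact φ.injective h1
  have hcount : ∀ x : F, (Finset.univ.val.map b).count ((x ^ q₀)⁻¹) =
      (Finset.univ.val.map b).count x := by
    intro x
    conv_lhs => rw [← hR]
    exact Multiset.count_map_eq_count' _ _ hψinj x
  have hN : ∀ a : ZMod r, (Finset.univ.val.map b).count (t * lam ^ a.val) =
      (Finset.univ.filter (fun j => e j = a)).card := by
    intro a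
    rw [Multiset.count_map, Finset.card_def, Finset.filter_val]
    congr 1
    apply Multiset.filter_congr
    intro j _
    constructor
    · intro h; exact (hLinj _ _ (mul_left_cancel₀ ht0 h)).symm
    · intro h; rw [← h]
  rcases Nat.eq_zero_or_pos n with hn | hn
  · subst hn
    exact ⟨0, fun a => by simp⟩
  let j₀ : Fin n := ⟨0, hn⟩
  have hmem : ((b j₀) ^ q₀)⁻¹ ∈ Finset.univ.val.map b := by
    rw [← Multiset.count_pos, hcount, Multiset.count_pos]
    exact Multiset.mem_map_of_mem b (Finset.mem_univ_val j₀)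
  obtain ⟨j₁, -, hj₁⟩ := Multiset.mem_map.1 hmem
  obtain ⟨s, hs⟩ : ∃ s : ZMod r, s = e j₁ + ((q₀ : ℕ) : ZMod r) * e j₀ := ⟨_, rfl⟩
  have htq : (t ^ q₀)⁻¹ = t * lam ^ s.val := by
    have h1 : t * lam ^ (e j₁).val = (t ^ q₀)⁻¹ * (lam ^ (((q₀ : ℕ) : ZMod r) * e j₀).val)⁻¹ := by
      rw [← hLpow, ← mul_inv, ← mul_pow]; exact hj₁
    have h3 : lam ^ (((q₀ : ℕ) : ZMod r) * e j₀).val ≠ 0 := pow_ne_zero _ hlam0
    rw [hs, hLadd, ← mul_assoc, h1, mul_assoc, inv_mul_cancel₀ h3, mul_one]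
  refine ⟨-s, fun a => ?_⟩
  rw [← hN a, ← hN (-((q₀ : ℕ) : ZMod r) * a - -s), ← hcount]
  congr 1
  rw [mul_pow, mul_inv, htq, hLpow, hLinv, mul_assoc, ← hLadd]
  have h4 : s + -(((q₀ : ℕ) : ZMod r) * a) = -((q₀ : ℕ) : ZMod r) * a - -s := by ring
  rw [h4]

end Cfsg.Agent.Lib.Helper95.UnitDIAGBADU

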