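import Mathlib
import Cfsg.Agent.Lib.Helper41.UnitStmt
import Cfsg.Agent.Lib.Helper37.MonoBasis

/-!
S5982/INVSYM: an involutory matrix is conjugate to a symmetric signed permutation matrix.
The construction is that of `Cfsg.Agent.Lib.Helper37.SignPerm.exists_signed_perm`, with the
additional observation that the signs of the two members of a 2-cycle agree.
-/

set_option autoImplicit false

namespace Cfsg.Agent.Lib.Helper95.UnitINVSYM

open Module

universe u

section
variable {F : Type*} [Field F]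

/-- A matrix with square 1 is conjugate to a signed permutation matrix (entries `0`, `1`, `-1`). -/
theorem exists_signed_perm_symm {n : ℕ} (y : Matrix (Fin n) (Fin n) F) (hyy : y * y = 1) :
    ∃ (Q : GL (Fin n) F) (M : Matrix (Fin n) (Fin n) F),
      (∀ i j, M i j = 0 ∨ M i j = 1 ∨ M i j = -1) ∧ M * M = 1 ∧
      (Q : Matrix (Fin n) (Fin n) F) * y = M * (Q : Matrix (Fin n) (Fin n) F) ∧
      M.transpose = M := by
  classical
  have hxx : ∀ v : Fin n → F, Matrix.toLin' y (Matrix.toLin' y v) = (1 : F) • v := by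
    intro v
    rw [Matrix.toLin'_apply, Matrix.toLin'_apply, Matrix.mulVec_mulVec, hyy, Matrix.one_mulVec,
      one_smul]
  obtain ⟨I, hI, b, π, μ, hli, hspan, hπ, hxb⟩ :=
    Cfsg.Agent.Lib.Helper37.MonoBasis.exists_mono (Matrix.toLin' y) hxx _ ⊤ rfl
      (fun _ _ => trivial)
  have hcard : Fintype.card I = n := by
    have h1 := finrank_span_eq_card hli
    rw [hspan, finrank_top, Module.finrank_fintype_fun_eq_card, Fintype.card_fin] at h1
    exact h1.symm
  have hb0 : ∀ i, b i ≠ 0 := hli.ne_zero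
  have hμ : ∀ i, μ i * μ (π i) = 1 := by
    intro i
    have h1 := hxx (b i)
    rw [hxb, map_smul, hxb, hπ, smul_smul] at h1
    have h2 : (μ i * μ (π i) - 1) • b i = 0 := by rw [sub_smul, h1, sub_self]
    rcases smul_eq_zero.mp h2 with h3 | h3
    · exact sub_eq_zero.mp h3
    · exact absurd h3 (hb0 i)
  have hμ0 : ∀ i, μ i ≠ 0 := by
    intro i h0
    have := hμ i
    rw [h0, zero_mul] at this
    exact zero_ne_one this
  let _ : LinearOrder I := LinearOrder.lift' (Fintype.equivFin I) (Fintype.equivFin I).injective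
  obtain ⟨ν, hν⟩ : ∃ ν : I → F,
      ν = fun i => if π i = i then 1 else if i < π i then 1 else μ (π i) := ⟨_, rfl⟩
  have hν0 : ∀ i, ν i ≠ 0 := by
    intro i
    rw [hν]
    simp only
    split_ifs
    · exact one_ne_zero
    · exact one_ne_zero
    · exact hμ0 _
  -- the signs
  have hκ : ∀ i, ∃ κ : F, (κ = 1 ∨ κ = -1) ∧ ν i * μ i = κ * ν (π i) := by
    intro i
    by_cases h1 : π i = i
    · have h2 : ν i = 1 := by rw [hν]; simp [h1]
      have h3 := hμ i
      rw [h1] at h3
      refine ⟨μ i, ?_, by rw [h1, h2]; ring⟩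
      have h4 : (μ i - 1) * (μ i + 1) = 0 := by linear_combination h3
      rcases mul_eq_zero.mp h4 with h5 | h5
      · exact Or.inl (sub_eq_zero.mp h5)
      · exact Or.inr (by linear_combination h5)
    · have h1' : π (π i) ≠ π i := by rw [hπ]; exact fun h => h1 h.symm
      by_cases h2 : i < π i
      · have h3 : ν i = 1 := by rw [hν]; simp [h1, h2]
        have h4 : ν (π i) = μ i := by
          rw [hν]
          simp only
          rw [if_neg h1', hπ, if_neg (not_lt.mpr h2.le)]
        exact ⟨1, Or.inl rfl, by rw [h3, h4]⟩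
      · have h2' : π i < i := lt_of_le_of_ne (not_lt.mp h2) h1
        have h3 : ν i = μ (π i) := by rw [hν]; simp [h1, h2]
        have h4 : ν (π i) = 1 := by
          rw [hν]
          simp only
          rw [if_neg h1', hπ, if_pos h2']
        exact ⟨1, Or.inl rfl, by rw [h3, h4, mul_comm, hμ i, one_mul]⟩
  choose κ hκ1 hκ2 using hκ
  obtain ⟨bI, hbI⟩ : ∃ bI : Basis I F (Fin n → F), ∀ i, bI i = ν i • b i := by
    refine ⟨(Basis.mk hli (by rw [hspan])).unitsSMul (fun i => Units.mk0 (ν i) (hν0 i)), ?_⟩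
    intro i
    rw [Basis.unitsSMul_apply, Basis.mk_apply]
    rfl
  have hact : ∀ i, Matrix.toLin' y (bI i) = κ i • bI (π i) := by
    intro i
    rw [hbI, hbI, map_smul, hxb, smul_smul, smul_smul, hκ2]
  obtain ⟨σ⟩ : Nonempty (I ≃ Fin n) := ⟨Fintype.equivFinOfCardEq hcard⟩
  obtain ⟨Qe, hQe⟩ : ∃ Qe : (Fin n → F) ≃ₗ[F] (Fin n → F), ∀ i, Qe (bI i) = Pi.single (σ i) 1 := by
    refine ⟨bI.equiv (Pi.basisFun F (Fin n)) σ, fun i => ?_⟩
    rw [Basis.equiv_apply, Pi.basisFun_apply]
  obtain ⟨M, hM⟩ : ∃ M : Matrix (Fin n) (Fin n) F,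
      M = Matrix.of (fun j' j => if j' = σ (π (σ.symm j)) then κ (σ.symm j) else 0) := ⟨_, rfl⟩
  obtain ⟨Q, hQ1, hQ2⟩ : ∃ Q : GL (Fin n) F,
      (∀ u, (Q : Matrix (Fin n) (Fin n) F).mulVec u = Qe u) ∧
      (∀ u, ((Q⁻¹ : GL (Fin n) F) : Matrix (Fin n) (Fin n) F).mulVec u = Qe.symm u) := by
    refine ⟨⟨LinearMap.toMatrix' (Qe : (Fin n → F) →ₗ[F] (Fin n → F)),
      LinearMap.toMatrix' (Qe.symm : (Fin n → F) →ₗ[F] (Fin n → F)), ?_, ?_⟩, ?_, ?_⟩
    · rw [← LinearMap.toMatrix'_comp]
      simp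
    · rw [← LinearMap.toMatrix'_comp]
      simp
    · intro u
      show (LinearMap.toMatrix' (Qe : (Fin n → F) →ₗ[F] (Fin n → F))).mulVec u = Qe u
      rw [← Matrix.toLin'_apply, Matrix.toLin'_toMatrix']
      rfl
    · intro u
      show (LinearMap.toMatrix' (Qe.symm : (Fin n → F) →ₗ[F] (Fin n → F))).mulVec u = Qe.symm u
      rw [← Matrix.toLin'_apply, Matrix.toLin'_toMatrix']
      rfl
  have hcomm : (Q : Matrix (Fin n) (Fin n) F) * y = M * (Q : Matrix (Fin n) (Fin n) F) := by
    apply Matrix.toLin'.injective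
    apply bI.ext
    intro i
    rw [Matrix.toLin'_mul, Matrix.toLin'_mul, LinearMap.comp_apply, LinearMap.comp_apply, hact,
      Matrix.toLin'_apply, Matrix.toLin'_apply _ (bI i), hQ1, hQ1, map_smul, hQe, hQe,
      Matrix.toLin'_apply, Matrix.mulVec_single_one]
    funext j'
    rw [hM]
    simp only [Matrix.col_apply, Matrix.of_apply, Equiv.symm_apply_apply, Pi.smul_apply,
      Pi.single_apply, smul_eq_mul, mul_ite, mul_one, mul_zero]
  have hκsym : ∀ i, κ (π i) = κ i := by
    intro i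
    have e1 := hκ2 i
    have e2 := hκ2 (π i)
    rw [hπ] at e2
    have e3 : κ i * κ (π i) = 1 := by
      have e4 : (ν i * ν (π i)) * (κ i * κ (π i)) = (ν i * ν (π i)) * 1 := by
        calc (ν i * ν (π i)) * (κ i * κ (π i)) = (κ i * ν (π i)) * (κ (π i) * ν i) := by ring
          _ = (ν i * μ i) * (ν (π i) * μ (π i)) := by rw [← e1, ← e2]
          _ = (ν i * ν (π i)) * (μ i * μ (π i)) := by ring
          _ = (ν i * ν (π i)) * 1 := by rw [hμ i]
      exact mul_left_cancel₀ (mul_ne_zero (hν0 i) (hν0 (π i))) e4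
    rcases hκ1 i with h | h
    · rw [h, one_mul] at e3
      rw [e3, h]
    · rw [h] at e3
      rw [h]
      linear_combination -e3
  have hsymm : M.transpose = M := by
    ext j' j
    rw [Matrix.transpose_apply, hM]
    simp only [Matrix.of_apply]
    by_cases h : j' = σ (π (σ.symm j))
    · have h' : j = σ (π (σ.symm j')) := by
        rw [h, Equiv.symm_apply_apply, hπ, Equiv.apply_symm_apply]
      rw [if_pos h, if_pos h']
      have h'' : σ.symm j' = π (σ.symm j) := by rw [h, Equiv.symm_apply_apply]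
      rw [h'', hκsym]
    · have h' : ¬ j = σ (π (σ.symm j')) := by
        intro h''
        apply h
        rw [h'', Equiv.symm_apply_apply, hπ, Equiv.apply_symm_apply]
      rw [if_neg h, if_neg h']
  refine ⟨Q, M, ?_, ?_, hcomm, hsymm⟩
  · intro j' j
    rw [hM]
    simp only [Matrix.of_apply]
    split_ifs
    · rcases hκ1 (σ.symm j) with h | h
      · exact Or.inr (Or.inl h)
      · exact Or.inr (Or.inr h)
    · exact Or.inl rfl
  · have h1 : M = (Q : Matrix (Fin n) (Fin n) F) * y *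
        ((Q⁻¹ : GL (Fin n) F) : Matrix (Fin n) (Fin n) F) := by
      rw [hcomm, Matrix.mul_assoc, ← Units.val_mul, mul_inv_cancel, Units.val_one, Matrix.mul_one]
    rw [h1]
    calc (Q : Matrix (Fin n) (Fin n) F) * y * ((Q⁻¹ : GL (Fin n) F) : Matrix (Fin n) (Fin n) F) *
          ((Q : Matrix (Fin n) (Fin n) F) * y *
            ((Q⁻¹ : GL (Fin n) F) : Matrix (Fin n) (Fin n) F))
        = (Q : Matrix (Fin n) (Fin n) F) * y *
            (((Q⁻¹ : GL (Fin n) F) : Matrix (Fin n) (Fin n) F) *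
              (Q : Matrix (Fin n) (Fin n) F)) * y *
            ((Q⁻¹ : GL (Fin n) F) : Matrix (Fin n) (Fin n) F) := by
          simp only [Matrix.mul_assoc]
      _ = 1 := by
          rw [← Units.val_mul, inv_mul_cancel, Units.val_one, Matrix.mul_one, Matrix.mul_assoc
            (Q : Matrix (Fin n) (Fin n) F), hyy, Matrix.mul_one, ← Units.val_mul, mul_inv_cancel,
            Units.val_one]

end

theorem main : Cfsg.Agent.Lib.Helper41.UnitStmt.InvSym.{u} := by
  intro F _ n y hyy
  obtain ⟨Q, M, hM, hMM, hcomm, hsymm⟩ := exists_signed_perm_symm y hyy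
  exact ⟨(Q : Matrix (Fin n) (Fin n) F), M, (Matrix.isUnit_iff_isUnit_det _).mp Q.isUnit, hcomm,
    hMM, hsymm, hM⟩

end Cfsg.Agent.Lib.Helper95.UnitINVSYM

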