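import Mathlib
import Cfsg.Agent.Lib.Helper95.FpfA

set_option autoImplicit false

namespace Cfsg.Agent.Lib.Helper95.ZPres

open Cfsg.Agent.Lib.Helper95.FpfA

/-- Products of conjugates `∏_{t<i} a^t b a^{-t}`. -/
def Dc {G : Type*} [Group G] (a b : G) : ℕ → G
  | 0 => 1
  | (i + 1) => Dc a b i * (a ^ i * b * (a ^ i)⁻¹)

theorem conj_mem_zpowers {G : Type*} [Group G] (a b : G) (hab : a * b * a⁻¹ ∈ Subgroup.zpowers b)
    (w : G) (hw : w ∈ Subgroup.zpowers b) : a * w * a⁻¹ ∈ Subgroup.zpowers b := by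
  obtain ⟨k, rfl⟩ := hw
  have : a * b ^ k * a⁻¹ = (a * b * a⁻¹) ^ k := by
    rw [conj_zpow]
  rw [this]
  exact Subgroup.zpow_mem _ hab k

theorem conj_pow_mem_zpowers {G : Type*} [Group G] (a b : G)
    (hab : a * b * a⁻¹ ∈ Subgroup.zpowers b) (t : ℕ)
    (w : G) (hw : w ∈ Subgroup.zpowers b) : a ^ t * w * (a ^ t)⁻¹ ∈ Subgroup.zpowers b := by
  induction t with
  | zero => simpa using hw
  | succ t ih =>
    have := conj_mem_zpowers a b hab _ ih
    have e : a ^ (t + 1) * w * (a ^ (t + 1))⁻¹ = a * (a ^ t * w * (a ^ t)⁻¹) * a⁻¹ := by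
      rw [pow_succ']
      group
    rw [e]
    exact this

theorem Dc_mem {G : Type*} [Group G] (a b : G) (hab : a * b * a⁻¹ ∈ Subgroup.zpowers b) (i : ℕ) :
    Dc a b i ∈ Subgroup.zpowers b := by
  induction i with
  | zero => exact Subgroup.one_mem _
  | succ i ih =>
    exact Subgroup.mul_mem _ ih (conj_pow_mem_zpowers a b hab i b (Subgroup.mem_zpowers b))

theorem commute_of_mem_zpowers {G : Type*} [Group G] (b : G) {u v : G}
    (hu : u ∈ Subgroup.zpowers b) (hv : v ∈ Subgroup.zpowers b) : Commute u v := by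
  obtain ⟨k, rfl⟩ := hu
  obtain ⟨l, rfl⟩ := hv
  exact Commute.zpow_zpow_self b k l

theorem pow_mul_pow_eq {G : Type*} [Group G] (a b : G) (hab : a * b * a⁻¹ ∈ Subgroup.zpowers b)
    (j i : ℕ) : (b ^ j * a) ^ i = Dc a b i ^ j * a ^ i := by
  induction i with
  | zero => simp [Dc]
  | succ i ih =>
    have hc : Commute (Dc a b i) (a ^ i * b * (a ^ i)⁻¹) :=
      commute_of_mem_zpowers b (Dc_mem a b hab i)
        (conj_pow_mem_zpowers a b hab i b (Subgroup.mem_zpowers b))
    have e : (a ^ i * b * (a ^ i)⁻¹) ^ j = a ^ i * b ^ j * (a ^ i)⁻¹ := by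
      rw [conj_pow]
    rw [pow_succ, ih]
    change _ = (Dc a b i * (a ^ i * b * (a ^ i)⁻¹)) ^ j * a ^ (i + 1)
    rw [hc.mul_pow, e, pow_succ]
    group

/-- In a group with a norm-zero rational representation (e.g. a Frobenius complement), an
element of prime order normalizing a subgroup of prime order centralizes it. -/
theorem commute_of_nz {G : Type*} [Group G] {m : ℕ} (hm : 0 < m)
    (ρ : G →* Matrix (Fin m) (Fin m) ℚ) (hρ : NZ ρ)
    (a b : G) (p q : ℕ) (hp : p.Prime) (hq : q.Prime) (ha : orderOf a = p) (hb : orderOf b = q)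
    (hab : a * b * a⁻¹ ∈ Subgroup.zpowers b) : a * b = b * a := by
  by_contra hne
  have : Fact p.Prime := ⟨hp⟩
  have : Fact q.Prime := ⟨hq⟩
  have hbq : b ^ q = 1 := by rw [← hb, pow_orderOf_eq_one]
  have hap : a ^ p = 1 := by rw [← ha, pow_orderOf_eq_one]
  -- non-identity elements of `zpowers b` have order `q` and generate
  have hZ : ∀ w ∈ Subgroup.zpowers b, w ≠ 1 → orderOf w = q ∧ b ∈ Subgroup.zpowers w := by
    intro w hw hw1
    have hwq : w ^ q = 1 := by
      obtain ⟨k, rfl⟩ := hw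
      rw [← zpow_natCast, ← zpow_mul, mul_comm, zpow_mul, zpow_natCast, hbq, one_zpow]
    have ho : orderOf w = q := orderOf_eq_prime hwq hw1
    refine ⟨ho, ?_⟩
    have hle : Subgroup.zpowers w ≤ Subgroup.zpowers b := by
      rw [Subgroup.zpowers_le]
      exact hw
    have hfin : Finite (Subgroup.zpowers b) :=
      (IsOfFinOrder.finite_zpowers (isOfFinOrder_iff_pow_eq_one.mpr ⟨q, hq.pos, hbq⟩)).to_subtype
    have hcard : Nat.card (Subgroup.zpowers w) = Nat.card (Subgroup.zpowers b) := by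
      rw [Nat.card_zpowers, Nat.card_zpowers, ho, hb]
    have heq : Subgroup.zpowers w = Subgroup.zpowers b :=
      Subgroup.eq_of_le_of_card_ge hle hcard.ge
    rw [heq]
    exact Subgroup.mem_zpowers b
  have hF2 : ∀ w ∈ Subgroup.zpowers b, Commute a w → w = 1 := by
    intro w hw hc
    by_contra hw1
    obtain ⟨-, k, hk⟩ := hZ w hw hw1
    apply hne
    rw [← hk]
    exact (hc.zpow_right k).eq
  -- order of `b^j a`
  have hA : ∀ j : ℕ, orderOf (b ^ j * a) = p := by
    intro j
    apply orderOf_eq_prime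
    · have h1 : (b ^ j * a) ^ p ∈ Subgroup.zpowers b := by
        rw [pow_mul_pow_eq a b hab, hap, mul_one]
        exact Subgroup.pow_mem _ (Dc_mem a b hab p) j
      have h2 : Commute (b ^ j * a) ((b ^ j * a) ^ p) := Commute.pow_right (Commute.refl _) p
      have h3 : Commute (b ^ j) ((b ^ j * a) ^ p) :=
        commute_of_mem_zpowers b (Subgroup.pow_mem _ (Subgroup.mem_zpowers b) j) h1
      have h4 : Commute a ((b ^ j * a) ^ p) := by
        have e : a = (b ^ j)⁻¹ * (b ^ j * a) := by group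
        have h5 : Commute ((b ^ j)⁻¹ * (b ^ j * a)) ((b ^ j * a) ^ p) :=
          Commute.mul_left h3.inv_left h2
        rw [← e] at h5
        exact h5
      exact hF2 _ h1 h4
    · intro h
      have e : a = (b ^ j)⁻¹ := eq_inv_of_mul_eq_one_right h
      apply hne
      rw [e]
      exact ((Commute.refl b).pow_left j).inv_left.eq
  -- `D_i ≠ 1` for `0 < i < p`
  have hD : ∀ i : ℕ, 0 < i → i < p → Dc a b i ≠ 1 := by
    intro i hi0 hip h
    have h1 := pow_mul_pow_eq a b hab 1 i
    rw [h, one_pow, one_mul, pow_one] at h1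
    have hai : a ^ i ≠ 1 := by
      intro h2
      have := orderOf_dvd_of_pow_eq_one h2
      rw [ha] at this
      have := Nat.le_of_dvd hi0 this
      omega
    have hoi : orderOf (a ^ i) = p := orderOf_eq_prime (by rw [← pow_mul, mul_comm, pow_mul, hap, one_pow]) hai
    have hle : Subgroup.zpowers (a ^ i) ≤ Subgroup.zpowers a := by
      rw [Subgroup.zpowers_le]
      exact Subgroup.pow_mem _ (Subgroup.mem_zpowers a) i
    have hfin : Finite (Subgroup.zpowers a) :=
      (IsOfFinOrder.finite_zpowers (isOfFinOrder_iff_pow_eq_one.mpr ⟨p, hp.pos, hap⟩)).to_subtype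
    have hcard : Nat.card (Subgroup.zpowers (a ^ i)) = Nat.card (Subgroup.zpowers a) := by
      rw [Nat.card_zpowers, Nat.card_zpowers, hoi, ha]
    have heq : Subgroup.zpowers (a ^ i) = Subgroup.zpowers a :=
      Subgroup.eq_of_le_of_card_ge hle hcard.ge
    have hmem : a ∈ Subgroup.zpowers (a ^ i) := by
      rw [heq]
      exact Subgroup.mem_zpowers a
    obtain ⟨k, hk⟩ := hmem
    have hk' : (a ^ i) ^ k = a := hk
    have h3 : Commute (b * a) a := by
      have h6 : Commute (b * a) (((b * a) ^ i) ^ k) :=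
        ((Commute.refl (b * a)).pow_right i).zpow_right k
      rw [h1, hk'] at h6
      exact h6
    apply hne
    have h4 : b * a * a = a * (b * a) := h3.eq
    have h5 : b * a = a * b := by
      have := congrArg (fun g => g * a⁻¹) h4
      simpa [mul_assoc] using this
    exact h5.symm
  -- the sum
  have hsum : ∑ j ∈ Finset.range q, ∑ i ∈ Finset.range p, ρ (b ^ j * a) ^ i = 0 := by
    apply Finset.sum_eq_zero
    intro j _
    have h1 := hρ (b ^ j * a) (by
      intro h
      have := hA j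
      rw [h, orderOf_one] at this
      exact hp.one_lt.ne this)
    rw [hA j] at h1
    exact h1
  rw [Finset.sum_comm] at hsum
  have hterm : ∀ i : ℕ, ∑ j ∈ Finset.range q, ρ (b ^ j * a) ^ i =
      (∑ j ∈ Finset.range q, ρ (Dc a b i) ^ j) * ρ a ^ i := by
    intro i
    rw [Finset.sum_mul]
    refine Finset.sum_congr rfl fun j _ => ?_
    rw [← map_pow, pow_mul_pow_eq a b hab, map_mul, map_pow, map_pow]
  rw [Finset.sum_congr rfl (fun i _ => hterm i)] at hsum
  obtain ⟨p', rfl⟩ : ∃ p', p = p' + 1 := ⟨p - 1, by have := hp.pos; omega⟩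
  rw [Finset.sum_range_succ'] at hsum
  have hzero : ∀ i ∈ Finset.range p', (∑ j ∈ Finset.range q, ρ (Dc a b (i + 1)) ^ j) * ρ a ^ (i + 1) = 0 := by
    intro i hi
    rw [Finset.mem_range] at hi
    have hne1 := hD (i + 1) (Nat.succ_pos i) (by omega)
    have ho := (hZ _ (Dc_mem a b hab (i + 1)) hne1).1
    have h1 := hρ _ hne1
    rw [ho] at h1
    rw [h1, zero_mul]
  rw [Finset.sum_eq_zero hzero, zero_add] at hsum
  simp only [Dc, map_one, one_pow, pow_zero, mul_one, Finset.sum_const, Finset.card_range] at hsum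
  have h2 := congrFun (congrFun hsum ⟨0, hm⟩) ⟨0, hm⟩
  rw [Matrix.smul_apply, Matrix.one_apply_eq, Matrix.zero_apply, nsmul_eq_mul, mul_one] at h2
  have : (q : ℚ) ≠ 0 := by exact_mod_cast hq.ne_zero
  exact this h2


/-- An element `a` with `a ^ p = 1` normalizing a cyclic group `⟨y⟩` of order prime to `p` and
centralizing all its elements of prime order centralizes it. -/
theorem commute_of_commute_primes {G : Type*} [Group G] (a : G) (p : ℕ) (hap : a ^ p = 1) :
    ∀ (M : ℕ) (y : G), orderOf y = M → 0 < M → Nat.Coprime p M →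
      a * y * a⁻¹ ∈ Subgroup.zpowers y →
      (∀ w ∈ Subgroup.zpowers y, (orderOf w).Prime → Commute a w) → Commute a y := by
  intro M
  induction M using Nat.strong_induction_on with
  | _ M ih =>
    intro y hy hM hcop hay hw
    by_cases hM1 : M = 1
    · have : y = 1 := by rw [← orderOf_eq_one_iff, hy, hM1]
      rw [this]; exact Commute.one_right a
    have hqp : (M.minFac).Prime := Nat.minFac_prime hM1
    have hqd : M.minFac ∣ M := Nat.minFac_dvd M
    generalize M.minFac = q at hqp hqd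
    have : Fact q.Prime := ⟨hqp⟩
    have hyq : orderOf (y ^ q) = M / q := by
      rw [orderOf_pow' y hqp.ne_zero, hy, Nat.gcd_eq_right hqd]
    have h1 : Commute a (y ^ q) := by
      apply ih (M / q) (Nat.div_lt_self hM hqp.one_lt) (y ^ q) hyq
        (Nat.div_pos (Nat.le_of_dvd hM hqd) hqp.pos)
        (hcop.coprime_dvd_right (Nat.div_dvd_of_dvd hqd))
      · obtain ⟨k, hk⟩ := hay
        refine ⟨k, ?_⟩
        change (y ^ q) ^ k = a * y ^ q * a⁻¹
        have hk' : y ^ k = a * y * a⁻¹ := hk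
        rw [← conj_pow, ← hk', ← zpow_natCast, ← zpow_natCast, ← zpow_mul, ← zpow_mul, mul_comm]
      · intro w hw' hwp
        exact hw w ((Subgroup.zpowers_le.2
          (Subgroup.pow_mem _ (Subgroup.mem_zpowers y) q)) hw') hwp
    have hey : a * y * a⁻¹ * y⁻¹ ∈ Subgroup.zpowers y :=
      Subgroup.mul_mem _ hay (Subgroup.inv_mem _ (Subgroup.mem_zpowers y))
    have heq : (a * y * a⁻¹ * y⁻¹) ^ q = 1 := by
      have hc : Commute (a * y * a⁻¹) y⁻¹ :=
        commute_of_mem_zpowers y hay (Subgroup.inv_mem _ (Subgroup.mem_zpowers y))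
      rw [hc.mul_pow, conj_pow, inv_pow, h1.eq]
      group
    have he3 : a * y * a⁻¹ = (a * y * a⁻¹ * y⁻¹) * y := by group
    generalize a * y * a⁻¹ * y⁻¹ = e at hey heq he3
    by_cases he1 : e = 1
    · rw [he1, one_mul] at he3
      have : a * y = y * a := by
        have := congrArg (fun g => g * a) he3
        simpa using this
      exact this
    · have heo : orderOf e = q := orderOf_eq_prime heq he1
      have hae : Commute a e := hw e hey (heo ▸ hqp)
      have hi : ∀ i : ℕ, a ^ i * y * (a ^ i)⁻¹ = e ^ i * y := by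
        intro i
        induction i with
        | zero => simp
        | succ i ihi =>
          have e1 : a ^ (i + 1) * y * (a ^ (i + 1))⁻¹ = a * (a ^ i * y * (a ^ i)⁻¹) * a⁻¹ := by
            rw [pow_succ']; group
          have h2 : a * e ^ i = e ^ i * a := (hae.pow_right i).eq
          rw [e1, ihi]
          calc a * (e ^ i * y) * a⁻¹ = (a * e ^ i) * y * a⁻¹ := by group
            _ = e ^ i * (a * y * a⁻¹) := by rw [h2]; group
            _ = e ^ (i + 1) * y := by rw [he3, pow_succ]; group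
      have hp' := hi p
      rw [hap] at hp'
      have hep : e ^ p = 1 := by
        have := congrArg (fun g => g * y⁻¹) hp'
        simpa using this.symm
      have hd : orderOf e ∣ p := orderOf_dvd_of_pow_eq_one hep
      rw [heo] at hd
      exact absurd (Nat.eq_one_of_dvd_coprimes hcop hd hqd) hqp.ne_one

/-- Iterated conjugation relation. -/
theorem conj_pow_rel {G : Type*} [Group G] (x y : G) (r : ℕ) (h : x⁻¹ * y * x = y ^ r) (i : ℕ) :
    (x ^ i)⁻¹ * y * x ^ i = y ^ (r ^ i) := by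
  induction i with
  | zero => simp
  | succ i ih =>
    have e1 : (x ^ (i + 1))⁻¹ * y * x ^ (i + 1) = x⁻¹ * ((x ^ i)⁻¹ * y * x ^ i) * x := by
      rw [pow_succ]; group
    have e2 : x⁻¹ * y ^ (r ^ i) * x = (x⁻¹ * y * x) ^ (r ^ i) := by
      have := conj_pow (a := x⁻¹) (b := y) (i := r ^ i)
      rw [inv_inv] at this
      exact this.symm
    rw [e1, ih, e2, h, ← pow_mul, pow_succ, mul_comm]

theorem pow_mul_pow_comm {G : Type*} [Group G] (x y : G) (r : ℕ) (h : x⁻¹ * y * x = y ^ r)
    (j i : ℕ) : y ^ j * x ^ i = x ^ i * y ^ (j * r ^ i) := by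
  have h1 := conj_pow_rel x y r h i
  have e2 : (x ^ i)⁻¹ * y ^ j * x ^ i = ((x ^ i)⁻¹ * y * x ^ i) ^ j := by
    have := conj_pow (a := (x ^ i)⁻¹) (b := y) (i := j)
    rw [inv_inv] at this
    exact this.symm
  rw [h1, ← pow_mul, mul_comm] at e2
  rw [← e2]
  group

/-- Number theory: `u^n = 1` and `u^(n/p) = 1` for all primes `p ∣ n` give `u^(n / rad n) = 1`. -/
theorem pow_div_rad_eq_one {M : Type*} [Monoid M] (u : M) (n : ℕ) (hn0 : 0 < n) (hn : u ^ n = 1)
    (hp : ∀ p : ℕ, p.Prime → p ∣ n → u ^ (n / p) = 1) :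
    u ^ (n / ∏ p ∈ n.primeFactors, p) = 1 := by
  have hd : orderOf u ∣ n := orderOf_dvd_of_pow_eq_one hn
  obtain ⟨c, hc⟩ := hd
  have hd0 : 0 < orderOf u := by
    rcases Nat.eq_zero_or_pos (orderOf u) with h | h
    · rw [h, zero_mul] at hc; omega
    · exact h
  have hrad : (∏ p ∈ n.primeFactors, p) ∣ c := by
    apply Finset.prod_primes_dvd
    · intro p hp'
      exact (Nat.prime_of_mem_primeFactors hp').prime
    · intro p hp'
      have hpp := Nat.prime_of_mem_primeFactors hp'
      have hpn := Nat.dvd_of_mem_primeFactors hp'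
      have h1 : orderOf u ∣ n / p := orderOf_dvd_of_pow_eq_one (hp p hpp hpn)
      obtain ⟨t, ht⟩ := h1
      have h2 : n = p * (n / p) := (Nat.mul_div_cancel' hpn).symm
      have h3 : orderOf u * c = orderOf u * (p * t) := by
        rw [← hc]
        conv_lhs => rw [h2, ht]
        ring
      exact ⟨t, Nat.eq_of_mul_eq_mul_left hd0 h3⟩
  have hradpos : 0 < ∏ p ∈ n.primeFactors, p :=
    Finset.prod_pos fun p hp' => (Nat.prime_of_mem_primeFactors hp').pos
  generalize (∏ p ∈ n.primeFactors, p) = R at hrad hradpos ⊢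
  obtain ⟨c', hc'⟩ := hrad
  have h4 : n / R = orderOf u * c' := by
    rw [hc, hc', show orderOf u * (R * c') = (orderOf u * c') * R by ring]
    exact Nat.mul_div_cancel _ hradpos
  rw [h4, pow_mul, pow_orderOf_eq_one, one_pow]


/-- Normal form in a group generated by `a, b` with `a^n = 1`, `b^m = 1`, `a⁻¹ b a = b^r`. -/
theorem card_le_of_gens {P : Type*} [Group P] (a b : P) (n m r : ℕ) (hn : 0 < n) (hm : 0 < m)
    (ha : a ^ n = 1) (hb : b ^ m = 1) (hab : a⁻¹ * b * a = b ^ r)
    (hgen : Subgroup.closure {a, b} = ⊤) : Finite P ∧ Nat.card P ≤ n * m := by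
  let S : Subgroup P :=
    { carrier := {g | ∃ i j : ℕ, g = a ^ i * b ^ j}
      one_mem' := ⟨0, 0, by simp⟩
      mul_mem' := by
        rintro _ _ ⟨i, j, rfl⟩ ⟨i', j', rfl⟩
        refine ⟨i + i', j * r ^ i' + j', ?_⟩
        have := pow_mul_pow_comm a b r hab j i'
        calc a ^ i * b ^ j * (a ^ i' * b ^ j') = a ^ i * (b ^ j * a ^ i') * b ^ j' := by group
          _ = a ^ i * (a ^ i' * b ^ (j * r ^ i')) * b ^ j' := by rw [this]
          _ = a ^ (i + i') * b ^ (j * r ^ i' + j') := by rw [pow_add, pow_add]; group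
      inv_mem' := by
        rintro _ ⟨i, j, rfl⟩
        have hainv : a⁻¹ = a ^ (n - 1) := by
          apply inv_eq_of_mul_eq_one_left
          rw [← pow_succ, Nat.sub_add_cancel hn, ha]
        have hbinv : b⁻¹ = b ^ (m - 1) := by
          apply inv_eq_of_mul_eq_one_left
          rw [← pow_succ, Nat.sub_add_cancel hm, hb]
        refine ⟨i * (n - 1), j * (m - 1) * r ^ (i * (n - 1)), ?_⟩
        have := pow_mul_pow_comm a b r hab (j * (m - 1)) (i * (n - 1))
        rw [← this, mul_inv_rev, ← inv_pow, ← inv_pow, hainv, hbinv, ← pow_mul, ← pow_mul,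
          mul_comm (m - 1), mul_comm (n - 1)] }
  have hS : S = ⊤ := by
    rw [eq_top_iff, ← hgen, Subgroup.closure_le]
    rintro g (rfl | rfl)
    · exact ⟨1, 0, by simp⟩
    · exact ⟨0, 1, by simp⟩
  have hsurj : Function.Surjective
      (fun ij : Fin n × Fin m => a ^ (ij.1 : ℕ) * b ^ (ij.2 : ℕ)) := by
    intro g
    have hg : g ∈ S := hS ▸ Subgroup.mem_top g
    obtain ⟨i, j, rfl⟩ := hg
    refine ⟨(⟨i % n, Nat.mod_lt _ hn⟩, ⟨j % m, Nat.mod_lt _ hm⟩), ?_⟩
    simp only
    rw [← pow_eq_pow_mod i ha, ← pow_eq_pow_mod j hb]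
  have hfin : Finite P := Finite.of_surjective _ hsurj
  refine ⟨hfin, ?_⟩
  have := Nat.card_le_card_of_surjective _ hsurj
  simpa [Nat.card_prod] using this

/-- A finite group of order `≥ n m` generated by `x, y` with `x^n = 1`, `y^m = 1`,
`x⁻¹ y x = y^r` has the presentation `⟨x, y | x^n, y^m, x⁻¹ y x = y^r⟩`. -/
theorem presentation_of_gens {G : Type*} [Group G] [Finite G] (x y : G) (n m r : ℕ)
    (hn : 0 < n) (hm : 0 < m) (hx : x ^ n = 1) (hy : y ^ m = 1) (hxy : x⁻¹ * y * x = y ^ r)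
    (hgen : ∀ g : G, ∃ i j : ℤ, g = x ^ i * y ^ j)
    (hcard : n * m ≤ Nat.card G) :
    Nonempty (G ≃* PresentedGroup
          ({FreeGroup.of (0 : Fin 2) ^ n, FreeGroup.of (1 : Fin 2) ^ m,
            (FreeGroup.of (0 : Fin 2))⁻¹ * FreeGroup.of 1 * FreeGroup.of 0 *
              (FreeGroup.of (1 : Fin 2) ^ r)⁻¹} : Set (FreeGroup (Fin 2)))) := by
  generalize hrels : ({FreeGroup.of (0 : Fin 2) ^ n, FreeGroup.of (1 : Fin 2) ^ m,
            (FreeGroup.of (0 : Fin 2))⁻¹ * FreeGroup.of 1 * FreeGroup.of 0 *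
              (FreeGroup.of (1 : Fin 2) ^ r)⁻¹} : Set (FreeGroup (Fin 2))) = rels
  have hf : ∀ w ∈ rels, FreeGroup.lift ![x, y] w = 1 := by
    intro w hw
    rw [← hrels] at hw
    rcases hw with rfl | rfl | rfl
    · simp [hx]
    · simp [hy]
    · simp [hxy]
  have ha : (PresentedGroup.of 0 : PresentedGroup rels) ^ n = 1 := by
    have : (PresentedGroup.mk rels (FreeGroup.of 0 ^ n)) = 1 :=
      PresentedGroup.one_of_mem (by rw [← hrels]; simp)
    rw [map_pow] at this
    exact this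
  have hb : (PresentedGroup.of 1 : PresentedGroup rels) ^ m = 1 := by
    have : (PresentedGroup.mk rels (FreeGroup.of 1 ^ m)) = 1 :=
      PresentedGroup.one_of_mem (by rw [← hrels]; simp)
    rw [map_pow] at this
    exact this
  have hab : (PresentedGroup.of 0 : PresentedGroup rels)⁻¹ * PresentedGroup.of 1 *
      PresentedGroup.of 0 = PresentedGroup.of 1 ^ r := by
    have : (PresentedGroup.mk rels ((FreeGroup.of (0 : Fin 2))⁻¹ * FreeGroup.of 1 *
        FreeGroup.of 0 * (FreeGroup.of (1 : Fin 2) ^ r)⁻¹)) = 1 :=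
      PresentedGroup.one_of_mem (by rw [← hrels]; simp)
    rw [map_mul, map_inv, mul_inv_eq_one, map_mul, map_mul, map_inv, map_pow] at this
    exact this
  have hgenP : Subgroup.closure
      {(PresentedGroup.of 0 : PresentedGroup rels), PresentedGroup.of 1} = ⊤ := by
    rw [← PresentedGroup.closure_range_of rels]
    congr 1
    ext g
    simp only [Set.mem_insert_iff, Set.mem_singleton_iff, Set.mem_range]
    constructor
    · rintro (rfl | rfl)
      · exact ⟨0, rfl⟩
      · exact ⟨1, rfl⟩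
    · rintro ⟨i, rfl⟩
      fin_cases i
      · left; rfl
      · right; rfl
  obtain ⟨hfin, hcardP⟩ := card_le_of_gens _ _ n m r hn hm ha hb hab hgenP
  have hsurj : Function.Surjective (PresentedGroup.toGroup hf) := by
    intro g
    obtain ⟨i, j, rfl⟩ := hgen g
    refine ⟨PresentedGroup.of 0 ^ i * PresentedGroup.of 1 ^ j, ?_⟩
    rw [map_mul, map_zpow, map_zpow, PresentedGroup.toGroup.of, PresentedGroup.toGroup.of]
    simp
  have hbij : Function.Bijective (PresentedGroup.toGroup hf) :=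
    hsurj.bijective_of_nat_card_le (hcardP.trans hcard)
  exact ⟨(MulEquiv.ofBijective (PresentedGroup.toGroup hf) hbij).symm⟩


/-- `gcd (r - 1, m) = 1` when `y` (of order `m`) lies in the commutator subgroup. -/
theorem coprime_of_commutator {G : Type*} [Group G] (x y : G) (r : ℕ)
    (hxy : x⁻¹ * y * x = y ^ r) (hr : 1 ≤ r)
    (hgen : ∀ g : G, ∃ i j : ℤ, g = x ^ i * y ^ j)
    (hnorm : ∀ g : G, g * y * g⁻¹ ∈ Subgroup.zpowers y)
    (hy : y ∈ commutator G) : Nat.Coprime (r - 1) (orderOf y) := by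
  have hKn : (Subgroup.zpowers (y ^ (r - 1))).Normal := by
    constructor
    intro w hw g
    obtain ⟨l, rfl⟩ := hw
    obtain ⟨k, hk⟩ := hnorm g
    have hk' : y ^ k = g * y * g⁻¹ := hk
    have e : g * (y ^ (r - 1)) ^ l * g⁻¹ = ((y ^ (r - 1)) ^ k) ^ l := by
      rw [← conj_zpow, ← conj_pow, ← hk']
      congr 1
      rw [← zpow_natCast, ← zpow_natCast, ← zpow_mul, ← zpow_mul, mul_comm]
    change g * (y ^ (r - 1)) ^ l * g⁻¹ ∈ _
    rw [e]
    exact Subgroup.zpow_mem _ (Subgroup.zpow_mem _ (Subgroup.mem_zpowers _) k) l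
  have hπ : Commute (QuotientGroup.mk' (Subgroup.zpowers (y ^ (r - 1))) x)
      (QuotientGroup.mk' (Subgroup.zpowers (y ^ (r - 1))) y) := by
    have h1 : QuotientGroup.mk' (Subgroup.zpowers (y ^ (r - 1))) (x⁻¹ * y * x) =
        QuotientGroup.mk' (Subgroup.zpowers (y ^ (r - 1))) y := by
      rw [hxy]
      have e1 : y ^ r = y * y ^ (r - 1) := by rw [← pow_succ', Nat.sub_add_cancel hr]
      have e2 : QuotientGroup.mk' (Subgroup.zpowers (y ^ (r - 1))) (y ^ (r - 1)) = 1 :=
        (QuotientGroup.eq_one_iff _).2 (Subgroup.mem_zpowers _)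
      rw [e1, map_mul, e2, mul_one]
    rw [map_mul, map_mul, map_inv] at h1
    have h2 := congrArg (fun g => QuotientGroup.mk' (Subgroup.zpowers (y ^ (r - 1))) x * g) h1
    simp only [mul_assoc, mul_inv_cancel_left] at h2
    exact h2.symm
  have hker : ∀ g : G, QuotientGroup.mk' (Subgroup.zpowers (y ^ (r - 1))) g = 1 →
      g ∈ Subgroup.zpowers (y ^ (r - 1)) := fun g hg => (QuotientGroup.eq_one_iff _).1 hg
  generalize QuotientGroup.mk' (Subgroup.zpowers (y ^ (r - 1))) = π at hπ hker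
  have hall : ∀ g h : G, Commute (π g) (π h) := by
    intro g h
    obtain ⟨i, j, rfl⟩ := hgen g
    obtain ⟨i', j', rfl⟩ := hgen h
    simp only [map_mul, map_zpow]
    have h1 : Commute (π x ^ i) (π x ^ i') := (Commute.refl _).zpow_zpow i i'
    have h2 : Commute (π x ^ i) (π y ^ j') := hπ.zpow_zpow i j'
    have h3 : Commute (π y ^ j) (π x ^ i') := hπ.symm.zpow_zpow j i'
    have h4 : Commute (π y ^ j) (π y ^ j') := (Commute.refl _).zpow_zpow j j'
    exact (h1.mul_right h2).mul_left (h3.mul_right h4)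
  have hle : commutator G ≤ Subgroup.zpowers (y ^ (r - 1)) := by
    rw [commutator_def, Subgroup.commutator_le]
    intro g _ h _
    apply hker
    rw [commutatorElement_def, map_mul, map_mul, map_mul, map_inv, map_inv, (hall g h).eq]
    group
  obtain ⟨l, hl⟩ := hle hy
  have hl' : (y ^ (r - 1)) ^ l = y := hl
  have h1 : y ^ (((r - 1 : ℕ) : ℤ) * l) = y ^ (1 : ℤ) := by
    rw [zpow_mul, zpow_natCast, hl', zpow_one]
  rw [zpow_eq_zpow_iff_modEq] at h1
  rw [← Nat.isCoprime_iff_coprime]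
  obtain ⟨t, ht⟩ := h1.dvd
  refine ⟨l, t, ?_⟩
  linarith

theorem nz_comp_inj {G H : Type*} [Group G] [Group H] {S : Type*} [Semiring S] (ρ : H →* S)
    (hρ : NZ ρ) (f : G →* H) (hf : Function.Injective f) : NZ (ρ.comp f) := by
  intro a ha
  have h1 := hρ (f a) (by
    intro h
    apply ha
    apply hf
    rw [h, map_one])
  rw [orderOf_injective f hf] at h1
  exact h1

/-- Zassenhaus: a finite Z-group in which elements of prime order normalizing a subgroup of
prime order centralize it has a presentation `⟨x, y | x^n, y^m, x⁻¹ y x = y^r⟩` with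
`gcd (r - 1, m) = gcd (n, m) = 1` and `r^(n / rad n) ≡ 1 (mod m)`. -/
theorem zgroup_presentation {G : Type*} [Group G] [Finite G] [IsZGroup G]
    (hH : ∀ a b : G, (orderOf a).Prime → (orderOf b).Prime →
      a * b * a⁻¹ ∈ Subgroup.zpowers b → a * b = b * a) :
    ∃ n m r : ℕ, 0 < n ∧ 0 < m ∧ Nat.Coprime (r - 1) m ∧ Nat.Coprime n m ∧ 1 ≤ r ∧
        r ^ (n / ∏ p ∈ n.primeFactors, p) % m = 1 % m ∧
        Nonempty (G ≃* PresentedGroup
          ({FreeGroup.of (0 : Fin 2) ^ n, FreeGroup.of (1 : Fin 2) ^ m,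
            (FreeGroup.of (0 : Fin 2))⁻¹ * FreeGroup.of 1 * FreeGroup.of 0 *
              (FreeGroup.of (1 : Fin 2) ^ r)⁻¹} : Set (FreeGroup (Fin 2)))) := by
  have hcop := IsZGroup.coprime_commutator_index G
  obtain ⟨H, hHc⟩ := Subgroup.exists_right_complement'_of_coprime hcop
  have hNc : IsCyclic (commutator G) := IsZGroup.isCyclic_commutator G
  have hAb : IsCyclic (G ⧸ commutator G) := (inferInstance : IsCyclic (Abelianization G))
  have hHcyc : IsCyclic H := isCyclic_of_surjective _ (hHc.symm.QuotientMulEquiv).surjective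
  obtain ⟨y₀, hy₀⟩ := hNc.exists_generator
  obtain ⟨x₀, hx₀⟩ := hHcyc.exists_generator
  have hoy : orderOf (y₀ : G) = Nat.card (commutator G) := by
    rw [Subgroup.orderOf_coe]; exact orderOf_eq_card_of_forall_mem_zpowers hy₀
  have hox : orderOf (x₀ : G) = Nat.card H := by
    rw [Subgroup.orderOf_coe]; exact orderOf_eq_card_of_forall_mem_zpowers hx₀
  have hNy : ∀ w ∈ commutator G, w ∈ Subgroup.zpowers (y₀ : G) := by
    intro w hw
    obtain ⟨k, hk⟩ := hy₀ ⟨w, hw⟩
    refine ⟨k, ?_⟩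
    have := congrArg Subtype.val hk
    simpa using this
  have hHx : ∀ w ∈ H, w ∈ Subgroup.zpowers (x₀ : G) := by
    intro w hw
    obtain ⟨k, hk⟩ := hx₀ ⟨w, hw⟩
    refine ⟨k, ?_⟩
    have := congrArg Subtype.val hk
    simpa using this
  have hyN : (y₀ : G) ∈ commutator G := y₀.2
  generalize (y₀ : G) = y at hoy hNy hyN
  generalize (x₀ : G) = x at hox hHx
  have hm : 0 < orderOf y := orderOf_pos y
  have hn : 0 < orderOf x := orderOf_pos x
  have hnorm : ∀ g : G, g * y * g⁻¹ ∈ Subgroup.zpowers y := fun g =>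
    hNy _ ((inferInstance : (commutator G).Normal).conj_mem y hyN g)
  have h1 : x⁻¹ * y * x ∈ Subgroup.zpowers y := by
    have := hnorm x⁻¹
    rwa [inv_inv] at this
  rw [← mem_powers_iff_mem_zpowers] at h1
  obtain ⟨k₀, hk₀⟩ := h1
  have hk₀' : y ^ k₀ = x⁻¹ * y * x := hk₀
  have hxy : x⁻¹ * y * x = y ^ (k₀ + orderOf y) := by
    rw [pow_add, pow_orderOf_eq_one, mul_one, hk₀']
  have hr1 : 1 ≤ k₀ + orderOf y := by omega
  generalize k₀ + orderOf y = r at hxy hr1
  have hgen : ∀ g : G, ∃ i j : ℤ, g = x ^ i * y ^ j := by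
    intro g
    obtain ⟨⟨h, w⟩, hhw, -⟩ := hHc.symm.existsUnique g
    obtain ⟨i, hi⟩ := hHx h h.2
    obtain ⟨j, hj⟩ := hNy w w.2
    refine ⟨i, j, ?_⟩
    have hi' : x ^ i = h := hi
    have hj' : y ^ j = w := hj
    rw [hi', hj']
    exact hhw.symm
  have hcard : orderOf x * orderOf y = Nat.card G := by
    rw [hox, hoy, mul_comm]
    exact hHc.card_mul_card
  have hcopnm : Nat.Coprime (orderOf x) (orderOf y) := by
    rw [hox, hoy, ← hHc.symm.index_eq_card]
    exact hcop.symm
  have key : ∀ i : ℕ, Commute (x ^ i) y → (r : ZMod (orderOf y)) ^ i = 1 := by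
    intro i hc
    have h := conj_pow_rel x y r hxy i
    have h2 : (x ^ i)⁻¹ * y * x ^ i = y := by
      rw [mul_assoc, ← hc.eq, inv_mul_cancel_left]
    rw [h2] at h
    have h3 : y ^ (r ^ i) = y ^ 1 := by
      rw [pow_one]
      exact h.symm
    rw [pow_eq_pow_iff_modEq] at h3
    have h4 := (ZMod.natCast_eq_natCast_iff _ _ _).2 h3
    simpa using h4
  refine ⟨orderOf x, orderOf y, r, hn, hm,
    coprime_of_commutator x y r hxy hr1 hgen hnorm hyN, hcopnm, hr1, ?_,
    presentation_of_gens x y _ _ r hn hm (pow_orderOf_eq_one x) (pow_orderOf_eq_one y) hxy hgen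
      hcard.le⟩
  rw [← ZMod.natCast_eq_natCast_iff', Nat.cast_pow, Nat.cast_one]
  apply pow_div_rad_eq_one _ _ hn
  · apply key
    rw [pow_orderOf_eq_one]
    exact Commute.one_left y
  · intro p hp hpn
    apply key
    have hap : (x ^ (orderOf x / p)) ^ p = 1 := by
      rw [← pow_mul, Nat.div_mul_cancel hpn, pow_orderOf_eq_one]
    have hoa : orderOf (x ^ (orderOf x / p)) = p := by
      have hne : orderOf x / p ≠ 0 :=
        (Nat.div_pos (Nat.le_of_dvd hn hpn) hp.pos).ne'
      rw [orderOf_pow' x hne, Nat.gcd_eq_right (Nat.div_dvd_of_dvd hpn),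
        Nat.div_div_self hpn hn.ne']
    apply commute_of_commute_primes _ p hap (orderOf y) y rfl hm
      (Nat.Coprime.coprime_dvd_left hpn hcopnm) (hnorm _)
    intro w hw hwp
    apply hH _ w (by rw [hoa]; exact hp) hwp
    obtain ⟨l, rfl⟩ := hw
    obtain ⟨k, hk⟩ := hnorm (x ^ (orderOf x / p))
    have hk' : y ^ k = x ^ (orderOf x / p) * y * (x ^ (orderOf x / p))⁻¹ := hk
    refine ⟨k, ?_⟩
    change (y ^ l) ^ k = x ^ (orderOf x / p) * y ^ l * (x ^ (orderOf x / p))⁻¹
    rw [← conj_zpow, ← hk', ← zpow_mul, ← zpow_mul, mul_comm]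

end Cfsg.Agent.Lib.Helper95.ZPres
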